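import Cfsg.Agent.Lib.Helper47.QuadDefs
import Cfsg.Agent.Lib.Helper47.GUPrime

/-!
# S2674 piece RMODEL (helper43): models for dual-invariant multisets of cyclotomic factors
-/

set_option autoImplicit false

namespace Cfsg.Agent.Lib.Helper43.QuadRMODEL

open Polynomial Module Cfsg.Agent.Lib.Helper47

universe u

/-- A quadratic space with an isometry of order dividing `r`, characteristic polynomial `P`
and type `ε`. -/
def Model {F : Type u} [Field F] [Fintype F] (r : ℕ) (P : F[X]) (ε : ℤ) : Prop :=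
  ∃ (M : Type u) (_ : AddCommGroup M) (_ : Module F M) (_ : FiniteDimensional F M)
    (Q : M → F) (B : M → M → F) (x : Module.End F M),
    IsQuad Q B ∧ Nondeg B ∧ (∀ v, Q (x v) = Q v) ∧ x ^ r = 1 ∧ x.charpoly = P ∧
    ∃ j : ℕ, finrank F M = 2 * j + 2 ∧ IsTyp Q j ε

lemma prodMap_pow' {F : Type*} [Field F] {M₁ M₂ : Type*} [AddCommGroup M₁] [Module F M₁]
    [AddCommGroup M₂] [Module F M₂] (x₁ : Module.End F M₁) (x₂ : Module.End F M₂) (n : ℕ) :
    (LinearMap.prodMap x₁ x₂ : Module.End F (M₁ × M₂)) ^ n = LinearMap.prodMap (x₁ ^ n) (x₂ ^ n) := by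
  induction n with
  | zero => rw [pow_zero, pow_zero, pow_zero, LinearMap.prodMap_one]
  | succ n ih => rw [pow_succ, ih, LinearMap.prodMap_mul, ← pow_succ, ← pow_succ]

lemma model_prod {F : Type u} [Field F] [Fintype F]
    (hprod : ∀ {V₁ V₂ : Type u} [Finite V₁] [Finite V₂] (Q₁ : V₁ → F) (Q₂ : V₂ → F)
      {k₁ k₂ : ℕ} {ε₁ ε₂ : ℤ}, IsTyp Q₁ k₁ ε₁ → IsTyp Q₂ k₂ ε₂ →
      IsTyp (fun x : V₁ × V₂ => Q₁ x.1 + Q₂ x.2) (k₁ + k₂ + 1) (ε₁ * ε₂))
    {r : ℕ} {P₁ P₂ : F[X]} {ε₁ ε₂ : ℤ} (h₁ : Model r P₁ ε₁) (h₂ : Model r P₂ ε₂) :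
    Model r (P₁ * P₂) (ε₁ * ε₂) := by
  obtain ⟨M₁, _, _, _, Q₁, B₁, x₁, hQ₁, hnd₁, hx₁, hr₁, hc₁, j₁, hj₁, ht₁⟩ := h₁
  obtain ⟨M₂, _, _, _, Q₂, B₂, x₂, hQ₂, hnd₂, hx₂, hr₂, hc₂, j₂, hj₂, ht₂⟩ := h₂
  have hfin₁ : Finite M₁ := Module.finite_of_finite F
  have hfin₂ : Finite M₂ := Module.finite_of_finite F
  refine ⟨M₁ × M₂, inferInstance, inferInstance, inferInstance, fun v => Q₁ v.1 + Q₂ v.2,
    fun v w => B₁ v.1 w.1 + B₂ v.2 w.2, LinearMap.prodMap x₁ x₂, hQ₁.prod hQ₂,
    nondeg_prod hQ₁.form hQ₂.form hnd₁ hnd₂, ?_, ?_, ?_, j₁ + j₂ + 1, ?_, ?_⟩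
  · intro v
    show Q₁ (x₁ v.1) + Q₂ (x₂ v.2) = Q₁ v.1 + Q₂ v.2
    rw [hx₁, hx₂]
  · rw [prodMap_pow', hr₁, hr₂, LinearMap.prodMap_one]
  · rw [LinearMap.charpoly_prodMap, hc₁, hc₂]
  · rw [Module.finrank_prod, hj₁, hj₂]
    ring
  · exact hprod Q₁ Q₂ ht₁ ht₂

-- PIECE RMODEL
theorem exists_rmodel {F : Type u} [Field F] [Fintype F] (p : ℕ) [Fact p.Prime] [CharP F p]
    (hprod : ∀ {V₁ V₂ : Type u} [Finite V₁] [Finite V₂] (Q₁ : V₁ → F) (Q₂ : V₂ → F)
      {k₁ k₂ : ℕ} {ε₁ ε₂ : ℤ}, IsTyp Q₁ k₁ ε₁ → IsTyp Q₂ k₂ ε₂ →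
      IsTyp (fun x : V₁ × V₂ => Q₁ x.1 + Q₂ x.2) (k₁ + k₂ + 1) (ε₁ * ε₂))
    (hself : ∀ (r : ℕ), r.Prime → r ≠ 2 → (r : F) ≠ 0 → ∀ f : F[X], IsCycFactor r f →
      dualP (RingHom.id F) f = f →
      ∃ (M : Type u) (_ : AddCommGroup M) (_ : Module F M) (_ : FiniteDimensional F M)
        (Q : M → F) (B : M → M → F) (x : Module.End F M),
        IsQuad Q B ∧ Nondeg B ∧ (∀ v, Q (x v) = Q v) ∧ x ^ r = 1 ∧ x.charpoly = f ∧
        ∃ j : ℕ, finrank F M = 2 * j + 2 ∧ IsTyp Q j (-1))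
    (hhyp : ∀ (k : ℕ) (A : Matrix (Fin (k + 1)) (Fin (k + 1)) F) (r : ℕ), 0 < r → A ^ r = 1 →
      ∃ (M : Type u) (_ : AddCommGroup M) (_ : Module F M) (_ : FiniteDimensional F M)
        (Q : M → F) (B : M → M → F) (x : Module.End F M),
        IsQuad Q B ∧ Nondeg B ∧ (∀ v, Q (x v) = Q v) ∧ x ^ r = 1 ∧
        x.charpoly = A.charpoly * dualP (RingHom.id F) A.charpoly ∧
        finrank F M = 2 * k + 2 ∧ IsTyp Q k 1) :
    ∀ (r : ℕ) (u : Multiset F[X]), r.Prime → r ≠ 2 → (r : F) ≠ 0 →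
      (∀ f ∈ u, IsCycFactor r f) → u.map (dualP (RingHom.id F)) = u → u ≠ 0 →
      ∃ (M : Type u) (_ : AddCommGroup M) (_ : Module F M) (_ : FiniteDimensional F M)
        (Q : M → F) (B : M → M → F) (x : Module.End F M),
        IsQuad Q B ∧ Nondeg B ∧ (∀ v, Q (x v) = Q v) ∧ x ^ r = 1 ∧ x.charpoly = u.prod ∧
        ∃ j : ℕ, finrank F M = 2 * j + 2 ∧ IsTyp Q j (tauSign u) := by
  intro r u hr hr2 hrF
  have hσ : ∀ x : F, (RingHom.id F) ((RingHom.id F) x) = x := fun _ => rfl
  have key : ∀ (n : ℕ) (u : Multiset F[X]), Multiset.card u = n →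
      (∀ f ∈ u, IsCycFactor r f) → u.map (dualP (RingHom.id F)) = u → u ≠ 0 →
      Model r u.prod (tauSign u) := by
    intro n
    induction n using Nat.strong_induction_on with
    | _ n ih =>
      intro u hn hu hinv hne
      obtain ⟨f, hf⟩ := Multiset.exists_mem_of_ne_zero hne
      have hfc : IsCycFactor r f := hu f hf
      obtain ⟨-, -, -, hdd⟩ := dualP_props p hσ f hfc.1 (hfc.coeff_zero_ne hr.pos)
      by_cases hDf : dualP (RingHom.id F) f = f
      · -- self-dual factor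
        obtain ⟨u', rfl⟩ := Multiset.exists_cons_of_mem hf
        have hinv' : u'.map (dualP (RingHom.id F)) = u' := by
          rw [Multiset.map_cons, hDf] at hinv
          exact (Multiset.cons_inj_right f).mp hinv
        have hm1 : Model r f (-1) := hself r hr hr2 hrF f hfc hDf
        by_cases hu' : u' = 0
        · subst hu'
          rw [Multiset.prod_cons, Multiset.prod_zero, mul_one, tauSign_cons_self hDf,
            tauSign_zero]
          exact hm1
        · have hm2 : Model r u'.prod (tauSign u') :=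
            ih (Multiset.card u') (by rw [← hn, Multiset.card_cons]; omega) u' rfl
              (fun g hg => hu g (Multiset.mem_cons_of_mem hg)) hinv' hu'
          have hm := model_prod hprod hm1 hm2
          rw [Multiset.prod_cons, tauSign_cons_self hDf, neg_eq_neg_one_mul]
          exact hm
      · -- a dual pair
        have hDmem : dualP (RingHom.id F) f ∈ u := by
          have h1 := Multiset.mem_map_of_mem (dualP (RingHom.id F)) hf
          rwa [hinv] at h1
        obtain ⟨u', rfl⟩ := Multiset.exists_cons_of_mem hf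
        have hDmem' : dualP (RingHom.id F) f ∈ u' := by
          rcases Multiset.mem_cons.mp hDmem with h1 | h1
          · exact absurd h1 hDf
          · exact h1
        obtain ⟨u'', rfl⟩ := Multiset.exists_cons_of_mem hDmem'
        have hinv'' : u''.map (dualP (RingHom.id F)) = u'' := by
          rw [Multiset.map_cons, Multiset.map_cons, hdd, Multiset.cons_swap] at hinv
          exact (Multiset.cons_inj_right _).mp ((Multiset.cons_inj_right _).mp hinv)
        have hDf' : dualP (RingHom.id F) (dualP (RingHom.id F) f) ≠ dualP (RingHom.id F) f := by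
          rw [hdd]
          exact fun h => hDf h.symm
        -- the hyperbolic model
        have hdeg : 0 < f.natDegree := hfc.2.1.natDegree_pos
        obtain ⟨k, hk⟩ : ∃ k, f.natDegree = k + 1 := ⟨f.natDegree - 1, by omega⟩
        obtain ⟨A, hA, hAr⟩ := exists_matrix_of_factors (n := k + 1) p hr 0 ({f} : Multiset F[X])
          (fun g hg => by rw [Multiset.mem_singleton.mp hg]; exact hfc)
          (by rw [pow_zero, one_mul, Multiset.prod_singleton, hk])
        rw [pow_zero, one_mul, Multiset.prod_singleton] at hA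
        have hm1 : Model r (f * dualP (RingHom.id F) f) 1 := by
          obtain ⟨M, i1, i2, i3, Q, B, x, h1, h2, h3, h4, h5, h6, h7⟩ := hhyp k A r hr.pos hAr
          rw [hA] at h5
          exact ⟨M, i1, i2, i3, Q, B, x, h1, h2, h3, h4, h5, k, h6, h7⟩
        by_cases hu'' : u'' = 0
        · subst hu''
          rw [Multiset.prod_cons, Multiset.prod_cons, Multiset.prod_zero, mul_one,
            tauSign_cons_ne hDf, tauSign_cons_ne hDf', tauSign_zero]
          exact hm1
        · have hm2 : Model r u''.prod (tauSign u'') :=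
            ih (Multiset.card u'') (by rw [← hn, Multiset.card_cons, Multiset.card_cons]; omega)
              u'' rfl
              (fun g hg => hu g (Multiset.mem_cons_of_mem (Multiset.mem_cons_of_mem hg)))
              hinv'' hu''
          have hm := model_prod hprod hm1 hm2
          rw [Multiset.prod_cons, Multiset.prod_cons, tauSign_cons_ne hDf, tauSign_cons_ne hDf',
            ← mul_assoc, ← one_mul (tauSign u'')]
          exact hm
  intro hu hinv hne
  exact key _ u rfl hu hinv hne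

end Cfsg.Agent.Lib.Helper43.QuadRMODEL
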