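import Mathlib
import Cfsg.Agent.Lib.Helper47.DualPoly
import Cfsg.Agent.Lib.Helper47.PrimeOrd

/-!
S5981 piece SDMULT (helper96's board): a matrix of order dividing `r` whose characteristic
polynomial equals that of its inverse has a self-dual multiset of cyclotomic factors.
-/

set_option autoImplicit false

namespace Cfsg.Agent.Lib.Helper43.Oq

open Polynomial Matrix
open Cfsg.Agent.Lib.Helper47

theorem selfdual_multiset {F : Type*} [Field F] [Fintype F] {p : ℕ} [Fact p.Prime] [CharP F p]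
    {n : ℕ} (r : ℕ) (hr : r.Prime) (hr2 : r ≠ 2) (hrp : r ≠ p)
    (A : Matrix (Fin n) (Fin n) F) (hA : A ^ r = 1) (hinv : (A⁻¹).charpoly = A.charpoly)
    (c : ℕ) (s : Multiset F[X]) (hs : ∀ f ∈ s, IsCycFactor r f)
    (hch : A.charpoly = (X - 1) ^ c * s.prod) :
    s.map (dualP (RingHom.id F)) = s := by
  classical
  have hAu : IsUnit A := by
    have h1 : A * A ^ (r - 1) = 1 := by rw [← pow_succ', Nat.sub_add_cancel hr.pos, hA]
    exact IsUnit.of_mul_eq_one _ h1
  have hdet : IsUnit A.det := (Matrix.isUnit_iff_isUnit_det A).mp hAu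
  have h1 : ((sT (RingHom.id F) A)⁻¹).charpoly = dualP (RingHom.id F) A.charpoly :=
    charpoly_sT_inv A hdet
  have h2 : (sT (RingHom.id F) A)⁻¹ = (A⁻¹)ᵀ := by
    rw [Matrix.transpose_nonsing_inv]
    congr 1
  rw [h2, Matrix.charpoly_transpose, hinv] at h1
  have h3 : dualP (RingHom.id F) A.charpoly =
      (X - 1) ^ c * (s.map (dualP (RingHom.id F))).prod := by
    rw [hch, dualP_mul, dualP_pow, dualP_X_sub_one, dualP_multiset_prod]
  have hs' : ∀ f ∈ s.map (dualP (RingHom.id F)), IsCycFactor r f := by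
    intro f hf
    obtain ⟨g, hg, rfl⟩ := Multiset.mem_map.mp hf
    exact dualP_isCycFactor p (fun x => rfl) hr hrp (hs g hg)
  have h4 := normalizedFactors_cyc_prod p hr hrp c s hs
  have h5 := normalizedFactors_cyc_prod p hr hrp c _ hs'
  rw [← h3, ← h1, hch] at h5
  exact h5.symm.trans h4

end Cfsg.Agent.Lib.Helper43.Oq
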