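import Mathlib
import Cfsg.Agent.Lib.Helper17.HBStmt
import Cfsg.Agent.Lib.Helper14.DualHH

/-!
# S0633 (Hall–Higman Theorem B), piece HB-WRAP (main part)

Derivation of the S0633 statement from the core statement `HBCore` over the algebraic closure.
-/

set_option autoImplicit false
open Cfsg

namespace Cfsg.Agent.Lib.Helper43.HBWrap

/-- The base change ring homomorphism `End_F(V) → End_K(K^d)` attached to a basis. -/
noncomputable def baseChange {F : Type*} [Field F] (K : Type*) [Field K] [Algebra F K]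
    {V : Type*} [AddCommGroup V] [Module F V] {d : ℕ} (b : Module.Basis (Fin d) F V) :
    Module.End F V →+* Module.End K (Fin d → K) :=
  ((Matrix.toLinAlgEquiv' : Matrix (Fin d) (Fin d) K ≃ₐ[K] _).toRingEquiv.toRingHom).comp
    (((algebraMap F K).mapMatrix (m := Fin d)).comp
      ((LinearMap.toMatrixAlgEquiv b).toRingEquiv.toRingHom))

theorem baseChange_injective {F : Type*} [Field F] (K : Type*) [Field K] [Algebra F K]
    {V : Type*} [AddCommGroup V] [Module F V] {d : ℕ} (b : Module.Basis (Fin d) F V) :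
    Function.Injective (baseChange K b) := by
  unfold baseChange
  intro f g hfg
  simp only [RingHom.coe_comp, Function.comp_apply] at hfg
  have h1 := (Matrix.toLinAlgEquiv' : Matrix (Fin d) (Fin d) K ≃ₐ[K] _).toRingEquiv.injective hfg
  have h2 : Function.Injective ((algebraMap F K).mapMatrix (m := Fin d)) := by
    intro A B hAB
    exact Matrix.map_injective (algebraMap F K).injective hAB
  have h3 := h2 h1
  exact (LinearMap.toMatrixAlgEquiv b).toRingEquiv.injective h3

universe u1 u2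

/-- S0633 from the core statement `HBCore`, with piece HB-SYL (for the group `↥H`) as an explicit
hypothesis `hsyl`. -/
theorem hb_wrap_aux {F : Type u1} [Field F] {p : ℕ} [Fact p.Prime] [CharP F p] {V : Type u2} [AddCommGroup V] [Module F V] [FiniteDimensional F V] [Nontrivial V]
    (hcore : ∀ q : ℕ, q.Prime → q ≠ p → Cfsg.Agent.Lib.Helper17.HBCore.{u2, u1, u1} (AlgebraicClosure F) p q)
    (H : Subgroup (V ≃ₗ[F] V)) [Finite H]
    (hsyl : ∀ (K : Subgroup H) [K.Normal], (Nat.card K).Coprime p → ∀ (x y : H) (n : ℕ),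
      x ^ p ^ n = 1 → y ∈ Subgroup.zpowers x → (∃ k ∈ K, y * k ≠ k * y) →
      ∃ (q : ℕ) (Q : Subgroup H), q.Prime ∧ q ≠ p ∧ Q ≤ K ∧ IsPGroup q Q ∧
        x ∈ Subgroup.normalizer (Q : Set H) ∧ ∃ g ∈ Q, y * g ≠ g * y)
    (hsol : Cfsg.IsPSolvable p H) (hOp : Cfsg.pCore p H = ⊥) (x : V ≃ₗ[F] V) (hx : x ∈ H) (n : ℕ) (hn : orderOf x = p ^ n) (r : ℕ) (hr : minpoly F (x : Module.End F V) = (Polynomial.X - 1) ^ r) : r = p ^ n ∨ ∃ n₀ q m : ℕ, 1 ≤ n₀ ∧ n₀ ≤ n ∧ q.Prime ∧ 1 ≤ m ∧ p ^ n₀ - 1 = q ^ m ∧ (∀ Q : Sylow q H, ¬ IsMulCommutative Q) ∧ p ^ (n - n₀) * (p ^ n₀ - 1) ≤ r := by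
  classical
  have hp : p.Prime := Fact.out
  set X : Module.End F V := (x : Module.End F V) with hX
  have hXhom : ∀ g : V ≃ₗ[F] V,
      (g : Module.End F V) = LinearEquiv.automorphismGroup.toLinearMapMonoidHom g := fun _ => rfl
  -- evaluation of `(X - 1)^k`
  have haev : ∀ k : ℕ, Polynomial.aeval X ((Polynomial.X - 1 : Polynomial F) ^ k) = (X - 1) ^ k := by
    intro k
    simp
  -- `(X - 1)^k = 0 → r ≤ k`
  have hmin : ∀ k : ℕ, (X - 1) ^ k = 0 → r ≤ k := by
    intro k hk
    have h1 : minpoly F X ∣ (Polynomial.X - 1 : Polynomial F) ^ k := by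
      apply minpoly.dvd
      rw [haev k, hk]
    rw [hr] at h1
    have hne : (Polynomial.X - 1 : Polynomial F) ≠ 0 := by
      have := Polynomial.X_sub_C_ne_zero (1 : F)
      simpa using this
    have hnu : ¬ IsUnit (Polynomial.X - 1 : Polynomial F) := by
      have := Polynomial.not_isUnit_X_sub_C (1 : F)
      simpa using this
    exact (pow_dvd_pow_iff hne hnu).mp h1
  -- `X ^ (p^n) = 1`
  have hXpow : X ^ (p ^ n) = 1 := by
    have h1 : x ^ (p ^ n) = 1 := by rw [← hn]; exact pow_orderOf_eq_one x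
    rw [hX, hXhom, ← map_pow, h1, map_one]
  -- `(X - 1)^(p^n) = 0`
  have hpn : (X - 1) ^ (p ^ n) = 0 := by
    have h1 : ((Polynomial.X - 1 : Polynomial F)) ^ (p ^ n)
        = Polynomial.X ^ (p ^ n) - 1 := by
      rw [sub_pow_char_pow, one_pow]
    rw [← haev, h1]
    simp [hXpow]
  have hrle : r ≤ p ^ n := hmin _ hpn
  -- `r ≠ 0`
  have hr0 : r ≠ 0 := by
    rintro rfl
    have h0 := minpoly.aeval F X
    rw [hr, haev 0, pow_zero] at h0
    exact one_ne_zero h0
  rcases Nat.eq_zero_or_pos n with hn0 | hnpos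
  · left
    subst hn0
    simp only [pow_zero] at hrle ⊢
    omega
  -- the case `n ≥ 1`
  have hn1 : 1 ≤ n := hnpos
  set xH : H := ⟨x, hx⟩ with hxH
  have hordxH : orderOf xH = p ^ n := by
    rw [← hn]
    exact Subgroup.orderOf_mk x hx
  set yH : H := xH ^ (p ^ (n - 1)) with hyH
  have hyne : yH ≠ 1 := by
    apply pow_ne_one_of_lt_orderOf (pow_pos hp.pos _).ne'
    rw [hordxH]
    exact Nat.pow_lt_pow_right hp.one_lt (by omega)
  have hyp : yH ^ p = 1 := by
    rw [hyH, ← pow_mul, ← pow_succ, show n - 1 + 1 = n by omega, ← hordxH]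
    exact pow_orderOf_eq_one xH
  have hKc : (Nat.card (pPrimeCore p H)).Coprime p := Cfsg.Agent.Lib.Helper14.pPrimeCore_coprime
  have hcent := Cfsg.Agent.Lib.Helper14.centralizer_pPrimeCore_le hsol hOp
  have hyK : ∃ k ∈ pPrimeCore p H, yH * k ≠ k * yH := by
    by_contra hcon
    push Not at hcon
    have hmem : yH ∈ pPrimeCore p H := by
      apply hcent
      rw [Subgroup.mem_centralizer_iff]
      intro k hk
      exact (hcon k hk).symm
    have h1 : orderOf yH ∣ Nat.card (pPrimeCore p H) := by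
      have := orderOf_dvd_natCard (⟨yH, hmem⟩ : pPrimeCore p H)
      rwa [Subgroup.orderOf_mk] at this
    have h2 : orderOf yH ∣ p := orderOf_dvd_of_pow_eq_one hyp
    have h3 : orderOf yH = 1 := Nat.eq_one_of_dvd_coprimes hKc h1 h2
    exact hyne (orderOf_eq_one_iff.mp h3)
  have hxpow : xH ^ p ^ n = 1 := by
    rw [← hordxH]; exact pow_orderOf_eq_one xH
  obtain ⟨q, Q, hq, hqp, -, hQ, hxQ, g, hgQ, hgy⟩ :=
    hsyl (pPrimeCore p H) hKc xH yH n hxpow
      (Subgroup.pow_mem _ (Subgroup.mem_zpowers xH) _) hyK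
  -- the representation
  set d := Module.finrank F V with hd
  set b : Module.Basis (Fin d) F V := Module.finBasis F V with hb
  set Φ := baseChange (AlgebraicClosure F) b with hΦ
  have hΦinj : Function.Injective Φ := baseChange_injective (AlgebraicClosure F) b
  set ρ : H →* Module.End (AlgebraicClosure F) (Fin d → AlgebraicClosure F) :=
    (Φ : Module.End F V →* _).comp
      ((LinearEquiv.automorphismGroup.toLinearMapMonoidHom).comp H.subtype) with hρ
  have hρinj : Function.Injective ρ := by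
    intro a c hac
    have h1 : LinearEquiv.automorphismGroup.toLinearMapMonoidHom (a : V ≃ₗ[F] V)
        = LinearEquiv.automorphismGroup.toLinearMapMonoidHom (c : V ≃ₗ[F] V) := hΦinj hac
    apply Subtype.ext
    apply LinearEquiv.toLinearMap_injective
    exact h1
  have hρx : ρ xH = Φ X := rfl
  have hρpow : ∀ k : ℕ, (ρ xH - 1) ^ k = Φ ((X - 1) ^ k) := by
    intro k
    rw [hρx, map_pow, map_sub, map_one]
  have hne_iff : ∀ k : ℕ, (ρ xH - 1) ^ k ≠ 0 → ¬ r ≤ k := by
    intro k hk hrk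
    apply hk
    have h1 : (X - 1) ^ r = 0 := by
      have h0 := minpoly.aeval F X
      rwa [hr, haev r] at h0
    have h2 : (X - 1) ^ k = 0 := by
      rw [← Nat.sub_add_cancel hrk, pow_add, h1, mul_zero]
    rw [hρpow, h2, map_zero]
  have hρxp : ρ xH ^ (p ^ n) = 1 := by
    rw [← map_pow, hxpow, map_one]
  have hnc : ∃ g ∈ Q, ρ (xH ^ p ^ (n - 1)) * ρ g ≠ ρ g * ρ (xH ^ p ^ (n - 1)) := by
    refine ⟨g, hgQ, fun h => hgy ?_⟩
    rw [← map_mul, ← map_mul] at h
    exact hρinj h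
  rcases hcore q hq hqp H (Fin d → AlgebraicClosure F) ρ Q xH n hQ hxQ hn1 hρxp hnc with
    h1 | ⟨n₀, m, hn₀1, hn₀n, hm1, hpq, ⟨g1, hg1, g2, hg2, hg12⟩, hB⟩
  · left
    have := hne_iff _ h1
    omega
  · right
    refine ⟨n₀, q, m, hn₀1, hn₀n, hq, hm1, hpq, ?_, ?_⟩
    · intro S hS
      have : Fact q.Prime := ⟨hq⟩
      obtain ⟨S₀, hS₀⟩ := hQ.exists_le_sylow
      obtain ⟨c, hc⟩ := MulAction.exists_smul_eq H S S₀
      have hmemS : ∀ a : H, a ∈ Q → c⁻¹ * a * c ∈ (S : Subgroup H) := by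
        intro a ha
        have h1 : a ∈ (c • S : Sylow q H) := by rw [hc]; exact hS₀ ha
        have h1' : a ∈ ((c • S : Sylow q H) : Subgroup H) := h1
        rw [Sylow.smul_def, Sylow.pointwise_smul_def,
          Subgroup.mem_pointwise_smul_iff_inv_smul_mem] at h1'
        simpa [MulAut.smul_def, mul_assoc] using h1'
      have hcomm := hS.is_comm.comm (⟨_, hmemS g1 hg1⟩ : (S : Subgroup H))
        ⟨_, hmemS g2 hg2⟩
      have h2 : (c⁻¹ * g1 * c) * (c⁻¹ * g2 * c) = (c⁻¹ * g2 * c) * (c⁻¹ * g1 * c) :=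
        congrArg Subtype.val hcomm
      have h3 : g1 * g2 = g2 * g1 := by
        have h4 : c⁻¹ * (g1 * g2) * c = c⁻¹ * (g2 * g1) * c := by
          calc c⁻¹ * (g1 * g2) * c = (c⁻¹ * g1 * c) * (c⁻¹ * g2 * c) := by group
            _ = (c⁻¹ * g2 * c) * (c⁻¹ * g1 * c) := h2
            _ = c⁻¹ * (g2 * g1) * c := by group
        exact mul_left_cancel (mul_right_cancel h4)
      apply hg12
      rw [← map_mul, ← map_mul, h3]
    · have := hne_iff _ hB
      omega

end Cfsg.Agent.Lib.Helper43.HBWrap
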