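import Mathlib
import Cfsg.Agent.Lib.Helper43.HBWrapA
import Cfsg.Agent.Lib.Helper92.HBSyl

/-!
# S0633 (Hall–Higman Theorem B), piece HB-WRAP

The S0633 statement from the core statement `HBCore` over the algebraic closure
(`hb_wrap_aux` combined with piece HB-SYL).
-/

set_option autoImplicit false
open Cfsg

namespace Cfsg.Agent.Lib.Helper43.HBWrap

universe u1 u2

theorem hb_wrap {F : Type u1} [Field F] {p : ℕ} [Fact p.Prime] [CharP F p] {V : Type u2} [AddCommGroup V] [Module F V] [FiniteDimensional F V] [Nontrivial V]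
    (hcore : ∀ q : ℕ, q.Prime → q ≠ p → Cfsg.Agent.Lib.Helper17.HBCore.{u2, u1, u1} (AlgebraicClosure F) p q)
    (H : Subgroup (V ≃ₗ[F] V)) [Finite H] (hsol : Cfsg.IsPSolvable p H) (hOp : Cfsg.pCore p H = ⊥) (x : V ≃ₗ[F] V) (hx : x ∈ H) (n : ℕ) (hn : orderOf x = p ^ n) (r : ℕ) (hr : minpoly F (x : Module.End F V) = (Polynomial.X - 1) ^ r) : r = p ^ n ∨ ∃ n₀ q m : ℕ, 1 ≤ n₀ ∧ n₀ ≤ n ∧ q.Prime ∧ 1 ≤ m ∧ p ^ n₀ - 1 = q ^ m ∧ (∀ Q : Sylow q H, ¬ IsMulCommutative Q) ∧ p ^ (n - n₀) * (p ^ n₀ - 1) ≤ r :=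
  hb_wrap_aux hcore H
    (fun K _ hK x y n hx hy hyK => Cfsg.Agent.Lib.Helper92.HB.hb_invariant_sylow K hK x y n hx hy hyK)
    hsol hOp x hx n hn r hr

end Cfsg.Agent.Lib.Helper43.HBWrap
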