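import Mathlib
import Cfsg.Prelude.Def_RootSubgroups
import Cfsg.Agent.Lib.Helper12.RootInv
import Cfsg.Agent.Lib.Helper20.RI1

/-!
# S5046 (root involutions), piece LEMA (for helper20)

`a` commutes with `(u (β y)^2)^2`.
-/

set_option autoImplicit false

namespace Cfsg.Agent.Lib.Helper43.RI

open Cfsg Cfsg.Agent.Lib.Helper12.RootInv Cfsg.Agent.Lib.Helper20.RI

variable {G : Type*} [Group G]

set_option linter.unusedVariables false in
/-- PIECE LEMA. -/
theorem lemma_A {D : Set G} (hD : IsRootInvolutionSet D) {a u β y : G} (ha : a ∈ D) (hu : u ∈ D) (hβ : β ∈ D)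
    (hy : y ∈ D) (hau : a * u = u * a) (hA : oddPartners D a = oddPartners D u) (hβu : β * u = u * β)
    (haβ : a * β * a = u * β) (hodd : Odd (orderOf (u * y))) (hyu : y ≠ u) (h4 : orderOf (β * y) = 4) :
    a * (u * (β * y) ^ 2) ^ 2 = (u * (β * y) ^ 2) ^ 2 * a := by
  have ha2 := ri_sq hD ha
  have hu2 := ri_sq hD hu
  have hβ2 := ri_sq hD hβ
  have hy2 := ri_sq hD hy
  have ha2' : ∀ t : G, a * (a * t) = t := fun t => by rw [← mul_assoc, ha2, one_mul]
  have hu2' : ∀ t : G, u * (u * t) = t := fun t => by rw [← mul_assoc, hu2, one_mul]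
  have hβ2' : ∀ t : G, β * (β * t) = t := fun t => by rw [← mul_assoc, hβ2, one_mul]
  have hp4 := four_pow h4
  -- `v = (β y)^2`
  obtain ⟨v, hv⟩ : ∃ v : G, v = (β * y) ^ 2 := ⟨_, rfl⟩
  rw [← hv]
  have hvD : v ∈ D := by rw [hv]; exact four_mem hD hβ hy h4
  have hv2 : v * v = 1 := by rw [hv]; exact sq_sq hp4
  have hβv : β * v = v * β := by rw [hv]; exact sq_comm_left hβ2 hy2 hp4
  have hyv : y * v = v * y := by rw [hv]; exact sq_comm_right hβ2 hy2 hp4
  have hvy : v * y = β * y * β := by rw [hv]; exact inv_sq_right hy2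
  -- `b' = y β y`
  obtain ⟨b', hb'⟩ : ∃ b' : G, b' = y * β * y := ⟨_, rfl⟩
  have hb'D : b' ∈ D := by
    rw [hb']
    have h1 := hD.conj_mem β hβ y
    rwa [ri_inv hD hy] at h1
  have hb'2 := ri_sq hD hb'D
  have hvb : v = β * b' := by
    rw [hv, hb', pow_two]; simp only [mul_assoc]
  have hb'v : b' = β * v := by rw [hvb, hβ2']
  have hββ' : β * b' = b' * β := by
    have h1 : (β * b') * (β * b') = 1 := by rw [← hvb]; exact hv2
    have h2 : β * b' = (β * b')⁻¹ := eq_inv_of_mul_eq_one_left h1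
    rw [mul_inv_rev, ri_inv hD hb'D, ri_inv hD hβ] at h2
    exact h2
  -- `u β ∈ D`
  have huβD : u * β ∈ D := by
    rw [← haβ]
    have h1 := hD.conj_mem β hβ a
    rwa [ri_inv hD ha] at h1
  -- `u v ≠ v u`
  have huv_ne : u * v ≠ v * u := by
    intro huv
    obtain ⟨k, hk⟩ := hodd
    have hρ : (u * y) ^ (2 * k + 1) = 1 := by rw [← hk]; exact pow_orderOf_eq_one _
    have e1 : β * (u * y) * β = v * (u * y) := by
      calc β * (u * y) * β = (β * u) * y * β := by simp only [mul_assoc]
        _ = (u * β) * y * β := by rw [hβu]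
        _ = u * (β * y * β) := by simp only [mul_assoc]
        _ = u * (v * y) := by rw [hvy]
        _ = (u * v) * y := by rw [mul_assoc]
        _ = (v * u) * y := by rw [huv]
        _ = v * (u * y) := by rw [mul_assoc]
    have e2 : (β * (u * y) * β) ^ (2 * k + 1) = 1 := by
      have h1 : β * (u * y) * β = β * (u * y) * β⁻¹ := by rw [ri_inv hD hβ]
      rw [h1, conj_pow, hρ, mul_one, mul_inv_cancel]
    have hcomm : Commute v (u * y) := by
      show v * (u * y) = (u * y) * v
      calc v * (u * y) = (v * u) * y := by rw [mul_assoc]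
        _ = (u * v) * y := by rw [huv]
        _ = u * (v * y) := by rw [mul_assoc]
        _ = u * (y * v) := by rw [hyv]
        _ = (u * y) * v := by rw [mul_assoc]
    rw [e1, hcomm.mul_pow, hρ, mul_one] at e2
    have e3 : v ^ (2 * k + 1) = v := by
      rw [pow_succ, pow_mul, pow_two, hv2, one_pow, one_mul]
    exact ri_ne_one hD hvD (e3.symm.trans e2)
  have hnodd_uv : ¬ Odd (orderOf (u * v)) := by
    intro ho
    have h1 := l2 hD hβ2 (ri_ne_one hD hβ) hβu.symm huβD hvD hβv.symm ho
    apply huv_ne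
    rw [← h1]
  obtain ⟨h4uv, hpD⟩ := four_of_not hD hu hvD huv_ne hnodd_uv
  have hp4uv := four_pow h4uv
  have hpp : (u * v) ^ 2 * (u * v) ^ 2 = 1 := sq_sq hp4uv
  have hp1 : (u * v) ^ 2 ≠ 1 := ri_ne_one hD hpD
  -- `(u v)^2 = (u b')^2`
  have hβb'' : β * (u * b' * u) = (u * b' * u) * β := by
    calc β * (u * b' * u) = (β * u) * b' * u := by simp only [mul_assoc]
      _ = (u * β) * b' * u := by rw [hβu]
      _ = u * (β * b') * u := by simp only [mul_assoc]
      _ = u * (b' * β) * u := by rw [hββ']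
      _ = u * b' * (β * u) := by simp only [mul_assoc]
      _ = u * b' * (u * β) := by rw [hβu]
      _ = (u * b' * u) * β := by simp only [mul_assoc]
  have h3 : (u * v) ^ 2 = (u * b') ^ 2 := by
    calc (u * v) ^ 2 = u * (β * b') * (u * (β * b')) := by rw [pow_two, hvb]
      _ = (u * β) * b' * u * β * b' := by simp only [mul_assoc]
      _ = (β * u) * b' * u * β * b' := by rw [hβu]
      _ = β * ((u * b' * u) * β) * b' := by simp only [mul_assoc]
      _ = β * (β * (u * b' * u)) * b' := by rw [hβb'']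
      _ = (u * b') ^ 2 := by rw [hβ2', pow_two]; simp only [mul_assoc]
  -- `u b'` has order 4
  have h4ub' : orderOf (u * b') = 4 := by
    have : Fact (Nat.Prime 2) := ⟨Nat.prime_two⟩
    have h1 := orderOf_eq_prime_pow (x := u * b') (p := 2) (n := 1)
      (by rw [pow_one, ← h3]; exact hp1)
      (by
        rw [show (2 : ℕ) ^ (1 + 1) = 2 * 2 from rfl, pow_mul, ← h3, pow_two]
        exact hpp)
    exact h1
  have hb'a : b' ∉ oddPartners D a := by
    rw [hA]
    rintro ⟨-, -, ho⟩
    exact four_not_odd h4ub' ho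
  have h4ab' : (a * b') ^ 4 = 1 := by
    by_cases hba : b' = a
    · rw [hba, ha2, one_pow]
    · exact pow4_of_not_odd hD ha hb'D (fun ho => hb'a ⟨hb'D, hba, ho⟩)
  have haπ : a * (a * b') ^ 2 = (a * b') ^ 2 * a := sq_comm_left ha2 hb'2 h4ab'
  -- `(a v)^4 = 1`
  have hva : v ∉ oddPartners D a := by
    rw [hA]
    rintro ⟨-, -, ho⟩
    exact four_not_odd h4uv ho
  have h4av : (a * v) ^ 4 = 1 := by
    by_cases hva' : v = a
    · rw [hva', ha2, one_pow]
    · exact pow4_of_not_odd hD ha hvD (fun ho => hva ⟨hvD, hva', ho⟩)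
  have haq : a * (a * v) ^ 2 = (a * v) ^ 2 * a := sq_comm_left ha2 hv2 h4av
  have hava : a * v * a = (a * v) ^ 2 * v := (inv_sq_right hv2).symm
  -- `(a b')^2 = (a v)^2 u (u v)^2`
  have hcomm1 : (a * β * a) * (a * v * a) = (a * v * a) * (a * β * a) := by
    have e1 : (a * β * a) * (a * v * a) = a * (β * v) * a := by simp only [mul_assoc, ha2']
    have e2 : (a * v * a) * (a * β * a) = a * (v * β) * a := by simp only [mul_assoc, ha2']
    rw [e1, e2, hβv]
  have h6 : (a * b') ^ 2 = (a * v) ^ 2 * u * (u * v) ^ 2 := by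
    calc (a * b') ^ 2 = (a * β * a) * (a * v * a) * β * v := by
          rw [pow_two, hb'v]; simp only [mul_assoc, ha2']
      _ = (a * v * a) * (a * β * a) * β * v := by rw [hcomm1]
      _ = (a * v * a) * u * v := by rw [haβ]; simp only [mul_assoc, hβ2']
      _ = (a * v) ^ 2 * u * (u * v) ^ 2 := by
          rw [hava]; simp only [pow_two, mul_assoc, hu2']
  -- conclusion
  have key : ∀ (Q P W : G), W = Q * u * P → a * W = W * a → a * Q = Q * a → a * P = P * a := by
    intro Q P W h1 h2 h3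
    apply mul_left_cancel (a := Q * u)
    calc Q * u * (a * P) = Q * (u * a) * P := by simp only [mul_assoc]
      _ = Q * (a * u) * P := by rw [hau]
      _ = (Q * a) * u * P := by simp only [mul_assoc]
      _ = (a * Q) * u * P := by rw [h3]
      _ = a * (Q * u * P) := by simp only [mul_assoc]
      _ = a * W := by rw [h1]
      _ = W * a := h2
      _ = Q * u * P * a := by rw [h1]
      _ = Q * u * (P * a) := by simp only [mul_assoc]
  exact key _ _ _ h6 haπ haq

end Cfsg.Agent.Lib.Helper43.RI
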