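import Mathlib
import Cfsg.Prelude.Def_GeometricClasses
import Cfsg.Prelude.Def_LieClassical
import Cfsg.Agent.Lib.Helper47.GUConj
import Cfsg.Agent.Lib.Helper50.UfFROB

/-!
# S5982 project (helper96), piece UF-STD (helper43)

Every unitary form `f` (`IsUnitaryFormPow q₀`) on `F^n`, `|F| = q₀²`, is
`f u v = hermForm (Y u) (Y v)` for an invertible matrix `Y`.
-/

set_option autoImplicit false

universe u

namespace Cfsg.Agent.Lib.Helper43.Uf

open Polynomial Matrix
open scoped MatrixGroups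

-- PIECE STD
theorem exists_std {F : Type*} [Field F] [Fintype F] (p : ℕ) [Fact p.Prime] [CharP F p] (q₀ : ℕ)
    (hq : Fintype.card F = q₀ ^ 2) (n : ℕ) (f : (Fin n → F) → (Fin n → F) → F)
    (hf : Cfsg.Geo.IsUnitaryFormPow q₀ f) :
    ∃ Y : Matrix (Fin n) (Fin n) F, IsUnit Y.det ∧
      ∀ u v, f u v = Cfsg.hermForm n F q₀ (Y *ᵥ u) (Y *ᵥ v) := by
  classical
  obtain ⟨σ, hσq, hσ, hne⟩ := Cfsg.Agent.Lib.Helper50.Uf.exists_frob p q₀ hq
  -- the linear map `u ↦ f u v`
  let L : (Fin n → F) → ((Fin n → F) →ₗ[F] F) := fun v =>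
    { toFun := fun u => f u v
      map_add' := fun x y => hf.add_left x y v
      map_smul' := fun c x => by
        rw [RingHom.id_apply, smul_eq_mul]
        exact hf.smul_left c x v }
  let e : Fin n → (Fin n → F) := fun i j => if i = j then 1 else 0
  have h1 : ∀ u v, f u v = ∑ i, u i * f (e i) v := by
    intro u v
    exact LinearMap.pi_apply_eq_sum_univ (L v) u
  have h2 : ∀ u v, f u v = ∑ j, σ (v j) * f u (e j) := by
    intro u v
    rw [hf.herm u v, ← hσq, h1 v u, map_sum]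
    apply Finset.sum_congr rfl
    intro j _
    rw [map_mul, hσq (f (e j) u), ← hf.herm u (e j)]
  let a : Matrix (Fin n) (Fin n) F := Matrix.of fun i j => f (e j) (e i)
  have h3 : ∀ u v, f u v = Cfsg.Agent.Lib.Helper47.uForm σ (a *ᵥ u) v := by
    intro u v
    rw [h2 u v]
    unfold Cfsg.Agent.Lib.Helper47.uForm
    apply Finset.sum_congr rfl
    intro j _
    rw [mul_comm]
    congr 1
    rw [h1 u (e j)]
    simp only [Matrix.mulVec, dotProduct, a, Matrix.of_apply]
    apply Finset.sum_congr rfl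
    intro i _
    rw [mul_comm]
  have hB := Cfsg.Agent.Lib.Helper47.uForm_isSForm (ι := Fin n) σ hσ
  have ha : Cfsg.Agent.Lib.Helper47.HermM σ a := by
    intro u v
    rw [← h3 u v, hB.symm (a *ᵥ v) u, one_mul, ← h3 v u, hσq, ← hf.herm u v]
  have hinj : Function.Injective a.mulVec := by
    intro u u' huu
    by_contra hne'
    have hd : u - u' ≠ 0 := sub_ne_zero.mpr hne'
    obtain ⟨-, x, hx⟩ := hf.nondegenerate (u - u') hd
    apply hx
    rw [h3, Matrix.mulVec_sub, huu, sub_self]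
    simp [Cfsg.Agent.Lib.Helper47.uForm]
  have hunit : IsUnit a := Matrix.mulVec_injective_iff_isUnit.mp hinj
  obtain ⟨P, hP⟩ := Cfsg.Agent.Lib.Helper47.exists_poly_norm_matrix p hσ hne a ha hunit
  refine ⟨aeval a P, ?_, ?_⟩
  · have h4 : IsUnit a.det := (Matrix.isUnit_iff_isUnit_det a).mp hunit
    rw [← hP, Matrix.det_mul] at h4
    exact isUnit_of_mul_isUnit_right h4
  · intro u v
    have h5 : Cfsg.hermForm n F q₀ (aeval a P *ᵥ u) (aeval a P *ᵥ v) =
        Cfsg.Agent.Lib.Helper47.uForm σ (aeval a P *ᵥ u) (aeval a P *ᵥ v) := by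
      unfold Cfsg.hermForm Cfsg.Agent.Lib.Helper47.uForm
      apply Finset.sum_congr rfl
      intro i _
      rw [hσq]
    rw [h5, Cfsg.Agent.Lib.Helper47.herm_aeval hσ ha P, Matrix.mulVec_mulVec, hP, ← ha u v, ← h3]

end Cfsg.Agent.Lib.Helper43.Uf
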