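import Mathlib

/-!
# S3789 piece EIG (helper43): a simultaneous eigenvector for commuting involutions
-/

set_option autoImplicit false

universe u

namespace Cfsg.Agent.Lib.Helper43

theorem exists_eigen {A : Type u} [CommGroup A] [Finite A] {H : Type u} [Group H]
    (θ : H →* MulAut A) (Y : Subgroup H) (hY2 : ∀ y ∈ Y, y * y = 1)
    (hYc : ∀ y₁ ∈ Y, ∀ y₂ ∈ Y, y₁ * y₂ = y₂ * y₁) (y₀ : H) (hy₀ : y₀ ∈ Y) (hy₀1 : θ y₀ ≠ 1) :
    ∃ w : A, w ≠ 1 ∧ θ y₀ w = w⁻¹ ∧ ∀ y ∈ Y, θ y w = w ∨ θ y w = w⁻¹ := by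
  classical
  have hθmul : ∀ (a b : H) (v : A), θ (a * b) v = θ a (θ b v) := by
    intro a b v
    rw [map_mul, MulAut.mul_apply]
  have hθsq : ∀ y ∈ Y, ∀ v : A, θ y (θ y v) = v := by
    intro y hy v
    rw [← hθmul, hY2 y hy, map_one, MulAut.one_apply]
  have hθcomm : ∀ y₁ ∈ Y, ∀ y₂ ∈ Y, ∀ v : A, θ y₁ (θ y₂ v) = θ y₂ (θ y₁ v) := by
    intro y₁ h₁ y₂ h₂ v
    rw [← hθmul, ← hθmul, hYc y₁ h₁ y₂ h₂]
  -- the subgroup of vectors inverted by `y₀`
  let B₀ : Subgroup A :=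
    { carrier := {v | θ y₀ v = v⁻¹}
      one_mem' := by
        show θ y₀ 1 = 1⁻¹
        rw [map_one, inv_one]
      mul_mem' := by
        intro a b ha hb
        show θ y₀ (a * b) = (a * b)⁻¹
        have ha' : θ y₀ a = a⁻¹ := ha
        have hb' : θ y₀ b = b⁻¹ := hb
        rw [map_mul, ha', hb', mul_inv]
      inv_mem' := by
        intro a ha
        show θ y₀ a⁻¹ = a⁻¹⁻¹
        have ha' : θ y₀ a = a⁻¹ := ha
        rw [map_inv, ha'] }
  have hB₀mem : ∀ v, v ∈ B₀ ↔ θ y₀ v = v⁻¹ := fun v => Iff.rfl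
  let P : Subgroup A → Prop := fun B => B ≤ B₀ ∧ B ≠ ⊥ ∧ ∀ y ∈ Y, ∀ b ∈ B, θ y b ∈ B
  have hB₀P : P B₀ := by
    refine ⟨le_rfl, ?_, ?_⟩
    · have hv : ∃ v, θ y₀ v ≠ v := by
        by_contra h
        push Not at h
        apply hy₀1
        ext v
        rw [h v, MulAut.one_apply]
      obtain ⟨v, hv⟩ := hv
      intro hbot
      have hw : θ y₀ v / v ∈ B₀ := by
        rw [hB₀mem, map_div, hθsq y₀ hy₀, inv_div]
      rw [hbot, Subgroup.mem_bot, div_eq_one] at hw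
      exact hv hw
    · intro y hy b hb
      rw [hB₀mem] at hb ⊢
      rw [hθcomm y₀ hy₀ y hy, hb, map_inv]
  have hex : ∃ n, ∃ B : Subgroup A, P B ∧ Nat.card B = n := ⟨_, B₀, hB₀P, rfl⟩
  obtain ⟨B, hBP, hBn⟩ := Nat.find_spec hex
  have hmin : ∀ B' : Subgroup A, P B' → Nat.card B ≤ Nat.card B' := fun B' hB' => by
    rw [hBn]; exact Nat.find_min' hex ⟨B', hB', rfl⟩
  obtain ⟨hBle, hBne, hBinv⟩ := hBP
  have hdich : ∀ y ∈ Y, (∀ b ∈ B, θ y b = b) ∨ (∀ b ∈ B, θ y b = b⁻¹) := by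
    intro y hy
    let Bp : Subgroup A :=
      { carrier := {b | b ∈ B ∧ θ y b = b}
        one_mem' := ⟨B.one_mem, map_one _⟩
        mul_mem' := by
          rintro a b ⟨ha, ha'⟩ ⟨hb, hb'⟩
          exact ⟨B.mul_mem ha hb, by rw [map_mul, ha', hb']⟩
        inv_mem' := by
          rintro a ⟨ha, ha'⟩
          exact ⟨B.inv_mem ha, by rw [map_inv, ha']⟩ }
    have hBpmem : ∀ b, b ∈ Bp ↔ b ∈ B ∧ θ y b = b := fun b => Iff.rfl
    have hBple : Bp ≤ B := fun b hb => ((hBpmem b).mp hb).1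
    by_cases hbot : Bp = ⊥
    · right
      intro b hb
      have h1 : b * θ y b ∈ Bp := by
        rw [hBpmem]
        refine ⟨B.mul_mem hb (hBinv y hy b hb), ?_⟩
        rw [map_mul, hθsq y hy, mul_comm]
      rw [hbot, Subgroup.mem_bot] at h1
      exact eq_inv_of_mul_eq_one_right h1
    · left
      have hPp : P Bp := by
        refine ⟨hBple.trans hBle, hbot, ?_⟩
        intro y' hy' b hb
        rw [hBpmem] at hb ⊢
        refine ⟨hBinv y' hy' b hb.1, ?_⟩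
        rw [hθcomm y hy y' hy', hb.2]
      have heq : Bp = B := Subgroup.eq_of_le_of_card_ge hBple (hmin Bp hPp)
      intro b hb
      rw [← heq] at hb
      exact ((hBpmem b).mp hb).2
  obtain ⟨⟨w, hwB⟩, hw1⟩ := (Subgroup.ne_bot_iff_exists_ne_one).mp hBne
  have hw1' : w ≠ 1 := fun h => hw1 (Subtype.ext h)
  refine ⟨w, hw1', (hB₀mem w).mp (hBle hwB), fun y hy => ?_⟩
  rcases hdich y hy with h | h
  · exact Or.inl (h w hwB)
  · exact Or.inr (h w hwB)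

end Cfsg.Agent.Lib.Helper43
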