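import Mathlib
import Cfsg.Prelude.Def_KGroupFacts
import Cfsg.Agent.Lib.Helper70.SchurThree
import Cfsg.Agent.Lib.Helper55.AltDih
import Cfsg.Agent.Lib.Helper86.AltJ2

/-!
# S2116 piece J4 (helper43, for helper70): the kernel of a stem extension of `A_6`, `A_7` is a
quotient of `Z/6`
-/

set_option autoImplicit false
open scoped commutatorElement

namespace Cfsg.Agent.Lib.Helper43

open Cfsg.Agent.Lib.Helper70

/-- lifts `a`, `b` of two involutions: `a (ab) a⁻¹ (ab)` lies in the kernel. -/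
theorem j4_h2 {Γ : Type*} {G : Type*} [Group Γ] [Group G] (σ : Γ →* G) {s t : G} {a b : Γ}
    (ha : σ a = s) (hb : σ b = t) (hs : s * s = 1) (ht : t * t = 1) :
    a * (a * b) * a⁻¹ * (a * b) ∈ σ.ker := by
  rw [MonoidHom.mem_ker]
  simp only [map_mul, map_inv, ha, hb]
  have hsi : s⁻¹ = s := inv_eq_of_mul_eq_one_left hs
  rw [hsi]
  calc s * (s * t) * s * (s * t) = (s * s) * t * (s * s) * t := by group
    _ = 1 := by rw [hs, one_mul, mul_one, ht]

/-- the commutator subgroup of the preimage of a group generated by two involutions. -/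
theorem j4_dihedral {Γ : Type*} {G : Type*} [Group Γ] [Group G] (σ : Γ →* G)
    (hc : σ.ker ≤ Subgroup.center Γ) {s t : G} {a b : Γ} (ha : σ a = s) (hb : σ b = t)
    (hs : s * s = 1) (ht : t * t = 1) :
    ⁅(Subgroup.closure ({s, t} : Set G)).comap σ, (Subgroup.closure ({s, t} : Set G)).comap σ⁆ ≤
      Subgroup.zpowers ⁅a * b, a⁆ := by
  have h2 := j4_h2 σ ha hb hs ht
  have h3 : Commute (a * a) (a * b) := by
    have : a * a ∈ σ.ker := by rw [MonoidHom.mem_ker, map_mul, ha, hs]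
    exact (Subgroup.mem_center_iff.mp (hc this) (a * b)).symm
  obtain ⟨H, hH⟩ : ∃ H : Subgroup Γ,
      H = Subgroup.closure (({a * b, a} : Set Γ) ∪ (σ.ker : Set Γ)) := ⟨_, rfl⟩
  have hKH : σ.ker ≤ H := by
    intro k hk
    rw [hH]
    exact Subgroup.subset_closure (Set.mem_union_right _ hk)
  have hρH : a * b ∈ H := by
    rw [hH]
    exact Subgroup.subset_closure (Set.mem_union_left _ (by simp))
  have hξH : a ∈ H := by
    rw [hH]
    exact Subgroup.subset_closure (Set.mem_union_left _ (by simp))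
  have hPH : (Subgroup.closure ({s, t} : Set G)).comap σ ≤ H := by
    refine (comap_closure_pair_le (σ := σ) ha hb).trans ?_
    rw [Subgroup.closure_le]
    rintro x (hx | hx)
    · rcases hx with rfl | rfl
      · exact hξH
      · have : x = a⁻¹ * (a * x) := by group
        rw [this]
        exact H.mul_mem (H.inv_mem hξH) hρH
    · exact hKH hx
  have hcen : (σ.ker).subgroupOf H ≤ Subgroup.center H := by
    intro k hk
    rw [Subgroup.mem_center_iff]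
    intro g
    apply Subtype.ext
    exact Subgroup.mem_center_iff.mp (hc (Subgroup.mem_subgroupOf.mp hk)) g
  have hgen : Subgroup.closure (({(⟨a * b, hρH⟩ : H), ⟨a, hξH⟩} : Set H) ∪
      ((σ.ker).subgroupOf H : Set H)) = ⊤ := by
    subst hH
    have := Subgroup.closure_closure_coe_preimage (k := (({a * b, a} : Set Γ) ∪ (σ.ker : Set Γ)))
    convert this using 2
    ext x
    simp [Subgroup.mem_subgroupOf, Subtype.ext_iff]
  have key := commutator_le_zpowers_of_dihedral_type ((σ.ker).subgroupOf H) hcen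
    ⟨a * b, hρH⟩ ⟨a, hξH⟩ hgen (by rw [Subgroup.mem_subgroupOf]; exact h2)
    (Subtype.ext h3.eq)
  calc ⁅(Subgroup.closure ({s, t} : Set G)).comap σ, (Subgroup.closure ({s, t} : Set G)).comap σ⁆
      ≤ ⁅H, H⁆ := Subgroup.commutator_mono hPH hPH
    _ = (commutator H).map H.subtype := (Subgroup.map_subtype_commutator H).symm
    _ ≤ (Subgroup.zpowers ⁅(⟨a * b, hρH⟩ : H), ⟨a, hξH⟩⁆).map H.subtype := Subgroup.map_mono key
    _ = Subgroup.zpowers ⁅a * b, a⁆ := by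
        rw [MonoidHom.map_zpowers]
        rfl

/-- **Piece J4.** The kernel of a stem extension of `A_6` or `A_7` is a quotient of `Z/6`. -/
theorem alt_ker_le (n : ℕ) (hn : n = 6 ∨ n = 7) (Γ : Type) [Group Γ] [Finite Γ]
    (σ : Γ →* alternatingGroup (Fin n)) (hσ : Cfsg.IsStemExtension σ) :
    ∃ π : Multiplicative (ZMod 6) →* σ.ker, Function.Surjective π := by
  obtain ⟨hsurj, hc, hd⟩ := hσ
  -- the prime 2
  obtain ⟨s, t, m, hs, ht, hm, hcard, hodd⟩ :=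
    Cfsg.Agent.Lib.Helper55.alt_dihedral_odd_index n
      (by rcases hn with rfl | rfl <;> norm_num) (by rcases hn with rfl | rfl <;> norm_num)
  have hm4 : orderOf (s * t * (s * t)) = 2 := by
    rcases hm with ⟨rfl, _⟩ | ⟨_, h⟩
    · exfalso
      have hmul := Subgroup.card_mul_index
        (Subgroup.closure ({s, t} : Set (alternatingGroup (Fin n))))
      rw [hcard] at hmul
      apply hodd
      rcases hn with rfl | rfl
      · rw [Cfsg.Agent.Lib.Helper86.j2_card_alt6] at hmul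
        omega
      · rw [Cfsg.Agent.Lib.Helper86.j2_card_alt7] at hmul
        omega
    · exact h
  have hss : s * s = 1 := by
    have := pow_orderOf_eq_one s
    rwa [hs, pow_two] at this
  have htt : t * t = 1 := by
    have := pow_orderOf_eq_one t
    rwa [ht, pow_two] at this
  have hst4 : (s * t * (s * t)) * (s * t * (s * t)) = 1 := by
    have := pow_orderOf_eq_one (s * t * (s * t))
    rwa [hm4, pow_two] at this
  obtain ⟨a, ha⟩ := hsurj s
  obtain ⟨b, hb⟩ := hsurj t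
  have hP := j4_dihedral σ hc ha hb hss htt
  have hρ4 : (a * b) ^ 4 ∈ σ.ker := by
    rw [MonoidHom.mem_ker, map_pow, map_mul, ha, hb]
    have : (s * t) ^ 4 = (s * t * (s * t)) * (s * t * (s * t)) := by
      rw [show (4 : ℕ) = 2 + 2 from rfl, pow_add, pow_two]
    rw [this, hst4]
  have hc4 : ⁅a * b, a⁆ ^ 4 = 1 :=
    dihedral_type_pow_eq_one σ.ker hc (a * b) a (j4_h2 σ ha hb hss htt) 4
      (Subgroup.mem_center_iff.mp (hc hρ4) a)
  have hσc : σ ⁅a * b, a⁆ = s * t * (s * t) := by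
    rw [map_commutatorElement, map_mul, ha, hb, commutatorElement_def]
    have hsi : s⁻¹ = s := inv_eq_of_mul_eq_one_left hss
    have hti : t⁻¹ = t := inv_eq_of_mul_eq_one_left htt
    rw [mul_inv_rev, hsi, hti]
    calc s * t * s * (t * s) * s = s * t * s * t * (s * s) := by group
      _ = s * t * (s * t) := by rw [hss]; group
  have hαK : ⁅a * b, a⁆ ^ 2 ∈ σ.ker := by
    rw [MonoidHom.mem_ker, map_pow, hσc, pow_two, hst4]
  have hα2 : (⁅a * b, a⁆ ^ 2) ^ 2 = 1 := by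
    rw [← pow_mul]
    exact hc4
  have claim2 : ∀ z ∈ σ.ker,
      z ^ (Subgroup.closure ({s, t} : Set (alternatingGroup (Fin n)))).index ∈
        Subgroup.zpowers (⁅a * b, a⁆ ^ 2) := by
    intro z hz
    have h1 := hP (pow_index_mem_commutator_comap σ hsurj hc hd
      (Subgroup.closure ({s, t} : Set (alternatingGroup (Fin n)))) hz)
    obtain ⟨j, hj⟩ := Subgroup.mem_zpowers_iff.mp h1
    have h2 : σ (⁅a * b, a⁆ ^ j) = 1 := by
      rw [hj]
      exact MonoidHom.mem_ker.mp (Subgroup.pow_mem _ hz _)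
    rw [map_zpow, hσc] at h2
    have hdvd : ((2 : ℕ) : ℤ) ∣ j := by
      rw [← hm4]
      exact orderOf_dvd_iff_zpow_eq_one.mpr h2
    obtain ⟨k, rfl⟩ := hdvd
    rw [← hj, Subgroup.mem_zpowers_iff]
    exact ⟨k, by rw [zpow_mul, zpow_natCast]⟩
  -- the prime 3
  obtain ⟨u₁, u₂, hu1, hu2, hu12, h3idx⟩ := Cfsg.Agent.Lib.Helper86.alt_three_sq n hn
  obtain ⟨β₁, hβ1⟩ := hsurj u₁
  obtain ⟨β₂, hβ2⟩ := hsurj u₂
  have hU := commutator_comap_closure_pair_le σ hc hβ1 hβ2 hu12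
  have hκK : ⁅β₁, β₂⁆ ∈ σ.ker := by
    rw [MonoidHom.mem_ker, map_commutatorElement, hβ1, hβ2,
      commutatorElement_eq_one_iff_mul_comm]
    exact hu12
  have hκ3 : ⁅β₁, β₂⁆ ^ 3 = 1 := by
    refine central_commutator_pow_eq_one β₁ β₂ (hc hκK) 3 ?_
    have : β₂ ^ 3 ∈ σ.ker := by rw [MonoidHom.mem_ker, map_pow, hβ2, hu2]
    exact Subgroup.mem_center_iff.mp (hc this) β₁
  have claim3 : ∀ z ∈ σ.ker,
      z ^ (Subgroup.closure ({u₁, u₂} : Set (alternatingGroup (Fin n)))).index ∈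
        Subgroup.zpowers ⁅β₁, β₂⁆ := by
    intro z hz
    exact hU (pow_index_mem_commutator_comap σ hsurj hc hd
      (Subgroup.closure ({u₁, u₂} : Set (alternatingGroup (Fin n)))) hz)
  -- the primes at least 5
  have claim5 : ∀ ℓ : ℕ, ℓ.Prime → ℓ ≠ 2 → ℓ ≠ 3 → ∀ z ∈ σ.ker, ¬ ℓ ∣ orderOf z := by
    intro ℓ hℓ h2 h3 z hz hdvd
    have hfact : Fact ℓ.Prime := ⟨hℓ⟩
    obtain ⟨R⟩ := (inferInstance : Nonempty (Sylow ℓ (alternatingGroup (Fin n))))
    have hcyc : IsCyclic (R : Subgroup (alternatingGroup (Fin n))) :=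
      Cfsg.Agent.Lib.Helper86.alt_sylow_cyclic n hn ℓ h2 h3 R
    have hbot := commutator_comap_eq_bot_of_isCyclic σ hc (R : Subgroup (alternatingGroup (Fin n)))
    have h1 := pow_index_mem_commutator_comap σ hsurj hc hd
      (R : Subgroup (alternatingGroup (Fin n))) hz
    rw [hbot, Subgroup.mem_bot] at h1
    exact R.not_dvd_index (hdvd.trans (orderOf_dvd_of_pow_eq_one h1))
  -- combine
  have hακ : Commute (⁅a * b, a⁆ ^ 2) ⁅β₁, β₂⁆ :=
    Subgroup.mem_center_iff.mp (hc hκK) _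
  have hαW : ⁅a * b, a⁆ ^ 2 ∈ Subgroup.zpowers (⁅a * b, a⁆ ^ 2 * ⁅β₁, β₂⁆) := by
    have : (⁅a * b, a⁆ ^ 2 * ⁅β₁, β₂⁆) ^ 3 = ⁅a * b, a⁆ ^ 2 := by
      rw [hακ.mul_pow, hκ3, mul_one, pow_succ, hα2, one_mul]
    have h := Subgroup.pow_mem _ (Subgroup.mem_zpowers (⁅a * b, a⁆ ^ 2 * ⁅β₁, β₂⁆)) 3
    rwa [this] at h
  have hκW : ⁅β₁, β₂⁆ ∈ Subgroup.zpowers (⁅a * b, a⁆ ^ 2 * ⁅β₁, β₂⁆) := by
    have : (⁅a * b, a⁆ ^ 2 * ⁅β₁, β₂⁆) ^ 4 = ⁅β₁, β₂⁆ := by
      rw [hακ.mul_pow, pow_succ ⁅β₁, β₂⁆ 3, hκ3, one_mul]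
      have : (⁅a * b, a⁆ ^ 2) ^ 4 = 1 := by
        have h22 : (⁅a * b, a⁆ ^ 2) ^ 4 = ((⁅a * b, a⁆ ^ 2) ^ 2) ^ 2 := by
          rw [show (4 : ℕ) = 2 * 2 from rfl, pow_mul]
        rw [h22, hα2, one_pow]
      rw [this, one_mul]
    have h := Subgroup.pow_mem _ (Subgroup.mem_zpowers (⁅a * b, a⁆ ^ 2 * ⁅β₁, β₂⁆)) 4
    rwa [this] at h
  have hK : σ.ker ≤ Subgroup.zpowers (⁅a * b, a⁆ ^ 2 * ⁅β₁, β₂⁆) := by
    intro z hz
    have h1 : z ^ (Subgroup.closure ({s, t} : Set (alternatingGroup (Fin n)))).index ∈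
        Subgroup.zpowers (⁅a * b, a⁆ ^ 2 * ⁅β₁, β₂⁆) :=
      (Subgroup.zpowers_le.mpr hαW) (claim2 z hz)
    have h2 : z ^ (Subgroup.closure ({u₁, u₂} : Set (alternatingGroup (Fin n)))).index ∈
        Subgroup.zpowers (⁅a * b, a⁆ ^ 2 * ⁅β₁, β₂⁆) :=
      (Subgroup.zpowers_le.mpr hκW) (claim3 z hz)
    obtain ⟨iP, hiP⟩ : ∃ iP, iP =
      (Subgroup.closure ({s, t} : Set (alternatingGroup (Fin n)))).index := ⟨_, rfl⟩
    obtain ⟨iU, hiU⟩ : ∃ iU, iU =
      (Subgroup.closure ({u₁, u₂} : Set (alternatingGroup (Fin n)))).index := ⟨_, rfl⟩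
    rw [← hiP] at h1 hodd
    rw [← hiU] at h2 h3idx
    have h3 : z ^ (Nat.gcd iP iU) ∈ Subgroup.zpowers (⁅a * b, a⁆ ^ 2 * ⁅β₁, β₂⁆) := by
      have hb := Nat.gcd_eq_gcd_ab iP iU
      have : z ^ (Nat.gcd iP iU) = (z ^ iP) ^ (Nat.gcdA iP iU) * (z ^ iU) ^ (Nat.gcdB iP iU) := by
        rw [← zpow_natCast z (Nat.gcd iP iU), hb, zpow_add, zpow_mul, zpow_mul, zpow_natCast,
          zpow_natCast]
      rw [this]
      exact Subgroup.mul_mem _ (Subgroup.zpow_mem _ h1 _) (Subgroup.zpow_mem _ h2 _)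
    have hcop : Nat.Coprime (Nat.gcd iP iU) (orderOf z) := by
      apply Nat.coprime_of_dvd
      intro ℓ hℓ hdvd hdvd'
      have hl2 : ℓ ≠ 2 := by
        rintro rfl
        exact hodd (hdvd.trans (Nat.gcd_dvd_left _ _))
      have hl3 : ℓ ≠ 3 := by
        rintro rfl
        exact h3idx (hdvd.trans (Nat.gcd_dvd_right _ _))
      exact claim5 ℓ hℓ hl2 hl3 z hz hdvd'
    obtain ⟨k, hk⟩ := exists_pow_eq_self_of_coprime hcop
    rw [← hk]
    exact Subgroup.pow_mem _ h3 k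
  have h6 : (⁅a * b, a⁆ ^ 2 * ⁅β₁, β₂⁆) ^ 6 = 1 := by
    rw [hακ.mul_pow]
    have e1 : (⁅a * b, a⁆ ^ 2) ^ 6 = 1 := by
      have h22 : (⁅a * b, a⁆ ^ 2) ^ 6 = ((⁅a * b, a⁆ ^ 2) ^ 2) ^ 3 := by
        rw [show (6 : ℕ) = 2 * 3 from rfl, pow_mul]
      rw [h22, hα2, one_pow]
    have e2 : ⁅β₁, β₂⁆ ^ 6 = 1 := by
      have h32 : ⁅β₁, β₂⁆ ^ 6 = (⁅β₁, β₂⁆ ^ 3) ^ 2 := by
        rw [show (6 : ℕ) = 3 * 2 from rfl, pow_mul]
      rw [h32, hκ3, one_pow]
    rw [e1, e2, one_mul]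
  exact surj_of_le_zpowers σ.ker (⁅a * b, a⁆ ^ 2 * ⁅β₁, β₂⁆) 6 hK h6

end Cfsg.Agent.Lib.Helper43
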