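import Mathlib
import Cfsg.Prelude.Def_Balance
import Cfsg.Prelude.Def_Local
import Cfsg.Agent.S0016
import Cfsg.Agent.Lib.Helper43.DihSyl
import Cfsg.Agent.Lib.Helper43.PComp
import Cfsg.Agent.Lib.Helper30.Basic

/-!
# Reductions to the Brauer–Suzuki theorem (helper43)

`BS` below is the statement of S0201 (Brauer–Suzuki: generalized quaternion Sylow 2-subgroup and
no normal subgroup of odd order ⇒ centre of order 2), taken as a hypothesis, so that this file does
not depend on its proof.

* `unique_order_two`: a 2-group without Klein four-subgroups has at most one subgroup of order 2.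
* `cyclic_case`: cyclic Sylow 2-subgroup ⇒ every involution is central modulo a normal subgroup of
  odd order (Burnside transfer).
* `two_rank_one_of_BS`: even order, no Klein four-subgroup ⇒ some involution is central modulo a
  normal subgroup of odd order (statement of S0225).
* `sylow_quaternion_of_perfect`: in a perfect group of even order without Klein four-subgroups the
  Sylow 2-subgroups are generalized quaternion of order at least 8.
* `central_involution_of_quasisimple`: a quasisimple group of even order without Klein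
  four-subgroups has a central involution (needs `BS`).
* `classical_of_BS`: statement of S1307.
-/

set_option autoImplicit false
open Cfsg

namespace Cfsg.Agent.Lib.Helper43

universe u

/-- a 2-group without Klein four-subgroups has at most one subgroup of order 2 -/
theorem unique_order_two {P : Type*} [Group P] [Finite P] (hP : IsPGroup 2 P)
    (hrank : ∀ E : Subgroup P, ¬ IsKleinFour E) (H K : Subgroup P)
    (hH : Nat.card H = 2) (hK : Nat.card K = 2) : H = K := by
  classical
  by_contra hne
  -- generators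
  have gen : ∀ L : Subgroup P, Nat.card L = 2 → ∃ x : P, x ∈ L ∧ x ≠ 1 ∧ x * x = 1 ∧
      ∀ y ∈ L, y = 1 ∨ y = x := by
    intro L hL
    have hfin : Finite L := Nat.finite_of_card_ne_zero (by omega)
    obtain ⟨x, hx1, hx2⟩ := (Nat.card_eq_two_iff' (1 : L)).mp hL
    refine ⟨x, x.2, fun h => hx1 (Subtype.ext h), ?_, ?_⟩
    · have h2 : x ^ 2 = 1 := by
        have := pow_card_eq_one' (G := L) (x := x)
        rwa [hL] at this
      have h3 : (x : P) ^ 2 = 1 := by
        have := congrArg (Subtype.val) h2
        simpa using this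
      rwa [pow_two] at h3
    · intro y hy
      by_cases hy1 : y = 1
      · exact Or.inl hy1
      · right
        have := hx2 ⟨y, hy⟩ (fun h => hy1 (by simpa using congrArg Subtype.val h))
        exact congrArg Subtype.val this
  obtain ⟨h, hhH, hh1, hh2, hhall⟩ := gen H hH
  obtain ⟨k, hkK, hk1, hk2, hkall⟩ := gen K hK
  have hhk : h ≠ k := by
    intro heq
    apply hne
    ext y
    constructor
    · intro hy
      rcases hhall y hy with rfl | rfl
      · exact K.one_mem
      · rw [heq]; exact hkK
    · intro hy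
      rcases hkall y hy with rfl | rfl
      · exact H.one_mem
      · rw [← heq]; exact hhH
  -- a central involution
  have hnt : Nontrivial P := ⟨⟨h, 1, hh1⟩⟩
  have hcnt : Nontrivial (Subgroup.center P) := hP.center_nontrivial
  have h2dvd : 2 ∣ Nat.card (Subgroup.center P) := by
    obtain ⟨n, hn⟩ := (hP.to_subgroup (Subgroup.center P)).exists_card_eq
    rw [hn]
    have : n ≠ 0 := by
      rintro rfl
      rw [pow_zero] at hn
      have := (Nat.card_eq_one_iff_unique.mp hn).1
      exact not_subsingleton _ this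
    exact dvd_pow_self 2 this
  obtain ⟨z, hz⟩ := exists_prime_orderOf_dvd_card' 2 h2dvd
  have hz1 : (z : P) ≠ 1 := by
    intro h1
    have : z = 1 := Subtype.ext h1
    rw [this, orderOf_one] at hz
    omega
  have hz2 : (z : P) * z = 1 := by
    have := pow_orderOf_eq_one z
    rw [hz] at this
    have := congrArg Subtype.val this
    simpa [pow_two] using this
  have hzc : ∀ x : P, (z : P) * x = x * z := fun x =>
    ((Subgroup.mem_center_iff.mp z.2) x).symm
  by_cases hzh : (z : P) = h
  · obtain ⟨U, -, hU⟩ := exists_kleinFour (z : P) k hz1 hk1 (hzh ▸ hhk) hz2 hk2 (hzc k)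
    exact hrank U hU
  · obtain ⟨U, -, hU⟩ := exists_kleinFour (z : P) h hz1 hh1 hzh hz2 hh2 (hzc h)
    exact hrank U hU

/-- the cyclic case: Burnside transfer -/
theorem cyclic_case {G : Type u} [Group G] [Finite G] (heven : Even (Nat.card G))
    (S : Sylow 2 G) (hS : IsCyclic S) :
    ∃ z : G, orderOf z = 2 ∧ ∃ N : Subgroup G, N.Normal ∧ Odd (Nat.card N) ∧
      ∀ g : G, z * g * z⁻¹ * g⁻¹ ∈ N := by
  have h2 : 2 ∣ Nat.card G := even_iff_two_dvd.mp heven
  obtain ⟨z, hz⟩ := exists_prime_orderOf_dvd_card' 2 h2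
  have hmin : (Nat.card G).minFac = 2 := (Nat.minFac_eq_two_iff _).mpr h2
  refine ⟨z, hz, (MonoidHom.transferSylow S (hS.normalizer_le_centralizer hmin)).ker,
    inferInstance, ?_, ?_⟩
  · rw [← Nat.not_even_iff_odd, even_iff_two_dvd]
    exact MonoidHom.not_dvd_card_ker_transferSylow S (hS.normalizer_le_centralizer hmin)
  · intro g
    rw [MonoidHom.mem_ker, map_mul, map_mul, map_mul, map_inv, map_inv]
    have hcomm : ∀ a b : S, a * b = b * a := fun a b => by
      obtain ⟨c, hc⟩ := hS.exists_generator
      obtain ⟨i, rfl⟩ := Subgroup.mem_zpowers_iff.mp (hc a)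
      obtain ⟨j, rfl⟩ := Subgroup.mem_zpowers_iff.mp (hc b)
      rw [← zpow_add, ← zpow_add, add_comm]
    generalize (MonoidHom.transferSylow S (hS.normalizer_le_centralizer hmin)) z = a
    generalize (MonoidHom.transferSylow S (hS.normalizer_le_centralizer hmin)) g = b
    rw [hcomm a b]
    group

/-- Reduction of the statement to the Brauer–Suzuki theorem `BS`. -/
theorem two_rank_one_of_BS
    (BS : ∀ {G : Type u} [Group G] [Finite G] (S : Sylow 2 G) (n : ℕ)
      (_ : (S : Subgroup G) ≃* QuaternionGroup (2 ^ (n + 1)))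
      (_ : ∀ N : Subgroup G, N.Normal → Odd (Nat.card N) → N = ⊥),
      Nat.card (Subgroup.center G) = 2)
    {G : Type u} [Group G] [Finite G] (heven : Even (Nat.card G))
    (hrank : ∀ E : Subgroup G, ¬ IsKleinFour E) :
    ∃ z : G, orderOf z = 2 ∧ ∃ N : Subgroup G, N.Normal ∧ Odd (Nat.card N) ∧
      ∀ g : G, z * g * z⁻¹ * g⁻¹ ∈ N := by
  classical
  obtain ⟨S⟩ : Nonempty (Sylow 2 G) := inferInstance
  have hrankS : ∀ E : Subgroup S, ¬ IsKleinFour E := by
    intro E hE
    exact hrank (E.map (S : Subgroup G).subtype)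
      (isKleinFour_of_mulEquiv (E.equivMapOfInjective _ (Subgroup.subtype_injective _)) hE)
  have huniq := unique_order_two (P := S) S.2 hrankS
  rcases Cfsg.Agent.S0016.result (G := S) 2 S.2 huniq with hcyc | ⟨-, n, ⟨e⟩⟩
  · exact cyclic_case heven S hcyc
  rcases Nat.eq_zero_or_pos n with rfl | hn
  · have hq : IsCyclic (QuaternionGroup (2 ^ 0)) := by
      rw [pow_zero]; exact QuaternionGroup.quaternionGroup_one_isCyclic
    have hcyc : IsCyclic S := isCyclic_of_surjective e.symm e.symm.surjective
    exact cyclic_case heven S hcyc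
  obtain ⟨m, rfl⟩ : ∃ m, n = m + 1 := ⟨n - 1, by omega⟩
  -- a maximal normal subgroup of odd order
  obtain ⟨N, ⟨hNn, hNodd⟩, hNmax⟩ := Set.exists_max_image
    {N : Subgroup G | N.Normal ∧ Odd (Nat.card N)} (fun N => Nat.card N) (Set.toFinite _)
    ⟨⊥, inferInstance, by simp⟩
  have := hNn
  have hf : Function.Surjective (QuotientGroup.mk' N) := QuotientGroup.mk'_surjective N
  have hO : ∀ M : Subgroup (G ⧸ N), M.Normal → Odd (Nat.card M) → M = ⊥ := by
    intro M hMn hModd
    have hcard : Nat.card (M.comap (QuotientGroup.mk' N)) = Nat.card M * Nat.card N := by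
      have h1 := Subgroup.card_mul_index (M.comap (QuotientGroup.mk' N))
      have h2 := Subgroup.card_mul_index M
      have h3 := Subgroup.card_eq_card_quotient_mul_card_subgroup N
      rw [Subgroup.index_comap_of_surjective M hf] at h1
      have hpos : 0 < M.index := Nat.pos_of_ne_zero Subgroup.index_ne_zero_of_finite
      have : Nat.card (M.comap (QuotientGroup.mk' N)) * M.index =
          Nat.card M * Nat.card N * M.index := by
        rw [h1, h3, ← h2]; ring
      exact Nat.eq_of_mul_eq_mul_right hpos this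
    have hle : N ≤ M.comap (QuotientGroup.mk' N) := by
      intro x hx
      rw [Subgroup.mem_comap]
      have : QuotientGroup.mk' N x = 1 := (QuotientGroup.eq_one_iff x).mpr hx
      rw [this]; exact M.one_mem
    have hmax := hNmax (M.comap (QuotientGroup.mk' N))
      ⟨hMn.comap _, by rw [hcard]; exact hModd.mul hNodd⟩
    have heq : N = M.comap (QuotientGroup.mk' N) := Subgroup.eq_of_le_of_card_ge hle hmax
    rw [← Subgroup.map_comap_eq_self_of_surjective hf M, ← heq]
    exact QuotientGroup.map_mk'_self N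
  -- the image of the Sylow subgroup
  let φ : S →* (G ⧸ N) := (QuotientGroup.mk' N).comp (S : Subgroup G).subtype
  have hφinj : Function.Injective φ := by
    rw [injective_iff_map_eq_one]
    intro x hx
    have hxN : (x : G) ∈ N := (QuotientGroup.eq_one_iff (x : G)).mp hx
    obtain ⟨k, hk⟩ := S.2 x
    have h1 : orderOf (x : G) ∣ 2 ^ k := by
      apply orderOf_dvd_of_pow_eq_one
      have := congrArg Subtype.val hk
      simpa using this
    have h2 : orderOf (x : G) ∣ Nat.card N := by
      apply orderOf_dvd_of_pow_eq_one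
      have h := pow_card_eq_one' (G := N) (x := ⟨(x : G), hxN⟩)
      have h' : ((⟨(x : G), hxN⟩ : N) ^ Nat.card N : N).1 = (1 : N).1 := congrArg Subtype.val h
      rw [Subgroup.coe_pow] at h'
      exact h'
    have hcop : Nat.Coprime (2 ^ k) (Nat.card N) :=
      Nat.Coprime.pow_left k (Nat.coprime_two_left.mpr hNodd)
    have h3 : orderOf (x : G) = 1 := Nat.eq_one_of_dvd_coprimes hcop h1 h2
    exact Subtype.ext (orderOf_eq_one_iff.mp h3)
  have hrange : φ.range = ((S.mapSurjective hf : Sylow 2 (G ⧸ N)) : Subgroup (G ⧸ N)) := by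
    rw [MonoidHom.range_comp, Subgroup.range_subtype]; rfl
  have hZ := BS (S.mapSurjective hf) m
    (((MulEquiv.subgroupCongr hrange).symm.trans (MonoidHom.ofInjective hφinj).symm).trans e) hO
  -- the central involution of the quotient
  obtain ⟨zb, hzb1, -⟩ := (Nat.card_eq_two_iff' (1 : Subgroup.center (G ⧸ N))).mp hZ
  have hzb2 : (zb : G ⧸ N) ^ 2 = 1 := by
    have := pow_card_eq_one' (G := Subgroup.center (G ⧸ N)) (x := zb)
    rw [hZ] at this
    have := congrArg Subtype.val this
    simpa using this
  have hzbne : (zb : G ⧸ N) ≠ 1 := fun h => hzb1 (Subtype.ext h)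
  obtain ⟨w, hw⟩ := hf (zb : G ⧸ N)
  obtain ⟨j, hj⟩ := hNodd
  have hfz : QuotientGroup.mk' N (w ^ Nat.card N) = (zb : G ⧸ N) := by
    rw [map_pow, hw, hj, pow_succ, pow_mul, hzb2, one_pow, one_mul]
  have hw2 : w ^ 2 ∈ N := by
    apply (QuotientGroup.eq_one_iff (w ^ 2)).mp
    have : QuotientGroup.mk' N (w ^ 2) = 1 := by rw [map_pow, hw, hzb2]
    exact this
  have hz2 : (w ^ Nat.card N) ^ 2 = 1 := by
    rw [← pow_mul, mul_comm, pow_mul]
    have h := pow_card_eq_one' (G := N) (x := ⟨w ^ 2, hw2⟩)
    have h' : ((⟨w ^ 2, hw2⟩ : N) ^ Nat.card N : N).1 = (1 : N).1 := congrArg Subtype.val h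
    rw [Subgroup.coe_pow] at h'
    exact h'
  have hzne : w ^ Nat.card N ≠ 1 := by
    intro h
    rw [h, map_one] at hfz
    exact hzbne hfz.symm
  refine ⟨w ^ Nat.card N, orderOf_eq_prime hz2 hzne, N, hNn, ⟨j, hj⟩, ?_⟩
  intro g
  apply (QuotientGroup.eq_one_iff _).mp
  have hc := Subgroup.mem_center_iff.mp zb.2 (QuotientGroup.mk' N g)
  have : QuotientGroup.mk' N (w ^ Nat.card N * g * (w ^ Nat.card N)⁻¹ * g⁻¹) = 1 := by
    rw [map_mul, map_mul, map_mul, map_inv, map_inv, hfz, ← hc]
    group
  exact this


/-- In a perfect group of even order without Klein four-subgroups, every Sylow 2-subgroup is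
generalized quaternion of order at least 8. -/
theorem sylow_quaternion_of_perfect {L : Type u} [Group L] [Finite L] (hperf : Group.IsPerfect L)
    (heven : Even (Nat.card L)) (hrank : ∀ E : Subgroup L, ¬ IsKleinFour E) (S : Sylow 2 L) :
    ∃ n : ℕ, Nonempty ((S : Subgroup L) ≃* QuaternionGroup (2 ^ (n + 1))) := by
  classical
  have h2 : 2 ∣ Nat.card L := even_iff_two_dvd.mp heven
  have hmin : (Nat.card L).minFac = 2 := (Nat.minFac_eq_two_iff _).mpr h2
  have hrankS : ∀ E : Subgroup S, ¬ IsKleinFour E := by
    intro E hE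
    exact hrank (E.map (S : Subgroup L).subtype)
      (isKleinFour_of_mulEquiv (E.equivMapOfInjective _ (Subgroup.subtype_injective _)) hE)
  have huniq := unique_order_two (P := S) S.2 hrankS
  have hnotcyc : ¬ IsCyclic S := by
    intro hS
    have hnd := MonoidHom.not_dvd_card_ker_transferSylow S (hS.normalizer_le_centralizer hmin)
    apply hnd
    have hcomm : ∀ a b : S, a * b = b * a := fun a b => by
      obtain ⟨c, hc⟩ := hS.exists_generator
      obtain ⟨i, rfl⟩ := Subgroup.mem_zpowers_iff.mp (hc a)
      obtain ⟨j, rfl⟩ := Subgroup.mem_zpowers_iff.mp (hc b)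
      rw [← zpow_add, ← zpow_add, add_comm]
    have hker : (MonoidHom.transferSylow S (hS.normalizer_le_centralizer hmin)).ker = ⊤ := by
      rw [eq_top_iff, ← hperf.commutator_eq_top, commutator_def, Subgroup.commutator_le]
      intro a _ b _
      rw [MonoidHom.mem_ker, commutatorElement_def, map_mul, map_mul, map_mul, map_inv, map_inv]
      generalize (MonoidHom.transferSylow S (hS.normalizer_le_centralizer hmin)) a = a'
      generalize (MonoidHom.transferSylow S (hS.normalizer_le_centralizer hmin)) b = b'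
      rw [hcomm a' b']
      group
    rw [hker, Subgroup.card_top]
    exact h2
  rcases Cfsg.Agent.S0016.result (G := S) 2 S.2 huniq with hcyc | ⟨-, n, ⟨e⟩⟩
  · exact absurd hcyc hnotcyc
  rcases Nat.eq_zero_or_pos n with rfl | hn
  · exfalso
    have hq : IsCyclic (QuaternionGroup (2 ^ 0)) := by
      rw [pow_zero]; exact QuaternionGroup.quaternionGroup_one_isCyclic
    exact hnotcyc (isCyclic_of_surjective e.symm e.symm.surjective)
  · obtain ⟨m, rfl⟩ : ∃ m, n = m + 1 := ⟨n - 1, by omega⟩
    exact ⟨m, ⟨e⟩⟩

/-- A quasisimple group of even order without Klein four-subgroups has a central involution. -/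
theorem central_involution_of_quasisimple
    (BS : ∀ {G : Type u} [Group G] [Finite G] (S : Sylow 2 G) (n : ℕ)
      (_ : (S : Subgroup G) ≃* QuaternionGroup (2 ^ (n + 1)))
      (_ : ∀ N : Subgroup G, N.Normal → Odd (Nat.card N) → N = ⊥),
      Nat.card (Subgroup.center G) = 2)
    {L : Type u} [Group L] [Finite L] (hQS : IsQuasisimple L)
    (heven : Even (Nat.card L)) (hrank : ∀ E : Subgroup L, ¬ IsKleinFour E) :
    ∃ z : L, orderOf z = 2 ∧ z ∈ Subgroup.center L := by
  obtain ⟨z, hz, N, hNn, hNodd, hcomm⟩ := two_rank_one_of_BS BS heven hrank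
  refine ⟨z, hz, ?_⟩
  have hNtop : N ≠ ⊤ := by
    rintro rfl
    rw [Subgroup.card_top] at hNodd
    exact (Nat.not_even_iff_odd.mpr hNodd) heven
  have hNle : N ≤ Subgroup.center L :=
    (normal_le_center_or_eq_top hQS N).resolve_right hNtop
  exact mem_center_of_commutator_mem_center hQS.1 z (fun g => hNle (hcomm g))

/-- Statement of S1307, modulo the Brauer–Suzuki theorem `BS`. -/
theorem classical_of_BS
    (BS : ∀ {G : Type u} [Group G] [Finite G] (S : Sylow 2 G) (n : ℕ)
      (_ : (S : Subgroup G) ≃* QuaternionGroup (2 ^ (n + 1)))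
      (_ : ∀ N : Subgroup G, N.Normal → Odd (Nat.card N) → N = ⊥),
      Nat.card (Subgroup.center G) = 2)
    {G : Type u} [Group G] [Finite G] (x : G) (L : Subgroup G)
    (hLx : L ≤ Subgroup.centralizer ({x} : Set G))
    (hL : Cfsg.IsComponent (L.subgroupOf (Subgroup.centralizer ({x} : Set G))))
    (heven : Even (Nat.card ↥L)) (hrk : Cfsg.PRankLE 2 1 ↥L)
    (hne : ∀ y : G, orderOf y = 2 → y ∈ Subgroup.centralizer (L : Set G) →
      L ≤ Subgroup.centralizer ({y} : Set G) ∧
        Cfsg.IsComponent (L.subgroupOf (Subgroup.centralizer ({y} : Set G)))) :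
    ∃ t ∈ L, Cfsg.IsClassicalInvolution t := by
  have hQS : IsQuasisimple ↥L :=
    Cfsg.Agent.Lib.Helper30.isQuasisimple_of_mulEquiv (Subgroup.subgroupOfEquivOfLe hLx) hL.2
  have hrank : ∀ E : Subgroup ↥L, ¬ IsKleinFour E := by
    intro E hE
    have h1 := hrk E IsKleinFour.isMulCommutative (fun a ha => by
      have := Monoid.pow_exponent_eq_one (⟨a, ha⟩ : E)
      rw [hE.exponent_two] at this
      have := congrArg Subtype.val this
      simpa using this)
    rw [hE.card_four] at h1
    omega
  obtain ⟨z, hz, hzc⟩ := central_involution_of_quasisimple BS hQS heven hrank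
  have ht2 : orderOf (z : G) = 2 := by rw [Subgroup.orderOf_coe]; exact hz
  have htc : (z : G) ∈ Subgroup.centralizer (L : Set G) := by
    rw [Subgroup.mem_centralizer_iff]
    intro y hy
    have := Subgroup.mem_center_iff.mp hzc ⟨y, hy⟩
    exact congrArg Subtype.val this
  obtain ⟨hLt, hcomp⟩ := hne (z : G) ht2 htc
  obtain ⟨S⟩ : Nonempty (Sylow 2 ↥L) := inferInstance
  obtain ⟨n, hn⟩ := sylow_quaternion_of_perfect hQS.1 heven hrank S
  exact ⟨(z : G), z.2, ht2, L, hLt, z.2, hcomp.1, S, n, hn⟩

end Cfsg.Agent.Lib.Helper43
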