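import Cfsg.Agent.Lib.Helper70.D11Defs

set_option autoImplicit false

namespace Cfsg.Agent.Lib.Helper43.D11

open Equiv Cfsg.Agent.Lib.Helper70.D11

theorem mp4_of_chain (M : Subgroup P11)
    (h : ∀ a b c d : Fin 11, a ≠ b → a ≠ c → a ≠ d → b ≠ c → b ≠ d → c ≠ d →
      ∃ g ∈ M, g 0 = a ∧ g 1 = b ∧ g 2 = c ∧ g 3 = d) :
    MulAction.IsMultiplyPretransitive M (Fin 11) 4 := by
  have key : ∀ x : Fin 4 ↪ Fin 11, ∃ g ∈ M, g 0 = x 0 ∧ g 1 = x 1 ∧ g 2 = x 2 ∧ g 3 = x 3 := by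
    intro x
    have hne : ∀ i j : Fin 4, i ≠ j → x i ≠ x j := fun i j hij hx => hij (x.injective hx)
    exact h (x 0) (x 1) (x 2) (x 3) (hne _ _ (by decide)) (hne _ _ (by decide))
      (hne _ _ (by decide)) (hne _ _ (by decide)) (hne _ _ (by decide)) (hne _ _ (by decide))
  refine ⟨fun x y => ?_⟩
  obtain ⟨gx, hgx, hx0, hx1, hx2, hx3⟩ := key x
  obtain ⟨gy, hgy, hy0, hy1, hy2, hy3⟩ := key y
  refine ⟨⟨gy * gx⁻¹, M.mul_mem hgy (M.inv_mem hgx)⟩, ?_⟩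
  ext i
  show ((gy * gx⁻¹) (x i) : ℕ) = (y i : ℕ)
  congr 1
  rw [Perm.mul_apply]
  fin_cases i
  · show gy (gx⁻¹ (x 0)) = y 0
    rw [← hx0, Equiv.Perm.inv_def, Equiv.symm_apply_apply, hy0]
  · show gy (gx⁻¹ (x 1)) = y 1
    rw [← hx1, Equiv.Perm.inv_def, Equiv.symm_apply_apply, hy1]
  · show gy (gx⁻¹ (x 2)) = y 2
    rw [← hx2, Equiv.Perm.inv_def, Equiv.symm_apply_apply, hy2]
  · show gy (gx⁻¹ (x 3)) = y 3
    rw [← hx3, Equiv.Perm.inv_def, Equiv.symm_apply_apply, hy3]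

theorem sharp_of_card (M : Subgroup P11) (h4 : MulAction.IsMultiplyPretransitive M (Fin 11) 4)
    (hcard : Nat.card M = 7920) : ∀ x : Fin 4 ↪ Fin 11, MulAction.stabilizer M x = ⊥ := by
  intro x
  have h1 : (MulAction.stabilizer M x).index = Nat.card (Fin 4 ↪ Fin 11) :=
    @MulAction.index_stabilizer_of_transitive M _ _ _ x h4
  have h2 : Nat.card (Fin 4 ↪ Fin 11) = 7920 := by
    rw [Nat.card_eq_fintype_card, Fintype.card_embedding_eq, Fintype.card_fin, Fintype.card_fin]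
    decide
  have h3 := Subgroup.card_mul_index (MulAction.stabilizer M x)
  rw [h1, h2, hcard] at h3
  apply Subgroup.eq_bot_of_card_eq
  omega

end Cfsg.Agent.Lib.Helper43.D11
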