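import Mathlib

/-!
# S4719 piece DC-P3 (helper43, for helper82): centralizers in quotients
-/

set_option autoImplicit false

namespace Cfsg.Agent.Lib.Helper43.DCP3

/-- `|C_{X/M}(zM)| ≤ |C_X(z)|` for a normal subgroup `M ≤ X`. -/
theorem card_centralizer_quotient_le {G : Type*} [Group G] [Finite G] (M X : Subgroup G)
    [M.Normal] (hMX : M ≤ X) (z : G) :
    Nat.card ↥(X.map (QuotientGroup.mk' M) ⊓ Subgroup.centralizer {(QuotientGroup.mk' M) z})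
      ≤ Nat.card ↥(X ⊓ Subgroup.centralizer {z}) := by
  classical
  obtain ⟨A, hA⟩ : ∃ A : Subgroup (G ⧸ M), A = X.map (QuotientGroup.mk' M) ⊓
      Subgroup.centralizer {(QuotientGroup.mk' M) z} := ⟨_, rfl⟩
  rw [← hA]
  obtain ⟨D, hD⟩ : ∃ D : Subgroup G, D = A.comap (QuotientGroup.mk' M) := ⟨_, rfl⟩
  have hDX : ∀ x ∈ D, x ∈ X := by
    intro x hx
    rw [hD, Subgroup.mem_comap, hA] at hx
    obtain ⟨x', hx', hxx⟩ := hx.1
    have h1 : x'⁻¹ * x ∈ M := QuotientGroup.eq.mp hxx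
    have : x = x' * (x'⁻¹ * x) := by group
    rw [this]
    exact X.mul_mem hx' (hMX h1)
  have hDM : ∀ x ∈ D, x⁻¹ * z⁻¹ * x * z ∈ M := by
    intro x hx
    rw [hD, Subgroup.mem_comap, hA] at hx
    have h2 := Subgroup.mem_centralizer_iff.mp hx.2 _ (Set.mem_singleton _)
    rw [← QuotientGroup.eq_one_iff]
    show (QuotientGroup.mk' M) (x⁻¹ * z⁻¹ * x * z) = 1
    rw [map_mul, map_mul, map_mul, map_inv, map_inv]
    calc ((QuotientGroup.mk' M) x)⁻¹ * ((QuotientGroup.mk' M) z)⁻¹ * (QuotientGroup.mk' M) x *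
          (QuotientGroup.mk' M) z
        = ((QuotientGroup.mk' M) x)⁻¹ * ((QuotientGroup.mk' M) z)⁻¹ *
          ((QuotientGroup.mk' M) x * (QuotientGroup.mk' M) z) := by group
      _ = ((QuotientGroup.mk' M) x)⁻¹ * ((QuotientGroup.mk' M) z)⁻¹ *
          ((QuotientGroup.mk' M) z * (QuotientGroup.mk' M) x) := by rw [h2]
      _ = 1 := by group
  obtain ⟨rep, hrep⟩ : ∃ rep : G → G, ∀ x ∈ D, rep (x⁻¹ * z⁻¹ * x * z) ∈ D ∧
      (rep (x⁻¹ * z⁻¹ * x * z))⁻¹ * z⁻¹ * rep (x⁻¹ * z⁻¹ * x * z) * z = x⁻¹ * z⁻¹ * x * z := by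
    refine ⟨fun m => if h : ∃ y ∈ D, y⁻¹ * z⁻¹ * y * z = m then Classical.choose h else 1, ?_⟩
    intro x hx
    have h : ∃ y ∈ D, y⁻¹ * z⁻¹ * y * z = x⁻¹ * z⁻¹ * x * z := ⟨x, hx, rfl⟩
    simp only [dif_pos h]
    exact Classical.choose_spec h
  have hC : ∀ x ∈ D, x * (rep (x⁻¹ * z⁻¹ * x * z))⁻¹ ∈ X ⊓ Subgroup.centralizer {z} := by
    intro x hx
    obtain ⟨h1, h2⟩ := hrep x hx
    obtain ⟨y, hy⟩ : ∃ y, y = rep (x⁻¹ * z⁻¹ * x * z) := ⟨_, rfl⟩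
    rw [← hy] at h1 h2 ⊢
    refine Subgroup.mem_inf.mpr ⟨X.mul_mem (hDX x hx) (X.inv_mem (hDX y h1)), ?_⟩
    rw [Subgroup.mem_centralizer_iff]
    intro w hw
    rw [Set.mem_singleton_iff] at hw
    subst hw
    have h3 : y⁻¹ * w⁻¹ * y = x⁻¹ * w⁻¹ * x := mul_right_cancel h2
    have h4 : x * y⁻¹ * w⁻¹ = w⁻¹ * (x * y⁻¹) := by
      calc x * y⁻¹ * w⁻¹ = x * (y⁻¹ * w⁻¹ * y) * y⁻¹ := by group
        _ = x * (x⁻¹ * w⁻¹ * x) * y⁻¹ := by rw [h3]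
        _ = w⁻¹ * (x * y⁻¹) := by group
    calc w * (x * y⁻¹) = w * (x * y⁻¹ * w⁻¹) * w := by group
      _ = w * (w⁻¹ * (x * y⁻¹)) * w := by rw [h4]
      _ = x * y⁻¹ * w := by group
  have hinj : Nat.card D ≤ Nat.card M * Nat.card ↥(X ⊓ Subgroup.centralizer {z}) := by
    rw [← Nat.card_prod]
    obtain ⟨φ, hφ⟩ : ∃ φ : D → ↥M × ↥(X ⊓ Subgroup.centralizer {z}),
        ∀ x : D, ((φ x).1 : G) = (x : G)⁻¹ * z⁻¹ * x * z ∧
          ((φ x).2 : G) = (x : G) * (rep ((x : G)⁻¹ * z⁻¹ * x * z))⁻¹ :=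
      ⟨fun x => (⟨(x : G)⁻¹ * z⁻¹ * x * z, hDM x x.2⟩,
        ⟨(x : G) * (rep ((x : G)⁻¹ * z⁻¹ * x * z))⁻¹, hC x x.2⟩), fun x => ⟨rfl, rfl⟩⟩
    refine Nat.card_le_card_of_injective φ ?_
    intro x x' hxx
    have h1 : (x : G)⁻¹ * z⁻¹ * x * z = (x' : G)⁻¹ * z⁻¹ * x' * z := by
      rw [← (hφ x).1, ← (hφ x').1, hxx]
    have h2 : (x : G) * (rep ((x : G)⁻¹ * z⁻¹ * x * z))⁻¹ =
        (x' : G) * (rep ((x' : G)⁻¹ * z⁻¹ * x' * z))⁻¹ := by
      rw [← (hφ x).2, ← (hφ x').2, hxx]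
    rw [h1] at h2
    exact Subtype.ext (mul_right_cancel h2)
  have hcard : Nat.card D = Nat.card A * Nat.card M := by
    have h1 : D.index = A.index := by
      rw [hD]
      exact Subgroup.index_comap_of_surjective A (QuotientGroup.mk'_surjective M)
    have h2 := D.card_mul_index
    have h3 := A.card_mul_index
    have h4 := Subgroup.card_eq_card_quotient_mul_card_subgroup M
    have h5 : A.index ≠ 0 := Subgroup.index_ne_zero_of_finite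
    rw [h1, h4, ← h3] at h2
    have h6 : Nat.card D * A.index = (Nat.card A * Nat.card M) * A.index := by
      rw [h2]
      ring
    exact Nat.eq_of_mul_eq_mul_right (Nat.pos_of_ne_zero h5) h6
  have hMpos : 0 < Nat.card M := Nat.card_pos
  rw [hcard, mul_comm] at hinj
  exact Nat.le_of_mul_le_mul_left hinj hMpos

end Cfsg.Agent.Lib.Helper43.DCP3
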