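import Cfsg.Agent.Lib.Helper98.H74Defs

/-!
# Project H74 (S5974), piece INV: involutions in odd characteristic

An isometry `g` with `g * g = 1` of a nondegenerate quadratic space of dimension `2d` over a
finite field of odd characteristic leaves invariant a nondegenerate subspace of dimension
`2k+2` and type `+` whenever `2k+2 < d`: one of the two eigenspaces has dimension at least
`2k+3`, it is nondegenerate, and every nondegenerate space of dimension `2k+3` contains the
orthogonal hyperplane of a nonsingular vector which has type `+` (by counting).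
-/

set_option autoImplicit false

namespace Cfsg.Agent.Lib.Helper98.H74

open Cfsg.Agent.Lib.Helper47 Cfsg.Agent.Lib.Helper98.T73 Module Polynomial

universe u

section InvAux

variable {F : Type u} [Field F] [Fintype F] {E : Type u} [AddCommGroup E] [Module F E]
  [FiniteDimensional F E] {Q : E → F} {B : E → E → F}

/-- The orthogonal hyperplane of `u`. -/
def inv_perp (hQ : IsQuad Q B) (u : E) : Submodule F E := LinearMap.ker (hQ.form.lin u)

omit [Fintype F] [FiniteDimensional F E] in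
lemma inv_mem_perp (hQ : IsQuad Q B) (u x : E) : x ∈ inv_perp hQ u ↔ B x u = 0 := by
  rw [inv_perp, LinearMap.mem_ker, IsSForm.lin_apply]

omit [Fintype F] [FiniteDimensional F E] in
lemma inv_self_ne (hQ : IsQuad Q B) (h2 : (2 : F) ≠ 0) (u : E) (hu : Q u ≠ 0) : B u u ≠ 0 := by
  rw [hQ.self]; exact mul_ne_zero h2 hu

omit [Fintype F] [FiniteDimensional F E] in
lemma inv_perp_split (hQ : IsQuad Q B) (h2 : (2 : F) ≠ 0) (u : E) (hu : Q u ≠ 0) (v : E) :
    v - (B v u / B u u) • u ∈ inv_perp hQ u := by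
  have hB := inv_self_ne hQ h2 u hu
  rw [inv_mem_perp, hQ.form.sub_left, hQ.form.smul_left]
  field_simp
  ring

omit [Fintype F] [FiniteDimensional F E] in
lemma inv_perp_nondeg (hQ : IsQuad Q B) (h2 : (2 : F) ≠ 0) (hnd : Nondeg B) (u : E)
    (hu : Q u ≠ 0) : Nondeg (resForm B (inv_perp hQ u)) := by
  intro x hx
  have hx0 : (x : E) = 0 := by
    apply hnd
    intro v
    have h1 := hx ⟨v - (B v u / B u u) • u, inv_perp_split hQ h2 u hu v⟩
    have h3 : B (x : E) u = 0 := (inv_mem_perp hQ u x).mp x.2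
    change B (x : E) (v - (B v u / B u u) • u) = 0 at h1
    rw [hQ.form.sub_right, sym_smul_right hQ.form, h3, mul_zero, sub_zero] at h1
    exact h1
  exact Subtype.ext hx0

omit [Fintype F] in
lemma inv_perp_finrank (hQ : IsQuad Q B) (h2 : (2 : F) ≠ 0) (u : E) (hu : Q u ≠ 0) :
    finrank F (inv_perp hQ u) + 1 = finrank F E := by
  have hB := inv_self_ne hQ h2 u hu
  have hsurj : Function.Surjective (hQ.form.lin u) := by
    intro c
    refine ⟨(c / B u u) • u, ?_⟩
    rw [IsSForm.lin_apply, hQ.form.smul_left]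
    field_simp
  have h1 := LinearMap.finrank_range_add_finrank_ker (hQ.form.lin u)
  rw [LinearMap.range_eq_top.mpr hsurj, finrank_top, finrank_self] at h1
  unfold inv_perp
  omega

lemma inv_count (hQ : IsQuad Q B) (h2 : (2 : F) ≠ 0) (u : E) (hu : Q u ≠ 0) (k : ℕ) (τ : ℤ)
    (hT : IsTyp (fun x : inv_perp hQ u => Q (x : E)) k τ) (c : F) :
    ∃ m : ℕ, (Nat.card {v : E // Q v = c} : ℤ) =
      (Fintype.card F : ℤ) * ((Fintype.card F : ℤ) ^ (2 * k + 1) - τ * (Fintype.card F : ℤ) ^ k)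
        + (m : ℤ) * ((Fintype.card F : ℤ) * (τ * (Fintype.card F : ℤ) ^ k)) ∧
      ((∀ t : F, c - t ^ 2 * Q u ≠ 0) → m = 0) ∧ ((∃ t : F, c - t ^ 2 * Q u = 0) → 1 ≤ m) := by
  classical
  have : Finite E := Module.finite_of_finite F
  have hBu := inv_self_ne hQ h2 u hu
  have hval : ∀ (t : F) (x : inv_perp hQ u), Q ((x : E) + t • u) = Q (x : E) + t ^ 2 * Q u := by
    intro t x
    rw [hQ.polar, hQ.smul, sym_smul_right hQ.form, (inv_mem_perp hQ u x).mp x.2]
    ring
  let f : (Σ t : F, {x : inv_perp hQ u // Q (x : E) = c - t ^ 2 * Q u}) → {v : E // Q v = c} :=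
    fun s => ⟨(s.2.1 : E) + s.1 • u, by rw [hval, s.2.2]; ring⟩
  have hf : Function.Bijective f := by
    constructor
    · rintro ⟨t, x, hx⟩ ⟨t', x', hx'⟩ h
      have h1 : (x : E) + t • u = (x' : E) + t' • u := congrArg Subtype.val h
      have h2' : t = t' := by
        have h3 := congrArg (fun w => B w u) h1
        simp only [hQ.form.add_left, hQ.form.smul_left, (inv_mem_perp hQ u x).mp x.2,
          (inv_mem_perp hQ u x').mp x'.2, zero_add] at h3
        exact mul_right_cancel₀ hBu h3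
      subst h2'
      have h3 : x = x' := Subtype.ext (add_right_cancel h1)
      subst h3
      rfl
    · rintro ⟨v, hv⟩
      have hmem := inv_perp_split hQ h2 u hu v
      have hq : Q (v - (B v u / B u u) • u) = c - (B v u / B u u) ^ 2 * Q u := by
        have h3 := hval (B v u / B u u) ⟨v - (B v u / B u u) • u, hmem⟩
        simp only [sub_add_cancel] at h3
        rw [hv] at h3
        linear_combination -h3
      refine ⟨⟨B v u / B u u, ⟨⟨v - (B v u / B u u) • u, hmem⟩, hq⟩⟩, ?_⟩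
      apply Subtype.ext
      simp [f]
  have hcard : Nat.card {v : E // Q v = c}
      = ∑ t : F, Nat.card {x : inv_perp hQ u // Q (x : E) = c - t ^ 2 * Q u} := by
    rw [← Nat.card_sigma]
    exact (Nat.card_eq_of_bijective f hf).symm
  have e1 : (Nat.card {x : inv_perp hQ u // Q (x : E) = 0} : ℤ)
      = (Fintype.card F : ℤ) ^ (2 * k + 1)
        + ((Fintype.card F : ℤ) - 1) * (τ * (Fintype.card F : ℤ) ^ k) := hT.1
  have e2 : ∀ c' : F, c' ≠ 0 → (Nat.card {x : inv_perp hQ u // Q (x : E) = c'} : ℤ)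
      = (Fintype.card F : ℤ) ^ (2 * k + 1) - τ * (Fintype.card F : ℤ) ^ k := hT.2
  have hterm : ∀ t : F, (Nat.card {x : inv_perp hQ u // Q (x : E) = c - t ^ 2 * Q u} : ℤ)
      = ((Fintype.card F : ℤ) ^ (2 * k + 1) - τ * (Fintype.card F : ℤ) ^ k)
        + if c - t ^ 2 * Q u = 0 then ((Fintype.card F : ℤ) * (τ * (Fintype.card F : ℤ) ^ k))
          else 0 := by
    intro t
    by_cases h : c - t ^ 2 * Q u = 0
    · rw [if_pos h, h, e1]; ring
    · rw [if_neg h, e2 _ h]; ring
  refine ⟨(Finset.univ.filter (fun t : F => c - t ^ 2 * Q u = 0)).card, ?_, ?_, ?_⟩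
  · rw [hcard]
    push_cast
    simp only [hterm]
    rw [Finset.sum_add_distrib, Finset.sum_const, Finset.card_univ, Finset.sum_ite,
      Finset.sum_const, Finset.sum_const_zero]
    simp only [nsmul_eq_mul, add_zero]
  · intro h
    rw [Finset.card_eq_zero, Finset.filter_eq_empty_iff]
    intro t _
    exact h t
  · rintro ⟨t, ht⟩
    exact Finset.card_pos.mpr ⟨t, by simp [ht]⟩

omit [FiniteDimensional F E] in
lemma inv_transfer (P : Submodule F E) (W₁ : Submodule F P) (k : ℕ) (τ : ℤ)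
    (h : SubTyp (fun x : P => Q (x : E)) (resForm B P) W₁ k τ) :
    SubTyp Q B (W₁.map P.subtype) k τ := by
  obtain ⟨hnd, hfr, hT⟩ := h
  let e : W₁ ≃ₗ[F] W₁.map P.subtype :=
    Submodule.equivMapOfInjective P.subtype (Submodule.injective_subtype P) W₁
  refine ⟨?_, ?_, ?_⟩
  · intro x hx
    obtain ⟨x₁, rfl⟩ := e.surjective x
    have h0 : x₁ = 0 := by
      apply hnd
      intro y
      exact hx (e y)
    rw [h0, map_zero]
  · rw [← hfr]; exact e.finrank_eq.symm
  · exact IsTyp.of_equiv e.toEquiv (fun v => rfl) hT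

lemma inv_odd (hf : QFacts F) (h2 : (2 : F) ≠ 0) (hQ : IsQuad Q B) (hnd : Nondeg B) (k : ℕ)
    (hdim : finrank F E = 2 * k + 3) : ∃ W : Submodule F E, SubTyp Q B W k 1 := by
  have : Nontrivial E := Module.nontrivial_of_finrank_pos (R := F) (by omega)
  obtain ⟨u₀, hu₀⟩ := exists_aniso hQ.form h2 hnd
  have ha₀ : Q u₀ ≠ 0 := by
    intro h; apply hu₀; rw [hQ.self, h, mul_zero]
  have hP : ∀ u : E, Q u ≠ 0 →
      (SubTyp Q B (inv_perp hQ u) k 1 ∨ SubTyp Q B (inv_perp hQ u) k (-1)) := by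
    intro u hu
    have hfr : finrank F (inv_perp hQ u) = 2 * k + 2 := by
      have := inv_perp_finrank hQ h2 u hu; omega
    have hndP := inv_perp_nondeg hQ h2 hnd u hu
    rcases hf.typ_exists k (inv_perp hQ u) (fun x => Q (x : E)) (resForm B (inv_perp hQ u))
      (hQ.res _) hndP hfr with h | h
    · exact Or.inl ⟨hndP, hfr, h⟩
    · exact Or.inr ⟨hndP, hfr, h⟩
  rcases hP u₀ ha₀ with h | h
  · exact ⟨_, h⟩
  have hc2 : ringChar F ≠ 2 := by
    intro hc
    have : CharP F 2 := hc ▸ ringChar.charP F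
    exact h2 (by exact_mod_cast CharP.cast_eq_zero F 2)
  obtain ⟨n, hn⟩ := FiniteField.exists_nonsquare hc2
  have hn0 : n ≠ 0 := by
    rintro rfl; exact hn ⟨0, by simp⟩
  obtain ⟨m, hm, hm0, -⟩ := inv_count hQ h2 u₀ ha₀ k (-1) h.2.2 (n * Q u₀)
  have hm0' : m = 0 := hm0 (by
    intro t ht
    apply hn
    refine ⟨t, ?_⟩
    have h3 : (n - t * t) * Q u₀ = 0 := by linear_combination ht
    rcases mul_eq_zero.mp h3 with h' | h'
    · linear_combination h'
    · exact absurd h' ha₀)
  subst hm0'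
  simp only [Nat.cast_zero, zero_mul, add_zero] at hm
  have hq : (2 : ℤ) ≤ Fintype.card F := by exact_mod_cast Fintype.one_lt_card
  have hqk : (0 : ℤ) < (Fintype.card F : ℤ) * (Fintype.card F : ℤ) ^ k := by positivity
  have hq2 : (0 : ℤ) < (Fintype.card F : ℤ) * (Fintype.card F : ℤ) ^ (2 * k + 1) := by positivity
  have hpos : 0 < Nat.card {v : E // Q v = n * Q u₀} := by
    have h3 : (0 : ℤ) < (Nat.card {v : E // Q v = n * Q u₀} : ℤ) := by
      rw [hm]; nlinarith
    exact_mod_cast h3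
  obtain ⟨⟨v, hv⟩⟩ := (Nat.card_pos_iff.mp hpos).1
  have hc0 : n * Q u₀ ≠ 0 := mul_ne_zero hn0 ha₀
  have hv0 : Q v ≠ 0 := by rw [hv]; exact hc0
  rcases hP v hv0 with h' | h'
  · exact ⟨_, h'⟩
  exfalso
  obtain ⟨m', hm', -, hm1⟩ := inv_count hQ h2 v hv0 k (-1) h'.2.2 (n * Q u₀)
  have hm1' : 1 ≤ m' := hm1 ⟨1, by rw [hv]; ring⟩
  rw [hm] at hm'
  have h5 : (m' : ℤ) * ((Fintype.card F : ℤ) * (Fintype.card F : ℤ) ^ k) = 0 := by
    linear_combination hm'
  have hm'' : (1 : ℤ) ≤ m' := by exact_mod_cast hm1'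
  nlinarith

lemma inv_big (hf : QFacts F) (h2 : (2 : F) ≠ 0) (k : ℕ) :
    ∀ (j : ℕ) (M : Type u) [AddCommGroup M] [Module F M] [FiniteDimensional F M]
      (Q : M → F) (B : M → M → F), IsQuad Q B → Nondeg B → finrank F M = 2 * k + 3 + j →
      ∃ W : Submodule F M, SubTyp Q B W k 1 := by
  intro j
  induction j with
  | zero =>
    intro M _ _ _ Q B hQ hnd hdim
    exact inv_odd hf h2 hQ hnd k hdim
  | succ j ih =>
    intro M _ _ _ Q B hQ hnd hdim
    have : Nontrivial M := Module.nontrivial_of_finrank_pos (R := F) (by omega)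
    obtain ⟨u, hu⟩ := exists_aniso hQ.form h2 hnd
    have ha : Q u ≠ 0 := by
      intro h; apply hu; rw [hQ.self, h, mul_zero]
    have hfr : finrank F (inv_perp hQ u) = 2 * k + 3 + j := by
      have := inv_perp_finrank hQ h2 u ha; omega
    obtain ⟨W₁, hW₁⟩ := ih (inv_perp hQ u) (fun x => Q (x : M)) (resForm B (inv_perp hQ u))
      (hQ.res _) (inv_perp_nondeg hQ h2 hnd u ha) hfr
    exact ⟨W₁.map (inv_perp hQ u).subtype, inv_transfer _ _ _ _ hW₁⟩

end InvAux

variable {F : Type u} [Field F] [Fintype F] {V : Type u} [AddCommGroup V] [Module F V]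
  [FiniteDimensional F V] {Q : V → F} {B : V → V → F}

lemma inv_eigen (hf : QFacts F) (h2 : (2 : F) ≠ 0) (hQ : IsQuad Q B) (hnd : Nondeg B)
    (g : Module.End F V) (hgQ : QI Q g) (hg : g * g = 1) (k : ℕ) (s : F) (hs : s * s = 1)
    (E : Submodule F V) (hE : ∀ x, x ∈ E ↔ g x = s • x) (hdim : 2 * k + 3 ≤ finrank F E) :
    ∃ W : Submodule F V, SubTyp Q B W k 1 ∧ W.map g ≤ W := by
  have hBg : ∀ x y, B (g x) (g y) = B x y := hQ.isometry hQ g hgQ
  have hgg : ∀ v, g (g v) = v := fun v => by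
    have := congrArg (fun f : Module.End F V => f v) hg
    simpa using this
  have hndE : Nondeg (resForm B E) := by
    intro x hx
    have hx0 : (x : V) = 0 := by
      apply hnd
      intro v
      have hmem : v + s • g v ∈ E := by
        rw [hE, map_add, map_smul, hgg, smul_add, smul_smul, hs, one_smul, add_comm]
      have h1 : B (x : V) (v + s • g v) = 0 := hx ⟨v + s • g v, hmem⟩
      have h3 : B (x : V) (g v) = s * B (x : V) v := by
        rw [← hBg (x : V) (g v), hgg, (hE x).mp x.2, hQ.form.smul_left]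
      rw [hQ.form.add_right, sym_smul_right hQ.form, h3] at h1
      have h4 : (2 : F) * B (x : V) v = 0 := by
        linear_combination h1 - B (x : V) v * hs
      rcases mul_eq_zero.mp h4 with h | h
      · exact absurd h h2
      · exact h
    exact Subtype.ext hx0
  obtain ⟨W₁, hW₁⟩ := inv_big hf h2 k (finrank F E - (2 * k + 3)) E (fun x => Q (x : V))
    (resForm B E) (hQ.res E) hndE (by omega)
  refine ⟨W₁.map E.subtype, inv_transfer _ _ _ _ hW₁, ?_⟩
  rintro _ ⟨w, hw, rfl⟩
  have hwE : w ∈ E := (Submodule.map_subtype_le E W₁) hw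
  rw [(hE w).mp hwE]
  exact Submodule.smul_mem _ s hw

/-- INV -/
theorem invol_fix (hf : QFacts F) (h2 : (2 : F) ≠ 0) (hQ : IsQuad Q B) (hnd : Nondeg B) (d : ℕ)
    (hdim : finrank F V = 2 * d) (p : ℕ) [Fact p.Prime] [CharP F p] (g : Module.End F V)
    (hgQ : QI Q g) (hg : g * g = 1) (k : ℕ) (hk : 2 * k + 2 < d) :
    ∃ W : Submodule F V, SubTyp Q B W k 1 ∧ W.map g ≤ W := by
  by_cases h : 2 * k + 3 ≤ finrank F (LinearMap.ker (g - 1))
  · refine inv_eigen hf h2 hQ hnd g hgQ hg k 1 (one_mul 1) (LinearMap.ker (g - 1)) ?_ h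
    intro x
    rw [LinearMap.mem_ker, LinearMap.sub_apply, Module.End.one_apply, one_smul, sub_eq_zero]
  · have h1 := LinearMap.finrank_range_add_finrank_ker (g - 1)
    have hle : LinearMap.range (g - 1) ≤ LinearMap.ker (g + 1) := by
      rintro _ ⟨v, rfl⟩
      rw [LinearMap.mem_ker]
      have h3 : (g + 1) ((g - 1) v) = ((g + 1) * (g - 1)) v := rfl
      rw [h3]
      have h4 : (g + 1) * (g - 1) = 0 := by
        rw [add_mul, mul_sub, mul_sub, hg]; simp
      rw [h4]; rfl
    have h5 := Submodule.finrank_mono hle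
    refine inv_eigen hf h2 hQ hnd g hgQ hg k (-1) (by ring) (LinearMap.ker (g + 1)) ?_ (by omega)
    intro x
    rw [LinearMap.mem_ker, LinearMap.add_apply, Module.End.one_apply, neg_smul, one_smul,
      add_eq_zero_iff_eq_neg]

end Cfsg.Agent.Lib.Helper98.H74
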