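import Cfsg.Agent.Lib.Helper98.H74Defs

/-!
# Project H74 (S5974), piece SUM (duplicate seat): orthogonal sums of typed subspaces

`subtyp_sup_alt` has the statement of `subtyp_sup` of the skeleton, under a different name so
that both seats' files can be imported together.
-/

set_option autoImplicit false

namespace Cfsg.Agent.Lib.Helper98.H74

open Cfsg.Agent.Lib.Helper47 Cfsg.Agent.Lib.Helper98.T73 Module Polynomial

universe u

variable {F : Type u} [Field F] [Fintype F] {V : Type u} [AddCommGroup V] [Module F V]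
  [FiniteDimensional F V] {Q : V → F} {B : V → V → F}

/-- SUM (duplicate seat) -/
theorem subtyp_sup_alt (hf : QFacts F) (hQ : IsQuad Q B) (X Y : Submodule F V)
    (hXY : ∀ x ∈ X, ∀ y ∈ Y, B x y = 0) (k₁ k₂ : ℕ) (ε₁ ε₂ : ℤ)
    (hX : SubTyp Q B X k₁ ε₁) (hY : SubTyp Q B Y k₂ ε₂) :
    SubTyp Q B (X ⊔ Y) (k₁ + k₂ + 1) (ε₁ * ε₂) := by
  obtain ⟨hXnd, hXfr, hXT⟩ := hX
  obtain ⟨hYnd, hYfr, hYT⟩ := hY
  have hYX : ∀ x ∈ X, ∀ y ∈ Y, B y x = 0 := fun x hx y hy => by
    rw [sym_comm hQ.form x y]; exact hXY x hx y hy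
  have hinf : X ⊓ Y = ⊥ := by
    rw [eq_bot_iff]
    rintro v ⟨hvX, hvY⟩
    have h0 : (⟨v, hvX⟩ : X) = 0 := by
      apply hXnd
      intro y
      exact hYX y y.2 v hvY
    simpa using congrArg Subtype.val h0
  have hfin : Finite V := Module.finite_of_finite F
  let f : X × Y → ↥(X ⊔ Y) := fun p =>
    ⟨(p.1 : V) + (p.2 : V), Submodule.add_mem_sup p.1.2 p.2.2⟩
  have hfb : Function.Bijective f := by
    constructor
    · rintro ⟨x, y⟩ ⟨x', y'⟩ h
      have h1 : (x : V) + (y : V) = (x' : V) + (y' : V) := congrArg Subtype.val h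
      have h2 : (x : V) - (x' : V) ∈ X ⊓ Y := by
        refine ⟨X.sub_mem x.2 x'.2, ?_⟩
        have h3 : (x : V) - (x' : V) = (y' : V) - (y : V) := by
          rw [sub_eq_sub_iff_add_eq_add, h1, add_comm]
        rw [h3]
        exact Y.sub_mem y'.2 y.2
      rw [hinf, Submodule.mem_bot, sub_eq_zero] at h2
      have h4 : (y : V) = (y' : V) := by
        rw [h2] at h1
        exact add_left_cancel h1
      exact Prod.ext (Subtype.ext h2) (Subtype.ext h4)
    · rintro ⟨v, hv⟩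
      obtain ⟨x, hx, y, hy, rfl⟩ := Submodule.mem_sup.mp hv
      exact ⟨(⟨x, hx⟩, ⟨y, hy⟩), rfl⟩
  refine ⟨?_, ?_, ?_⟩
  · rintro ⟨v, hv⟩ hv0
    obtain ⟨x, hx, y, hy, rfl⟩ := Submodule.mem_sup.mp hv
    have hx0 : (⟨x, hx⟩ : X) = 0 := by
      apply hXnd
      intro x'
      have h1 : B (x + y) (x' : V) = 0 :=
        hv0 ⟨(x' : V), (le_sup_left : X ≤ X ⊔ Y) x'.2⟩
      rw [hQ.form.add_left, hYX x' x'.2 y hy, add_zero] at h1
      exact h1
    have hy0 : (⟨y, hy⟩ : Y) = 0 := by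
      apply hYnd
      intro y'
      have h1 : B (x + y) (y' : V) = 0 :=
        hv0 ⟨(y' : V), (le_sup_right : Y ≤ X ⊔ Y) y'.2⟩
      rw [hQ.form.add_left, hXY x hx y' y'.2, zero_add] at h1
      exact h1
    have hx1 : x = 0 := congrArg Subtype.val hx0
    have hy1 : y = 0 := congrArg Subtype.val hy0
    apply Subtype.ext
    change x + y = 0
    rw [hx1, hy1, add_zero]
  · have h1 := Submodule.finrank_sup_add_finrank_inf_eq X Y
    rw [hinf, finrank_bot] at h1
    omega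
  · have hT := hf.typ_prod (fun x : X => Q (x : V)) (fun y : Y => Q (y : V)) hXT hYT
    refine IsTyp.of_equiv (Equiv.ofBijective f hfb) (fun p => ?_) hT
    change Q ((p.1 : V) + (p.2 : V)) = Q (p.1 : V) + Q (p.2 : V)
    rw [hQ.polar, hXY _ p.1.2 _ p.2.2, add_zero]

end Cfsg.Agent.Lib.Helper98.H74
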