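import Cfsg.Agent.Lib.Helper43.H74INV
import Cfsg.Agent.Lib.Helper43.H74SUMalt

/-!
# Project H74, batch 2 (S5990), piece INVE (backup seat): involutions in odd characteristic

`invol_fix_ell_alt` has the statement of `invol_fix_ell` of the skeleton, under a different name
so that both seats' files can be imported together.  Self-contained on top of
`Helper43.H74INV` (counting in odd dimension) and `Helper43.H74SUMalt` (orthogonal sums).
-/

set_option autoImplicit false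

namespace Cfsg.Agent.Lib.Helper98.H74

open Cfsg.Agent.Lib.Helper47 Cfsg.Agent.Lib.Helper98.T73 Module Polynomial

universe u

section InveAux

variable {F : Type u} [Field F] [Fintype F] {E : Type u} [AddCommGroup E] [Module F E]
  [FiniteDimensional F E] {Q : E → F} {B : E → E → F}

/-- A nondegenerate space of dimension `2k+3` (odd characteristic) has hyperplanes of both
types. -/
lemma inve_odd (hf : QFacts F) (h2 : (2 : F) ≠ 0) (hQ : IsQuad Q B) (hnd : Nondeg B) (k : ℕ)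
    (hdim : finrank F E = 2 * k + 3) (τ : ℤ) (hτ : τ = 1 ∨ τ = -1) :
    ∃ W : Submodule F E, SubTyp Q B W k τ := by
  have : Nontrivial E := Module.nontrivial_of_finrank_pos (R := F) (by omega)
  obtain ⟨u₀, hu₀⟩ := exists_aniso hQ.form h2 hnd
  have ha₀ : Q u₀ ≠ 0 := by
    intro h; apply hu₀; rw [hQ.self, h, mul_zero]
  have hP : ∀ u : E, Q u ≠ 0 →
      ∃ σ : ℤ, (σ = 1 ∨ σ = -1) ∧ SubTyp Q B (inv_perp hQ u) k σ := by
    intro u hu
    have hfr : finrank F (inv_perp hQ u) = 2 * k + 2 := by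
      have := inv_perp_finrank hQ h2 u hu; omega
    have hndP := inv_perp_nondeg hQ h2 hnd u hu
    rcases hf.typ_exists k (inv_perp hQ u) (fun x => Q (x : E)) (resForm B (inv_perp hQ u))
      (hQ.res _) hndP hfr with h | h
    · exact ⟨1, Or.inl rfl, hndP, hfr, h⟩
    · exact ⟨-1, Or.inr rfl, hndP, hfr, h⟩
  obtain ⟨σ₀, hσ₀, h⟩ := hP u₀ ha₀
  by_cases e0 : σ₀ = τ
  · exact ⟨_, e0 ▸ h⟩
  have hc2 : ringChar F ≠ 2 := by
    intro hc
    have : CharP F 2 := hc ▸ ringChar.charP F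
    exact h2 (by exact_mod_cast CharP.cast_eq_zero F 2)
  obtain ⟨n, hn⟩ := FiniteField.exists_nonsquare hc2
  have hn0 : n ≠ 0 := by
    rintro rfl; exact hn ⟨0, by simp⟩
  obtain ⟨m, hm, hm0, -⟩ := inv_count hQ h2 u₀ ha₀ k σ₀ h.2.2 (n * Q u₀)
  have hm0' : m = 0 := hm0 (by
    intro t ht
    apply hn
    refine ⟨t, ?_⟩
    have h3 : (n - t * t) * Q u₀ = 0 := by linear_combination ht
    rcases mul_eq_zero.mp h3 with h' | h'
    · linear_combination h'
    · exact absurd h' ha₀)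
  subst hm0'
  simp only [Nat.cast_zero, zero_mul, add_zero] at hm
  have hq : (2 : ℤ) ≤ Fintype.card F := by exact_mod_cast Fintype.one_lt_card
  have hq0 : (0 : ℤ) < Fintype.card F := by linarith
  have hk0 : (0 : ℤ) < (Fintype.card F : ℤ) ^ k := by positivity
  have hqk : (0 : ℤ) < (Fintype.card F : ℤ) * (Fintype.card F : ℤ) ^ k := by positivity
  have hlt : (Fintype.card F : ℤ) ^ k < (Fintype.card F : ℤ) ^ (2 * k + 1) :=
    pow_lt_pow_right₀ (by linarith) (by omega)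
  have hpos : 0 < Nat.card {v : E // Q v = n * Q u₀} := by
    have h3 : (0 : ℤ) < (Nat.card {v : E // Q v = n * Q u₀} : ℤ) := by
      rw [hm]
      apply mul_pos hq0
      rcases hσ₀ with rfl | rfl <;> linarith
    exact_mod_cast h3
  obtain ⟨⟨v, hv⟩⟩ := (Nat.card_pos_iff.mp hpos).1
  have hc0 : n * Q u₀ ≠ 0 := mul_ne_zero hn0 ha₀
  have hv0 : Q v ≠ 0 := by rw [hv]; exact hc0
  obtain ⟨σ₁, hσ₁, h'⟩ := hP v hv0
  by_cases e1 : σ₁ = τ
  · exact ⟨_, e1 ▸ h'⟩
  exfalso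
  have e2 : σ₁ = σ₀ := by omega
  subst e2
  obtain ⟨m', hm', -, hm1⟩ := inv_count hQ h2 v hv0 k σ₁ h'.2.2 (n * Q u₀)
  have hm1' : 1 ≤ m' := hm1 ⟨1, by rw [hv]; ring⟩
  rw [hm] at hm'
  have h5 : (m' : ℤ) * σ₁ * ((Fintype.card F : ℤ) * (Fintype.card F : ℤ) ^ k) = 0 := by
    linear_combination -hm'
  have hm'' : (1 : ℤ) ≤ m' := by exact_mod_cast hm1'
  rcases hσ₀ with rfl | rfl <;> nlinarith

lemma inve_big (hf : QFacts F) (h2 : (2 : F) ≠ 0) (k : ℕ) (τ : ℤ) (hτ : τ = 1 ∨ τ = -1) :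
    ∀ (j : ℕ) (M : Type u) [AddCommGroup M] [Module F M] [FiniteDimensional F M]
      (Q : M → F) (B : M → M → F), IsQuad Q B → Nondeg B → finrank F M = 2 * k + 3 + j →
      ∃ W : Submodule F M, SubTyp Q B W k τ := by
  intro j
  induction j with
  | zero =>
    intro M _ _ _ Q B hQ hnd hdim
    exact inve_odd hf h2 hQ hnd k hdim τ hτ
  | succ j ih =>
    intro M _ _ _ Q B hQ hnd hdim
    have : Nontrivial M := Module.nontrivial_of_finrank_pos (R := F) (by omega)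
    obtain ⟨u, hu⟩ := exists_aniso hQ.form h2 hnd
    have ha : Q u ≠ 0 := by
      intro h; apply hu; rw [hQ.self, h, mul_zero]
    have hfr : finrank F (inv_perp hQ u) = 2 * k + 3 + j := by
      have := inv_perp_finrank hQ h2 u ha; omega
    obtain ⟨W₁, hW₁⟩ := ih (inv_perp hQ u) (fun x => Q (x : M)) (resForm B (inv_perp hQ u))
      (hQ.res _) (inv_perp_nondeg hQ h2 hnd u ha) hfr
    exact ⟨W₁.map (inv_perp hQ u).subtype, inv_transfer _ _ _ _ hW₁⟩

end InveAux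

variable {F : Type u} [Field F] [Fintype F] {V : Type u} [AddCommGroup V] [Module F V]
  [FiniteDimensional F V] {Q : V → F} {B : V → V → F}

omit [Fintype F] [FiniteDimensional F V] in
lemma inve_ndeg (h2 : (2 : F) ≠ 0) (hQ : IsQuad Q B) (hnd : Nondeg B)
    (g : Module.End F V) (hgQ : QI Q g) (hg : g * g = 1) (s : F) (hs : s * s = 1)
    (E : Submodule F V) (hE : ∀ x, x ∈ E ↔ g x = s • x) : Nondeg (resForm B E) := by
  have hBg : ∀ x y, B (g x) (g y) = B x y := hQ.isometry hQ g hgQ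
  have hgg : ∀ v, g (g v) = v := fun v => by
    have := congrArg (fun f : Module.End F V => f v) hg
    simpa using this
  intro x hx
  have hx0 : (x : V) = 0 := by
    apply hnd
    intro v
    have hmem : v + s • g v ∈ E := by
      rw [hE, map_add, map_smul, hgg, smul_add, smul_smul, hs, one_smul, add_comm]
    have h1 : B (x : V) (v + s • g v) = 0 := hx ⟨v + s • g v, hmem⟩
    have h3 : B (x : V) (g v) = s * B (x : V) v := by
      rw [← hBg (x : V) (g v), hgg, (hE x).mp x.2, hQ.form.smul_left]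
    rw [hQ.form.add_right, sym_smul_right hQ.form, h3] at h1
    have h4 : (2 : F) * B (x : V) v = 0 := by
      linear_combination h1 - B (x : V) v * hs
    rcases mul_eq_zero.mp h4 with h | h
    · exact absurd h h2
    · exact h
  exact Subtype.ext hx0

lemma inve_free (hf : QFacts F) (h2 : (2 : F) ≠ 0) (hQ : IsQuad Q B) (E : Submodule F V)
    (hndE : Nondeg (resForm B E)) (j : ℕ) (τ : ℤ) (hτ : τ = 1 ∨ τ = -1)
    (hdim : 2 * j + 3 ≤ finrank F E) : ∃ W : Submodule F V, W ≤ E ∧ SubTyp Q B W j τ := by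
  obtain ⟨W₁, hW₁⟩ := inve_big hf h2 j τ hτ (finrank F E - (2 * j + 3)) E (fun x => Q (x : V))
    (resForm B E) (hQ.res E) hndE (by omega)
  exact ⟨W₁.map E.subtype, Submodule.map_subtype_le E W₁, inv_transfer _ _ _ _ hW₁⟩

lemma inve_any (hf : QFacts F) (h2 : (2 : F) ≠ 0) (hQ : IsQuad Q B) (E : Submodule F V)
    (hndE : Nondeg (resForm B E)) (j : ℕ) (hdim : 2 * j + 2 ≤ finrank F E) :
    ∃ τ : ℤ, (τ = 1 ∨ τ = -1) ∧ ∃ W : Submodule F V, W ≤ E ∧ SubTyp Q B W j τ := by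
  by_cases h : 2 * j + 3 ≤ finrank F E
  · obtain ⟨W, hW⟩ := inve_free hf h2 hQ E hndE j 1 (Or.inl rfl) h
    exact ⟨1, Or.inl rfl, W, hW⟩
  · have hfr : finrank F E = 2 * j + 2 := by omega
    rcases hf.typ_exists j E (fun x => Q (x : V)) (resForm B E) (hQ.res E) hndE hfr with h | h
    · exact ⟨1, Or.inl rfl, E, le_rfl, hndE, hfr, h⟩
    · exact ⟨-1, Or.inr rfl, E, le_rfl, hndE, hfr, h⟩

lemma inve_comb (hf : QFacts F) (h2 : (2 : F) ≠ 0) (hQ : IsQuad Q B) (hnd : Nondeg B)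
    (g : Module.End F V) (hgQ : QI Q g) (hg : g * g = 1) (s₁ s₂ : F) (hs₁ : s₁ * s₁ = 1)
    (hs₂ : s₂ * s₂ = 1) (hs12 : s₁ * s₂ = -1) (E₁ E₂ : Submodule F V)
    (hE₁ : ∀ x, x ∈ E₁ ↔ g x = s₁ • x) (hE₂ : ∀ x, x ∈ E₂ ↔ g x = s₂ • x) (j₁ j₂ : ℕ)
    (h1 : 2 * j₁ + 2 ≤ finrank F E₁) (h3 : 2 * j₂ + 3 ≤ finrank F E₂) :
    ∃ W : Submodule F V, SubTyp Q B W (j₁ + j₂ + 1) (-1) ∧ W.map g ≤ W := by
  have hBg : ∀ x y, B (g x) (g y) = B x y := hQ.isometry hQ g hgQ
  have hnd₁ := inve_ndeg h2 hQ hnd g hgQ hg s₁ hs₁ E₁ hE₁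
  have hnd₂ := inve_ndeg h2 hQ hnd g hgQ hg s₂ hs₂ E₂ hE₂
  obtain ⟨τ₁, hτ₁, W₁, hW₁E, hW₁⟩ := inve_any hf h2 hQ E₁ hnd₁ j₁ h1
  obtain ⟨W₂, hW₂E, hW₂⟩ := inve_free hf h2 hQ E₂ hnd₂ j₂ (-τ₁) (by omega) h3
  have horth : ∀ x ∈ W₁, ∀ y ∈ W₂, B x y = 0 := by
    intro x hx y hy
    have e1 := (hE₁ x).mp (hW₁E hx)
    have e2 := (hE₂ y).mp (hW₂E hy)
    have h4 := hBg x y
    rw [e1, e2, hQ.form.smul_left, sym_smul_right hQ.form] at h4
    have h5 : (2 : F) * B x y = 0 := by linear_combination -h4 + B x y * hs12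
    rcases mul_eq_zero.mp h5 with h | h
    · exact absurd h h2
    · exact h
  have hsum := subtyp_sup_alt hf hQ W₁ W₂ horth j₁ j₂ τ₁ (-τ₁) hW₁ hW₂
  have hsign : τ₁ * -τ₁ = -1 := by rcases hτ₁ with rfl | rfl <;> norm_num
  rw [hsign] at hsum
  refine ⟨W₁ ⊔ W₂, hsum, ?_⟩
  rw [Submodule.map_sup]
  apply sup_le_sup
  · rintro _ ⟨w, hw, rfl⟩
    rw [(hE₁ w).mp (hW₁E hw)]
    exact W₁.smul_mem _ hw
  · rintro _ ⟨w, hw, rfl⟩
    rw [(hE₂ w).mp (hW₂E hw)]
    exact W₂.smul_mem _ hw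

/-- INVE (backup seat) -/
theorem invol_fix_ell_alt (hf : QFacts F) (h2 : (2 : F) ≠ 0) (hQ : IsQuad Q B) (hnd : Nondeg B)
    (d : ℕ) (hd : 3 ≤ d) (hdim : finrank F V = 2 * d) (p : ℕ) [Fact p.Prime] [CharP F p]
    (g : Module.End F V) (hgQ : QI Q g) (hg : g * g = 1)
    (hev : Even (finrank F (LinearMap.ker (g + 1)))) (k : ℕ) (hk : k + 2 ≤ d) :
    ∃ W : Submodule F V, SubTyp Q B W k (-1) ∧ W.map g ≤ W := by
  have hEp : ∀ x, x ∈ LinearMap.ker (g - 1) ↔ g x = (1 : F) • x := by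
    intro x
    rw [LinearMap.mem_ker, LinearMap.sub_apply, Module.End.one_apply, one_smul, sub_eq_zero]
  have hEm : ∀ x, x ∈ LinearMap.ker (g + 1) ↔ g x = (-1 : F) • x := by
    intro x
    rw [LinearMap.mem_ker, LinearMap.add_apply, Module.End.one_apply, neg_smul, one_smul,
      add_eq_zero_iff_eq_neg]
  have hsum : finrank F (LinearMap.ker (g - 1)) + finrank F (LinearMap.ker (g + 1)) = 2 * d := by
    have h1 := LinearMap.finrank_range_add_finrank_ker (g - 1)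
    have hle : LinearMap.range (g - 1) ≤ LinearMap.ker (g + 1) := by
      rintro _ ⟨v, rfl⟩
      rw [LinearMap.mem_ker]
      have h3 : (g + 1) ((g - 1) v) = ((g + 1) * (g - 1)) v := rfl
      rw [h3]
      have h4 : (g + 1) * (g - 1) = 0 := by
        rw [add_mul, mul_sub, mul_sub, hg]; simp
      rw [h4]; rfl
    have h5 := Submodule.finrank_mono hle
    have hinf : LinearMap.ker (g - 1) ⊓ LinearMap.ker (g + 1) = ⊥ := by
      rw [eq_bot_iff]
      rintro x ⟨hx1, hx2⟩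
      have e1 := (hEp x).mp hx1
      have e2 := (hEm x).mp hx2
      rw [e1, one_smul, neg_smul, one_smul] at e2
      have h6 : (2 : F) • x = 0 := by
        rw [two_smul]
        nth_rewrite 1 [e2]
        exact neg_add_cancel x
      rcases smul_eq_zero.mp h6 with h | h
      · exact absurd h h2
      · exact h
    have h7 := Submodule.finrank_sup_add_finrank_inf_eq (LinearMap.ker (g - 1))
      (LinearMap.ker (g + 1))
    rw [hinf, finrank_bot] at h7
    have h8 := Submodule.finrank_le (LinearMap.ker (g - 1) ⊔ LinearMap.ker (g + 1))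
    omega
  obtain ⟨b, hb⟩ := hev
  have hinv : ∀ (s : F) (E W : Submodule F V), (∀ x, x ∈ E ↔ g x = s • x) → W ≤ E →
      W.map g ≤ W := by
    intro s E W hE hWE
    rintro _ ⟨w, hw, rfl⟩
    rw [(hE w).mp (hWE hw)]
    exact W.smul_mem _ hw
  by_cases c1 : 2 * k + 3 ≤ finrank F (LinearMap.ker (g - 1))
  · obtain ⟨W, hWE, hW⟩ := inve_free hf h2 hQ _
      (inve_ndeg h2 hQ hnd g hgQ hg 1 (one_mul 1) _ hEp) k (-1) (Or.inr rfl) c1
    exact ⟨W, hW, hinv 1 _ W hEp hWE⟩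
  by_cases c2 : 2 * k + 3 ≤ finrank F (LinearMap.ker (g + 1))
  · obtain ⟨W, hWE, hW⟩ := inve_free hf h2 hQ _
      (inve_ndeg h2 hQ hnd g hgQ hg (-1) (by ring) _ hEm) k (-1) (Or.inr rfl) c2
    exact ⟨W, hW, hinv (-1) _ W hEm hWE⟩
  by_cases c3 : 2 * k + 1 ≤ finrank F (LinearMap.ker (g - 1))
  · obtain ⟨W, hW, hWg⟩ := inve_comb hf h2 hQ hnd g hgQ hg (-1) 1 (by ring) (by ring) (by ring)
      _ _ hEm hEp 0 (k - 1) (by omega) (by omega)
    have e : 0 + (k - 1) + 1 = k := by omega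
    rw [e] at hW
    exact ⟨W, hW, hWg⟩
  · have ha : finrank F (LinearMap.ker (g - 1)) = 2 * (d - b) := by omega
    obtain ⟨W, hW, hWg⟩ := inve_comb hf h2 hQ hnd g hgQ hg 1 (-1) (by ring) (by ring) (by ring)
      _ _ hEp hEm (d - b - 1) (k - (d - b)) (by omega) (by omega)
    have e : (d - b - 1) + (k - (d - b)) + 1 = k := by omega
    rw [e] at hW
    exact ⟨W, hW, hWg⟩

end Cfsg.Agent.Lib.Helper98.H74
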