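import Cfsg.Agent.Lib.Helper98.H90Defs
import Cfsg.Agent.Lib.Helper51.HypPairs
import Cfsg.Agent.Lib.Helper96.SpFix

/-!
# Project H74, batch 2 (S5990), piece SIEGINVM (backup seat, helper43)

Characteristic 2, `S` an invertible alternating matrix, `x = fromBlocks (fromBlocks 1 S 0 1) 0 0 1`
acting on the space of `quadFormMinus`: every `x`-invariant subspace `W` that is nondegenerate
for the polar form and whose dimension is divisible by 4 is of plus type.
`siegel_plus_of_four_dvd_alt` has the statement of `siegel_plus_of_four_dvd` of the skeleton,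
under a different name so that both seats' files can be imported together.
-/

set_option autoImplicit false

namespace Cfsg.Agent.Lib.Helper98.H74

open Cfsg.Agent.Lib.Helper47 Cfsg.Agent.Lib.Helper98.T73 Module Polynomial

universe u

variable {F : Type u} [Field F] [Fintype F]

/-- the polar form of `quadFormMinus` as a bilinear form -/
noncomputable def sim43_Bm (k : ℕ) (F : Type u) [Field F] (a b : F) :
    LinearMap.BilinForm F ((Fin k ⊕ Fin k) ⊕ Fin 2 → F) :=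
  QuadraticMap.polarBilin (Cfsg.Agent.Lib.Helper51.QMinus k F a b)

omit [Fintype F] in
theorem sim43_Bm_apply [CharP F 2] (k : ℕ) (a b : F) (u v : (Fin k ⊕ Fin k) ⊕ Fin 2 → F) :
    sim43_Bm k F a b u v =
      (∑ i : Fin k, (u (Sum.inl (Sum.inl i)) * v (Sum.inl (Sum.inr i))
        + v (Sum.inl (Sum.inl i)) * u (Sum.inl (Sum.inr i))))
        + a * (u (Sum.inr 0) * v (Sum.inr 1) + v (Sum.inr 0) * u (Sum.inr 1)) := by
  unfold sim43_Bm
  rw [QuadraticMap.polarBilin_apply_apply, Cfsg.Agent.Lib.Helper51.polar_QMinus]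
  have h2 : (2 : F) = 0 := CharTwo.two_eq_zero
  rw [h2]
  ring

omit [Fintype F] in
theorem sim43_polar (k : ℕ) (a b : F) (u v : (Fin k ⊕ Fin k) ⊕ Fin 2 → F) :
    QuadraticMap.polar (Cfsg.quadFormMinus k F a b) u v = sim43_Bm k F a b u v := by
  unfold sim43_Bm
  rw [QuadraticMap.polarBilin_apply_apply, Cfsg.Agent.Lib.Helper51.coe_QMinus]

omit [Fintype F] in
theorem sim43_N_ll (k : ℕ) (S : Matrix (Fin k) (Fin k) F)
    (u : (Fin k ⊕ Fin k) ⊕ Fin 2 → F) (i : Fin k) :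
    ((Matrix.toLin' (Matrix.fromBlocks (Matrix.fromBlocks 1 S 0 1) 0 0 1 :
      Matrix ((Fin k ⊕ Fin k) ⊕ Fin 2) ((Fin k ⊕ Fin k) ⊕ Fin 2) F) - 1) u) (Sum.inl (Sum.inl i))
      = ∑ j : Fin k, S i j * u (Sum.inl (Sum.inr j)) := by
  simp [Matrix.toLin'_apply, Matrix.mulVec, dotProduct, Fintype.sum_sum_type, Matrix.one_apply]

omit [Fintype F] in
theorem sim43_N_lr (k : ℕ) (S : Matrix (Fin k) (Fin k) F)
    (u : (Fin k ⊕ Fin k) ⊕ Fin 2 → F) (i : Fin k) :
    ((Matrix.toLin' (Matrix.fromBlocks (Matrix.fromBlocks 1 S 0 1) 0 0 1 :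
      Matrix ((Fin k ⊕ Fin k) ⊕ Fin 2) ((Fin k ⊕ Fin k) ⊕ Fin 2) F) - 1) u) (Sum.inl (Sum.inr i))
      = 0 := by
  simp [Matrix.toLin'_apply, Matrix.mulVec, dotProduct, Fintype.sum_sum_type, Matrix.one_apply]

omit [Fintype F] in
theorem sim43_N_r (k : ℕ) (S : Matrix (Fin k) (Fin k) F)
    (u : (Fin k ⊕ Fin k) ⊕ Fin 2 → F) (e : Fin 2) :
    ((Matrix.toLin' (Matrix.fromBlocks (Matrix.fromBlocks 1 S 0 1) 0 0 1 :
      Matrix ((Fin k ⊕ Fin k) ⊕ Fin 2) ((Fin k ⊕ Fin k) ⊕ Fin 2) F) - 1) u) (Sum.inr e)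
      = 0 := by
  simp [Matrix.toLin'_apply, Matrix.mulVec, dotProduct, Fintype.sum_sum_type, Matrix.one_apply]

omit [Fintype F] in
theorem sim43_beta [CharP F 2] (k : ℕ) (a b : F) (S : Matrix (Fin k) (Fin k) F)
    (u v : (Fin k ⊕ Fin k) ⊕ Fin 2 → F) :
    sim43_Bm k F a b u ((Matrix.toLin' (Matrix.fromBlocks (Matrix.fromBlocks 1 S 0 1) 0 0 1 :
      Matrix ((Fin k ⊕ Fin k) ⊕ Fin 2) ((Fin k ⊕ Fin k) ⊕ Fin 2) F) - 1) v)
      = ∑ i : Fin k, ∑ j : Fin k, S i j * v (Sum.inl (Sum.inr j)) * u (Sum.inl (Sum.inr i)) := by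
  rw [sim43_Bm_apply]
  simp only [sim43_N_r, sim43_N_lr, sim43_N_ll, mul_zero, zero_mul, add_zero, zero_add,
    Finset.sum_mul]

omit [Fintype F] in
theorem sim43_beta_symm [CharP F 2] (k : ℕ) (a b : F) (S : Matrix (Fin k) (Fin k) F)
    (hSt : S.transpose = S) (u v : (Fin k ⊕ Fin k) ⊕ Fin 2 → F) :
    sim43_Bm k F a b u ((Matrix.toLin' (Matrix.fromBlocks (Matrix.fromBlocks 1 S 0 1) 0 0 1 :
      Matrix ((Fin k ⊕ Fin k) ⊕ Fin 2) ((Fin k ⊕ Fin k) ⊕ Fin 2) F) - 1) v)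
      = sim43_Bm k F a b v ((Matrix.toLin' (Matrix.fromBlocks (Matrix.fromBlocks 1 S 0 1) 0 0 1 :
      Matrix ((Fin k ⊕ Fin k) ⊕ Fin 2) ((Fin k ⊕ Fin k) ⊕ Fin 2) F) - 1) u) := by
  rw [sim43_beta, sim43_beta, Finset.sum_comm]
  apply Finset.sum_congr rfl
  intro i _
  apply Finset.sum_congr rfl
  intro j _
  have h : S j i = S i j := by
    have h1 := congrFun (congrFun hSt i) j
    rw [Matrix.transpose_apply] at h1
    exact h1
  rw [h]
  ring

omit [Fintype F] in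
theorem sim43_beta_self [CharP F 2] (k : ℕ) (a b : F) (S : Matrix (Fin k) (Fin k) F)
    (hS0 : ∀ c, S c c = 0) (hSt : S.transpose = S) (u : (Fin k ⊕ Fin k) ⊕ Fin 2 → F) :
    sim43_Bm k F a b u ((Matrix.toLin' (Matrix.fromBlocks (Matrix.fromBlocks 1 S 0 1) 0 0 1 :
      Matrix ((Fin k ⊕ Fin k) ⊕ Fin 2) ((Fin k ⊕ Fin k) ⊕ Fin 2) F) - 1) u) = 0 := by
  rw [sim43_beta, ← Finset.sum_product']
  apply Finset.sum_involution (fun p _ => (p.2, p.1))
  · intro p _
    have h : S p.2 p.1 = S p.1 p.2 := by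
      have h1 := congrFun (congrFun hSt p.1) p.2
      rw [Matrix.transpose_apply] at h1
      exact h1
    show S p.1 p.2 * u (Sum.inl (Sum.inr p.2)) * u (Sum.inl (Sum.inr p.1)) +
      S p.2 p.1 * u (Sum.inl (Sum.inr p.1)) * u (Sum.inl (Sum.inr p.2)) = 0
    rw [h]
    have h2 : S p.1 p.2 * u (Sum.inl (Sum.inr p.1)) * u (Sum.inl (Sum.inr p.2)) =
        S p.1 p.2 * u (Sum.inl (Sum.inr p.2)) * u (Sum.inl (Sum.inr p.1)) := by ring
    rw [h2]
    exact CharTwo.add_self_eq_zero _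
  · intro p _ hne heq
    apply hne
    have h1 : p.2 = p.1 := congrArg Prod.fst heq
    rw [h1, hS0, zero_mul, zero_mul]
  · intro p _
    exact Finset.mem_product.mpr ⟨Finset.mem_univ _, Finset.mem_univ _⟩
  · intro p _
    rfl

omit [Fintype F] in
theorem sim43_ker (k : ℕ) (S : Matrix (Fin k) (Fin k) F) (hSdet : IsUnit S.det)
    (u : (Fin k ⊕ Fin k) ⊕ Fin 2 → F)
    (hu : (Matrix.toLin' (Matrix.fromBlocks (Matrix.fromBlocks 1 S 0 1) 0 0 1 :
      Matrix ((Fin k ⊕ Fin k) ⊕ Fin 2) ((Fin k ⊕ Fin k) ⊕ Fin 2) F) - 1) u = 0) (i : Fin k) :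
    u (Sum.inl (Sum.inr i)) = 0 := by
  have h1 : S.mulVec (fun j => u (Sum.inl (Sum.inr j))) = 0 := by
    funext c
    have h2 := congrFun hu (Sum.inl (Sum.inl c))
    rw [sim43_N_ll] at h2
    exact h2
  have h3 := Matrix.eq_zero_of_mulVec_eq_zero hSdet.ne_zero h1
  exact congrFun h3 i

omit [Fintype F] in
theorem sim43_Bm_alt [CharP F 2] (k : ℕ) (a b : F) : (sim43_Bm k F a b).IsAlt := by
  intro u
  rw [sim43_Bm_apply]
  have h1 : ∑ i : Fin k, (u (Sum.inl (Sum.inl i)) * u (Sum.inl (Sum.inr i))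
      + u (Sum.inl (Sum.inl i)) * u (Sum.inl (Sum.inr i))) = 0 :=
    Finset.sum_eq_zero (fun i _ => CharTwo.add_self_eq_zero _)
  rw [h1, CharTwo.add_self_eq_zero, mul_zero, add_zero]

omit [Fintype F] in
theorem sim43_Bm_nd [CharP F 2] (k : ℕ) (a b : F) (ha : a ≠ 0) :
    Cfsg.Agent.Lib.Helper96.Sp.ND (sim43_Bm k F a b) ⊤ := by
  classical
  intro u _ h
  funext j
  rcases j with (i | i) | e
  · have h1 := h (Pi.single (Sum.inl (Sum.inr i)) 1) Submodule.mem_top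
    rw [sim43_Bm_apply] at h1
    simpa [Pi.single_apply] using h1
  · have h1 := h (Pi.single (Sum.inl (Sum.inl i)) 1) Submodule.mem_top
    rw [sim43_Bm_apply] at h1
    simpa [Pi.single_apply] using h1
  · fin_cases e
    · have h1 := h (Pi.single (Sum.inr 1) 1) Submodule.mem_top
      rw [sim43_Bm_apply] at h1
      simpa [Pi.single_apply, ha] using h1
    · have h1 := h (Pi.single (Sum.inr 0) 1) Submodule.mem_top
      rw [sim43_Bm_apply] at h1
      simpa [Pi.single_apply, ha] using h1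

omit [Fintype F] in
/-- rank-nullity for the restriction of a linear map to a subspace -/
theorem sim43_rank_nullity {V V' : Type u} [AddCommGroup V] [Module F V] [FiniteDimensional F V]
    [AddCommGroup V'] [Module F V'] (f : V →ₗ[F] V') (W : Submodule F V) :
    finrank F ↥(W.map f) + finrank F ↥(W ⊓ LinearMap.ker f) = finrank F ↥W := by
  have h := LinearMap.finrank_range_add_finrank_ker (f.comp W.subtype)
  have hr : LinearMap.range (f.comp W.subtype) = W.map f := by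
    rw [LinearMap.range_comp, Submodule.range_subtype]
  have e : (LinearMap.ker (f.comp W.subtype)).map W.subtype = W ⊓ LinearMap.ker f := by
    ext x
    constructor
    · rintro ⟨y, hy, rfl⟩
      refine ⟨y.2, ?_⟩
      have : f (y : V) = 0 := by simpa using hy
      exact LinearMap.mem_ker.mpr this
    · rintro ⟨hx, hx'⟩
      refine ⟨⟨x, hx⟩, ?_, rfl⟩
      have : f x = 0 := LinearMap.mem_ker.mp hx'
      simpa using this
  have hk : finrank F ↥(LinearMap.ker (f.comp W.subtype))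
      = finrank F ↥(W ⊓ LinearMap.ker f) := by
    rw [← e]
    exact (Submodule.equivMapOfInjective W.subtype W.injective_subtype _).finrank_eq
  rw [hr, hk] at h
  exact h

/-- SIEGINVM (backup seat) -/
theorem siegel_plus_of_four_dvd_alt [CharP F 2] (k : ℕ) (a b : F)
    (hab : ∀ x y : F, x ^ 2 + a * x * y + b * y ^ 2 = 0 → x = 0 ∧ y = 0)
    (S : Matrix (Fin k) (Fin k) F) (hS0 : ∀ c, S c c = 0) (hSt : S.transpose = S)
    (hSdet : IsUnit S.det) (W : Submodule F ((Fin k ⊕ Fin k) ⊕ Fin 2 → F))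
    (hWnd : Cfsg.Geo.IsNondegenerateOn (QuadraticMap.polar (Cfsg.quadFormMinus k F a b)) W)
    (hWx : W.map (Matrix.toLin' (Matrix.fromBlocks (Matrix.fromBlocks 1 S 0 1) 0 0 1 :
      Matrix ((Fin k ⊕ Fin k) ⊕ Fin 2) ((Fin k ⊕ Fin k) ⊕ Fin 2) F)) ≤ W)
    (h4 : 4 ∣ finrank F W) : Cfsg.Geo.IsPlusTypeOn (Cfsg.quadFormMinus k F a b) W := by
  classical
  have ha : a ≠ 0 := by
    rintro rfl
    obtain ⟨c, hc⟩ := FiniteField.isSquare_of_char_two (ringChar.eq F 2) b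
    have h1 := hab c 1 (by
      rw [hc]
      have h2 : c ^ 2 + 0 * c * 1 + c * c * 1 ^ 2 = c * c + c * c := by ring
      rw [h2]
      exact CharTwo.add_self_eq_zero _)
    exact one_ne_zero h1.2
  obtain ⟨N, hNdef⟩ : ∃ N : Module.End F ((Fin k ⊕ Fin k) ⊕ Fin 2 → F),
      N = Matrix.toLin' (Matrix.fromBlocks (Matrix.fromBlocks 1 S 0 1) 0 0 1 :
        Matrix ((Fin k ⊕ Fin k) ⊕ Fin 2) ((Fin k ⊕ Fin k) ⊕ Fin 2) F) - 1 := ⟨_, rfl⟩
  obtain ⟨π, hπdef⟩ : ∃ π : ((Fin k ⊕ Fin k) ⊕ Fin 2 → F) →ₗ[F] (Fin 2 → F),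
      π = LinearMap.funLeft F F (fun e : Fin 2 => (Sum.inr e : (Fin k ⊕ Fin k) ⊕ Fin 2)) :=
    ⟨_, rfl⟩
  have hπ : ∀ v e, π v e = v (Sum.inr e) := by
    intro v e
    rw [hπdef]
    rfl
  have hA := sim43_Bm_alt (F := F) k a b
  have hNtop := sim43_Bm_nd (F := F) k a b ha
  have hsymB : ∀ u v, sim43_Bm k F a b u v = sim43_Bm k F a b v u := by
    intro u v
    rw [sim43_Bm_apply, sim43_Bm_apply]
    congr 1
    · apply Finset.sum_congr rfl
      intro i _
      ring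
    · ring
  have hWND : Cfsg.Agent.Lib.Helper96.Sp.ND (sim43_Bm k F a b) W := by
    intro u hu h
    by_contra hne
    obtain ⟨-, v, hv, hv'⟩ := hWnd u hu hne
    rw [sim43_polar] at hv'
    exact hv' (h v hv)
  have hNW : ∀ w ∈ W, N w ∈ W := by
    intro w hw
    rw [hNdef, LinearMap.sub_apply, Module.End.one_apply]
    exact W.sub_mem (hWx (Submodule.mem_map_of_mem hw)) hw
  have hbeta : ∀ u v, sim43_Bm k F a b u (N v) = sim43_Bm k F a b v (N u) := by
    intro u v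
    rw [hNdef]
    exact sim43_beta_symm k a b S hSt u v
  have hbeta0 : ∀ u, sim43_Bm k F a b u (N u) = 0 := by
    intro u
    rw [hNdef]
    exact sim43_beta_self k a b S hS0 hSt u
  have hker : ∀ u, N u = 0 → ∀ i, u (Sum.inl (Sum.inr i)) = 0 := by
    intro u hu
    rw [hNdef] at hu
    exact sim43_ker k S hSdet u hu
  have hNlr : ∀ w i, (N w) (Sum.inl (Sum.inr i)) = 0 := by
    intro w i
    rw [hNdef]
    exact sim43_N_lr k S w i
  have hNr : ∀ w e, (N w) (Sum.inr e) = 0 := by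
    intro w e
    rw [hNdef]
    exact sim43_N_r k S w e
  have hNN : ∀ w, N (N w) = 0 := by
    intro w
    funext j
    rcases j with (i | i) | e
    · have h1 : (N (N w)) (Sum.inl (Sum.inl i))
          = ∑ j : Fin k, S i j * (N w) (Sum.inl (Sum.inr j)) := by
        conv_lhs => rw [hNdef]
        rw [sim43_N_ll]
        rw [hNdef]
      rw [h1]
      apply Finset.sum_eq_zero
      intro j _
      rw [hNlr, mul_zero]
    · exact hNlr _ i
    · exact hNr _ e
  have hrn := sim43_rank_nullity N W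
  have hKW : W ⊓ LinearMap.ker N ≤ W := inf_le_left
  -- evenness of the rank of `N` on `W`
  obtain ⟨q, hq⟩ := Submodule.exists_isCompl (W ⊓ LinearMap.ker N)
  have hUK : (W ⊓ q) ⊓ (W ⊓ LinearMap.ker N) = ⊥ := by
    rw [eq_bot_iff]
    intro x hx
    have h1 : x ∈ (W ⊓ LinearMap.ker N) ⊓ q := ⟨hx.2, hx.1.2⟩
    rw [hq.inf_eq_bot] at h1
    exact h1
  have hUsup : (W ⊓ LinearMap.ker N) ⊔ (W ⊓ q) = W := by
    have h1 := sup_inf_assoc_of_le q hKW
    rw [hq.sup_eq_top, top_inf_eq] at h1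
    rw [inf_comm W q]
    exact h1.symm
  have hdimU : finrank F ↥(W ⊓ q) + finrank F ↥(W ⊓ LinearMap.ker N) = finrank F W := by
    have h1 := Submodule.finrank_sup_add_finrank_inf_eq (W ⊓ LinearMap.ker N) (W ⊓ q)
    rw [hUsup, inf_comm (W ⊓ LinearMap.ker N) (W ⊓ q), hUK, finrank_bot] at h1
    omega
  have hUND : Cfsg.Agent.Lib.Helper96.Sp.ND ((sim43_Bm k F a b).compl₂ N) (W ⊓ q) := by
    intro u hu h
    have hNu : N u = 0 := by
      apply hWND (N u) (hNW u hu.1)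
      intro w hw
      rw [hsymB, hbeta w u]
      rw [← hUsup] at hw
      obtain ⟨k', hk', v, hv, rfl⟩ := Submodule.mem_sup.mp hw
      rw [map_add, map_add, LinearMap.mem_ker.mp hk'.2, map_zero, zero_add]
      exact h v hv
    have hu0 : u ∈ (W ⊓ q) ⊓ (W ⊓ LinearMap.ker N) := ⟨hu, hu.1, LinearMap.mem_ker.mpr hNu⟩
    rw [hUK] at hu0
    exact hu0
  have hbalt : ((sim43_Bm k F a b).compl₂ N).IsAlt := fun u => hbeta0 u
  obtain ⟨s, hs⟩ := Cfsg.Agent.Lib.Helper96.Sp.even_finrank_of_nd hbalt (W ⊓ q) hUND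
  -- the totally singular subspace
  have hrn2 := sim43_rank_nullity π (W ⊓ LinearMap.ker N)
  have hle2 : finrank F ↥((W ⊓ LinearMap.ker N).map π) ≤ 2 := by
    have h1 := Submodule.finrank_le ((W ⊓ LinearMap.ker N).map π)
    rw [Module.finrank_fintype_fun_eq_card, Fintype.card_fin] at h1
    exact h1
  have hUW : (W ⊓ LinearMap.ker N) ⊓ LinearMap.ker π ≤ W := inf_le_left.trans inf_le_left
  have hcoord : ∀ v ∈ (W ⊓ LinearMap.ker N) ⊓ LinearMap.ker π,
      (∀ i, v (Sum.inl (Sum.inr i)) = 0) ∧ ∀ e, v (Sum.inr e) = 0 := by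
    intro v hv
    refine ⟨hker v (LinearMap.mem_ker.mp hv.1.2), fun e => ?_⟩
    have h1 := LinearMap.mem_ker.mp hv.2
    rw [← hπ v e, h1]
    rfl
  have hIU : W.map N ≤ (W ⊓ LinearMap.ker N) ⊓ LinearMap.ker π := by
    rintro _ ⟨w, hw, rfl⟩
    have h1 : π (N w) = 0 := by
      funext e
      rw [hπ, hNr]
      rfl
    exact ⟨⟨hNW w hw, LinearMap.mem_ker.mpr (hNN w)⟩, LinearMap.mem_ker.mpr h1⟩
  have hIUle := Submodule.finrank_mono hIU
  have hUperp : (W ⊓ LinearMap.ker N) ⊓ LinearMap.ker π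
      ≤ W ⊓ (sim43_Bm k F a b).orthogonal ((W ⊓ LinearMap.ker N) ⊓ LinearMap.ker π) := by
    refine le_inf hUW ?_
    intro v hv
    rw [Cfsg.Agent.Lib.Helper96.Sp.mem_perp_iff]
    intro w hw
    obtain ⟨hv1, hv2⟩ := hcoord v hv
    obtain ⟨hw1, hw2⟩ := hcoord w hw
    rw [sim43_Bm_apply]
    simp only [hv1, hv2, hw1, hw2, mul_zero, add_zero, Finset.sum_const_zero]
  have hfp := Cfsg.Agent.Lib.Helper96.Sp.finrank_inf_perp hA hNtop hUW hWND
  have hUperple := Submodule.finrank_mono hUperp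
  obtain ⟨t, ht⟩ := h4
  refine ⟨(W ⊓ LinearMap.ker N) ⊓ LinearMap.ker π, hUW, ?_, by omega⟩
  intro v hv
  obtain ⟨hv1, hv2⟩ := hcoord v hv
  unfold Cfsg.quadFormMinus
  simp only [hv1, hv2, mul_zero, add_zero, Finset.sum_const_zero, ne_eq,
    OfNat.ofNat_ne_zero, not_false_eq_true, zero_pow]

end Cfsg.Agent.Lib.Helper98.H74
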