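import Mathlib
import Cfsg.Agent.Lib.Helper45.MinIdxA

/-!
# S2140, piece H5D (for helper45)

Complement analysis for `SL_3` in characteristic different from 2, using the involution
`diag(1, -1, -1)`.
-/

set_option autoImplicit false

namespace Cfsg.Agent.Lib.Helper43.MinIdx

open Matrix Cfsg.Agent.Lib.Helper50 Cfsg.Agent.Lib.Helper45.MinIdx

set_option linter.unusedSimpArgs false in
theorem compl_three_odd {F : Type*} [Field F] (h2 : (2 : F) ≠ 0)
    (H : Subgroup (Matrix.SpecialLinearGroup (Fin 3) F))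
    (hfree : ∀ a φ : Fin 3 → F, a ≠ 0 → φ ⬝ᵥ a = 0 → tL a φ 1 ∈ H → φ = 0)
    (hcompl : ∀ g : Matrix.SpecialLinearGroup (Fin 3) F, ∃ φ : Fin 3 → F,
      φ ⬝ᵥ (Pi.single 0 1 : Fin 3 → F) = 0 ∧ tL (Pi.single 0 1) φ 1 * g ∈ H) : False := by
  classical
  have he0 : (Pi.single 0 1 : Fin 3 → F) ≠ 0 := by
    intro h
    have h1 := congrFun h 0
    simp at h1
  have hfree' : ∀ φ : Fin 3 → F, φ ⬝ᵥ (Pi.single 0 1 : Fin 3 → F) = 0 →
      tL (Pi.single 0 1) φ 1 ∈ H → φ = 0 := fun φ h => hfree _ φ he0 h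
  -- the involution `z = diag(1, -1, -1)`
  have hzdet : (Matrix.diagonal ![(1 : F), -1, -1]).det = 1 := by
    simp [Matrix.det_diagonal, Fin.prod_univ_three]
  obtain ⟨z, hz⟩ : ∃ z : Matrix.SpecialLinearGroup (Fin 3) F,
      (z : Matrix (Fin 3) (Fin 3) F) = Matrix.diagonal ![(1 : F), -1, -1] :=
    ⟨⟨_, hzdet⟩, rfl⟩
  have hzz : z * z = 1 := by
    apply sl_ext
    rw [Matrix.SpecialLinearGroup.coe_mul, hz, Matrix.diagonal_mul_diagonal]
    ext i j
    fin_cases i <;> fin_cases j <;> simp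
  have hzinv : z⁻¹ = z := inv_eq_of_mul_eq_one_right hzz
  have hze : (z : Matrix (Fin 3) (Fin 3) F) *ᵥ (Pi.single 0 1 : Fin 3 → F)
      = (1 : F) • (Pi.single 0 1 : Fin 3 → F) := by
    rw [hz, one_smul]
    funext i
    fin_cases i <;> simp [Matrix.mulVec_diagonal]
  -- the transvection `τ`
  have hψe : (Pi.single 2 1 : Fin 3 → F) ⬝ᵥ (Pi.single 0 1 : Fin 3 → F) = 0 := by simp
  have hψb : (Pi.single 2 1 : Fin 3 → F) ⬝ᵥ (Pi.single 1 1 : Fin 3 → F) = 0 := by simp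
  have hτe : (tL (Pi.single 1 1 : Fin 3 → F) (Pi.single 2 1) 1 : Matrix (Fin 3) (Fin 3) F)
      *ᵥ (Pi.single 0 1 : Fin 3 → F) = (1 : F) • (Pi.single 0 1 : Fin 3 → F) := by
    rw [tL_mulVec hψb, hψe, mul_zero, zero_smul, add_zero, one_smul]
  have hcomm : tL (Pi.single 1 1 : Fin 3 → F) (Pi.single 2 1) 1 * z
      = z * tL (Pi.single 1 1 : Fin 3 → F) (Pi.single 2 1) 1 := by
    apply sl_ext
    rw [Matrix.SpecialLinearGroup.coe_mul, Matrix.SpecialLinearGroup.coe_mul, tL_coe hψb, hz]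
    ext i j
    fin_cases i <;> fin_cases j <;>
      simp [Matrix.add_mul, Matrix.mul_add, Matrix.vecMulVec_apply, Matrix.mul_apply,
        Fin.sum_univ_three, Matrix.diagonal_apply, Matrix.one_apply]
  obtain ⟨φ, hφ, h1⟩ := hcompl (tL (Pi.single 1 1 : Fin 3 → F) (Pi.single 2 1) 1)
  obtain ⟨φ', hφ', h1'⟩ := hcompl z
  have hrel := rel_of_comm H (Pi.single 0 1 : Fin 3 → F) he0 hfree'
    (tL (Pi.single 1 1 : Fin 3 → F) (Pi.single 2 1) 1) z 1 1 hτe hze hcomm φ φ' hφ hφ' h1 h1'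
  rw [tL_inv, tL_vecMul hψb, hzinv, hz, one_smul, one_smul] at hrel
  -- coordinates
  have hφ0 : φ 0 = 0 := by
    have h3 : φ ⬝ᵥ (Pi.single 0 1 : Fin 3 → F) = φ 0 := by simp
    rw [← h3, hφ]
  have hφ1 : φ 1 = 0 := by
    have h3 := congrFun hrel 1
    simp [Matrix.vecMul_diagonal] at h3
    have h4 : (2 : F) * φ 1 = 0 := by linear_combination h3
    rcases mul_eq_zero.mp h4 with h5 | h5
    · exact absurd h5 h2
    · exact h5
  have hφeq : φ = φ 2 • (Pi.single 2 1 : Fin 3 → F) := by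
    funext i
    fin_cases i <;> simp [hφ0, hφ1]
  rw [hφeq] at h1
  refine no_prop H (Pi.single 0 1 : Fin 3 → F) hfree (Pi.single 1 1) (Pi.single 2 1) ?_ ?_ hψe hψb
    (φ 2) h1
  · intro c hc
    have h3 := congrFun hc 1
    simp at h3
  · intro h
    have h3 := congrFun h 2
    simp at h3

end Cfsg.Agent.Lib.Helper43.MinIdx
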