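import Mathlib
import Cfsg.Prelude.Def_GeometricClasses
import Cfsg.Agent.Lib.Helper71.OK1
import Cfsg.Agent.Lib.Helper52.Siegel

/-!
# S5701 piece C1 (helper43), core: `max_perp` / `max_perp_inv` relative to the existence of the
`L`-Eichler maps in `NO` (hypothesis `hrho`, piece A1).
-/

set_option autoImplicit false
set_option linter.unusedSectionVars false

namespace Cfsg.Agent.Lib.Helper43.OKC1A

open Matrix Cfsg.Agent.Lib.Helper71.SpK Cfsg.Agent.Lib.Helper71.OK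

variable {ι : Type} [Fintype ι] [DecidableEq ι] {F : Type*} [Field F]
  {Q : QuadraticForm F (ι → F)} {L : Type*} [Field L] [Algebra F L] [FiniteDimensional F L]
  (S : KO (QuadraticMap.polar ⇑Q) L)

/-- Rank–nullity for `perp`. -/
lemma finrank_perp_ge' (P : Submodule F (ι → F)) (a : ι → F) :
    Module.finrank F ↥P ≤ Module.finrank F ↥(S.perp P a) + Module.finrank F L := by
  have h1 := LinearMap.finrank_range_add_finrank_ker ((S.Bl a).domRestrict P)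
  have h2 : Module.finrank F ↥(LinearMap.range ((S.Bl a).domRestrict P)) ≤ Module.finrank F L :=
    Submodule.finrank_le _
  have h3 : Module.finrank F ↥(LinearMap.ker ((S.Bl a).domRestrict P)) ≤
      Module.finrank F ↥(S.perp P a) := by
    rw [← Submodule.finrank_map_subtype_eq P (LinearMap.ker ((S.Bl a).domRestrict P))]
    apply Submodule.finrank_mono
    rintro x ⟨⟨x', hx'⟩, hk, rfl⟩
    rw [S.mem_perp]
    refine ⟨hx', ?_⟩
    have hk' := LinearMap.mem_ker.mp hk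
    rw [LinearMap.domRestrict_apply, S.Bl_apply] at hk'
    exact hk'
  omega

/-- The map `z ↦ (y₀|z)·u − (y₀|u)·z`. -/
def tmap (y₀ u : ι → F) : (ι → F) →ₗ[F] (ι → F) :=
  (S.actL u).comp (S.Bl y₀) - Matrix.mulVecLin (S.φ (S.B y₀ u))

lemma tmap_apply (y₀ u z : ι → F) :
    tmap S y₀ u z = S.φ (S.B z y₀) *ᵥ u - S.φ (S.B y₀ u) *ᵥ z := rfl

lemma tmap_act (y₀ u : ι → F) (l : L) (z : ι → F) :
    tmap S y₀ u (S.φ l *ᵥ z) = S.φ l *ᵥ tmap S y₀ u z := by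
  rw [tmap_apply, tmap_apply, S.B_act, Matrix.mulVec_sub, ← S.φ_mul_mulVec, ← S.φ_mul_mulVec,
    ← S.φ_mul_mulVec, mul_comm (S.B y₀ u) l]

theorem max_perp_of_rho (h2 : (2 : F) ≠ 0)
    (hd : 4 * Module.finrank F L ≤ Fintype.card ι)
    (hrho : ∀ {u z : ι → F}, S.B u u = 0 → S.B u z = 0 →
      ∃ g ∈ S.NO Q, ∀ x, (g : Matrix ι ι F) *ᵥ x = S.rho u z x)
    (M : Subgroup (GL ι F)) (hNM : S.NO Q ≤ M)
    {u : ι → F} (hu : u ≠ 0) (huu : S.B u u = 0)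
    {W₂ : Submodule F (ι → F)} (hW₂ : S.InW M W₂) (hne : W₂ ≠ S.line u)
    (hD : S.line u ⊓ W₂ ≠ ⊥)
    (hmax : ∀ W₃ W₄, S.InW M W₃ → S.InW M W₄ → W₃ ≠ W₄ →
      Module.finrank F ↥(W₃ ⊓ W₄) ≤ Module.finrank F ↥(S.line u ⊓ W₂))
    {y₀ : ι → F} (hy₀ : y₀ ∈ W₂) (hy₀u : S.B y₀ u ≠ 0) :
    ∀ y ∈ W₂, S.B y u = 0 → y ∈ S.line u := by
  intro y hy hyu
  by_contra hyl
  have hPmem : ∀ z, z ∈ S.perp (S.perp ⊤ u) y ↔ S.B z u = 0 ∧ S.B z y = 0 := by
    intro z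
    rw [S.mem_perp, S.mem_perp]
    simp
  have hPL : S.Lsub (S.perp (S.perp ⊤ u) y) := S.Lsub_perp (S.Lsub_perp S.Lsub_top u) y
  -- (a)
  have ha : ∀ z ∈ S.perp (S.perp ⊤ u) y, ∀ g ∈ S.NO Q,
      (∀ x, (g : Matrix ι ι F) *ᵥ x = S.rho u z x) → gim W₂ g = W₂ := by
    intro z hz g hg hgx
    obtain ⟨hzu, hzy⟩ := (hPmem z).mp hz
    by_contra hne'
    have h1 := hmax W₂ (gim W₂ g) hW₂ (S.InW_gim hW₂ (hNM hg)) (Ne.symm hne')
    have h3 : S.line u ⊓ W₂ < W₂ ⊓ gim W₂ g := by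
      have hgy : (g : Matrix ι ι F) *ᵥ y = y := by
        rw [hgx, S.rho_of_perp hyu, S.B_symm y z, hzy, S.φ_zero_mulVec, add_zero]
      have hyg : y ∈ gim W₂ g := by
        have := mulVec_mem_gim g hy
        rwa [hgy] at this
      refine lt_of_le_of_ne ?_ ?_
      · intro d hd'
        obtain ⟨hd1, hd2⟩ := Submodule.mem_inf.mp hd'
        refine Submodule.mem_inf.mpr ⟨hd2, ?_⟩
        have hgd : (g : Matrix ι ι F) *ᵥ d = d := by
          obtain ⟨l, rfl⟩ := S.mem_line.mp hd1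
          rw [hgx, S.rho_of_perp (by rw [S.B_act, huu, mul_zero]), S.B_act, S.B_symm u z, hzu,
            mul_zero, S.φ_zero_mulVec, add_zero]
        have := mulVec_mem_gim g hd2
        rwa [hgd] at this
      · intro heq
        have : y ∈ S.line u ⊓ W₂ := by rw [heq]; exact Submodule.mem_inf.mpr ⟨hy, hyg⟩
        exact hyl (Submodule.mem_inf.mp this).1
    have h4 := Submodule.finrank_lt_finrank_of_lt h3
    omega
  -- (b)
  have hb : ∀ z ∈ S.perp (S.perp ⊤ u) y, tmap S y₀ u z ∈ W₂ := by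
    intro z hz
    obtain ⟨hzu, hzy⟩ := (hPmem z).mp hz
    have hnz : -z ∈ S.perp (S.perp ⊤ u) y := Submodule.neg_mem _ hz
    obtain ⟨hnzu, hnzy⟩ := (hPmem (-z)).mp hnz
    obtain ⟨g₁, hg₁, hg₁x⟩ := hrho huu (by rw [S.B_symm]; exact hzu : S.B u z = 0)
    obtain ⟨g₂, hg₂, hg₂x⟩ := hrho huu (by rw [S.B_symm]; exact hnzu : S.B u (-z) = 0)
    have e1 : S.rho u z y₀ ∈ W₂ := by
      have := mulVec_mem_gim g₁ hy₀
      rwa [ha z hz g₁ hg₁ hg₁x, hg₁x] at this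
    have e2 : S.rho u (-z) y₀ ∈ W₂ := by
      have := mulVec_mem_gim g₂ hy₀
      rwa [ha (-z) hnz g₂ hg₂ hg₂x, hg₂x] at this
    have e3 : S.rho u z y₀ - S.rho u (-z) y₀ = (2 : F) • tmap S y₀ u z := by
      simp only [KO.rho, tmap_apply, S.B_neg_right, S.B_neg_left, S.φ_neg_mulVec,
        Matrix.mulVec_neg, neg_neg, S.B_symm z y₀]
      module
    have e4 : tmap S y₀ u z = (2 : F)⁻¹ • (S.rho u z y₀ - S.rho u (-z) y₀) := by
      rw [e3, smul_smul, inv_mul_cancel₀ h2, one_smul]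
    rw [e4]
    exact W₂.smul_mem _ (W₂.sub_mem e1 e2)
  -- (c)
  have hker : ∀ z, tmap S y₀ u z = 0 → z ∈ S.line u := by
    intro z hz
    rw [tmap_apply, sub_eq_zero] at hz
    refine S.mem_line.mpr ⟨(S.B y₀ u)⁻¹ * S.B z y₀, ?_⟩
    rw [S.φ_mul_mulVec, hz, S.φ_inv_cancel hy₀u]
  have hrange : Submodule.map (tmap S y₀ u) (S.perp (S.perp ⊤ u) y) = W₂ := by
    apply Submodule.eq_of_le_of_finrank_le
    · rintro w ⟨z, hz, rfl⟩
      exact hb z hz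
    · rw [S.InW_finrank hW₂]
      have h1 := LinearMap.finrank_range_add_finrank_ker
        ((tmap S y₀ u).domRestrict (S.perp (S.perp ⊤ u) y))
      rw [LinearMap.range_domRestrict] at h1
      have h2' : Module.finrank F
          ↥(LinearMap.ker ((tmap S y₀ u).domRestrict (S.perp (S.perp ⊤ u) y))) ≤
          Module.finrank F L := by
        rw [← S.finrank_line hu, ← Submodule.finrank_map_subtype_eq (S.perp (S.perp ⊤ u) y)
          (LinearMap.ker ((tmap S y₀ u).domRestrict (S.perp (S.perp ⊤ u) y)))]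
        apply Submodule.finrank_mono
        rintro x ⟨⟨x', hx'⟩, hk, rfl⟩
        have hk' := LinearMap.mem_ker.mp hk
        rw [LinearMap.domRestrict_apply] at hk'
        exact hker x' hk'
      have h3 := finrank_perp_ge' S ⊤ u
      have h4 := finrank_perp_ge' S (S.perp ⊤ u) y
      rw [finrank_top, Module.finrank_fintype_fun_eq_card] at h3
      omega
  have hW₂L : S.Lsub W₂ := by
    intro l w hw
    rw [← hrange] at hw ⊢
    obtain ⟨z, hz, rfl⟩ := hw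
    exact ⟨S.φ l *ᵥ z, hPL l z hz, tmap_act S y₀ u l z⟩
  -- (d)
  obtain ⟨d, hdm, hd0⟩ := (Submodule.ne_bot_iff _).mp hD
  obtain ⟨hd1, hd2⟩ := Submodule.mem_inf.mp hdm
  have hle : S.line u ≤ W₂ := by
    rw [← S.line_eq_of_mem hd1 hd0]
    intro w hw
    obtain ⟨l, rfl⟩ := S.mem_line.mp hw
    exact hW₂L l d hd2
  apply hne
  exact (Submodule.eq_of_le_of_finrank_eq hle
    (by rw [S.finrank_line hu, S.InW_finrank hW₂])).symm

theorem max_perp_inv_of_rho (h2 : (2 : F) ≠ 0)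
    (hd : 4 * Module.finrank F L ≤ Fintype.card ι)
    (hrho : ∀ {u z : ι → F}, S.B u u = 0 → S.B u z = 0 →
      ∃ g ∈ S.NO Q, ∀ x, (g : Matrix ι ι F) *ᵥ x = S.rho u z x)
    (M : Subgroup (GL ι F)) (hNM : S.NO Q ≤ M) (hMΩ : M ≤ Cfsg.Geo.omegaGL ⇑Q)
    {Wa Wb : Submodule F (ι → F)} (ha : S.InW M Wa)
    (hb : S.InW M Wb) (hne : Wa ≠ Wb) (hD : Wa ⊓ Wb ≠ ⊥)
    (hmax : ∀ W₃ W₄, S.InW M W₃ → S.InW M W₄ → W₃ ≠ W₄ →
      Module.finrank F ↥(W₃ ⊓ W₄) ≤ Module.finrank F ↥(Wa ⊓ Wb))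
    (hno : ¬ Orth Q Wa Wb) :
    ∀ y ∈ Wb, (∀ x ∈ Wa, QuadraticMap.polar ⇑Q x y = 0) → y ∈ Wa := by
  obtain ⟨g, hg, v, hv, hvv, rfl⟩ := ha
  have hgΩ := hMΩ hg
  have hW' : S.InW M (gim Wb g⁻¹) := S.InW_gim hb (M.inv_mem hg)
  have hne' : gim Wb g⁻¹ ≠ S.line v := by
    intro h
    apply hne
    rw [← h, gim_inv_gim]
  have hinf : S.line v ⊓ gim Wb g⁻¹ = gim (gim (S.line v) g ⊓ Wb) g⁻¹ := by
    rw [gim_inf, gim_gim_inv]
  have hfr : Module.finrank F ↥(S.line v ⊓ gim Wb g⁻¹) =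
      Module.finrank F ↥(gim (S.line v) g ⊓ Wb) := by
    rw [hinf, finrank_gim]
  have hD' : S.line v ⊓ gim Wb g⁻¹ ≠ ⊥ := by
    intro h
    apply hD
    rw [← Submodule.finrank_eq_zero, ← hfr, h, finrank_bot]
  have hmax' : ∀ W₃ W₄, S.InW M W₃ → S.InW M W₄ → W₃ ≠ W₄ →
      Module.finrank F ↥(W₃ ⊓ W₄) ≤ Module.finrank F ↥(S.line v ⊓ gim Wb g⁻¹) := by
    intro W₃ W₄ h3 h4 h34
    rw [hfr]
    exact hmax W₃ W₄ h3 h4 h34
  unfold Orth at hno
  push Not at hno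
  obtain ⟨x, hx, y', hy', hxy'⟩ := hno
  obtain ⟨w, hw, rfl⟩ := mem_gim'.mp hx
  obtain ⟨l, rfl⟩ := S.mem_line.mp hw
  have hy₀ : ((g⁻¹ : GL ι F) : Matrix ι ι F) *ᵥ y' ∈ gim Wb g⁻¹ := mulVec_mem_gim g⁻¹ hy'
  have hy₀v : S.B (((g⁻¹ : GL ι F) : Matrix ι ι F) *ᵥ y') v ≠ 0 := by
    intro h
    apply hxy'
    rw [QuadraticMap.polar_comm, ← omega_polar_inv Q hgΩ, S.f_act_right, h, mul_zero, map_zero]
  have key := max_perp_of_rho S h2 hd hrho M hNM hv hvv hW' hne' hD' hmax' hy₀ hy₀v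
  intro y hy hyWa
  rw [mem_gim]
  apply key _ (mulVec_mem_gim g⁻¹ hy)
  apply S.B_eq_zero_of_f
  intro l'
  rw [omega_polar_inv Q hgΩ, QuadraticMap.polar_comm]
  exact hyWa _ (mulVec_mem_gim g (S.act_mem_line l' v))

end Cfsg.Agent.Lib.Helper43.OKC1A
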