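import Mathlib
import Cfsg.Prelude.Def_GeometricClasses
import Cfsg.Agent.Lib.Helper71.OK1
import Cfsg.Agent.Lib.Helper52.Siegel
import Cfsg.Agent.Lib.Helper43.OKC1A
import Cfsg.Agent.Lib.Helper55.OKA1

/-!
# S5701 piece C1 (helper43): `max_perp` and `max_perp_inv`
-/

set_option autoImplicit false
set_option linter.unusedVariables false

namespace Cfsg.Agent.Lib.Helper43.OKC1

open Matrix Cfsg.Agent.Lib.Helper71.SpK Cfsg.Agent.Lib.Helper71.OK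

theorem max_perp {ι : Type} [Fintype ι] [DecidableEq ι] {F : Type*} [Field F] [Finite F]
    {Q : QuadraticForm F (ι → F)} {L : Type*} [Field L] [Algebra F L] [FiniteDimensional F L]
    (S : KO (QuadraticMap.polar ⇑Q) L) (h2 : (2 : F) ≠ 0)
    (hQ : (QuadraticMap.polarBilin Q).Nondegenerate)
    (hr : (Module.finrank F L).Prime) (hd : 4 * Module.finrank F L ≤ Fintype.card ι) (M : Subgroup (GL ι F)) (hNM : S.NO Q ≤ M) (hMΩ : M ≤ Cfsg.Geo.omegaGL ⇑Q) {u : ι → F} (hu : u ≠ 0) (huu : S.B u u = 0)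
    {W₂ : Submodule F (ι → F)} (hW₂ : S.InW M W₂) (hne : W₂ ≠ S.line u)
    (hD : S.line u ⊓ W₂ ≠ ⊥)
    (hmax : ∀ W₃ W₄, S.InW M W₃ → S.InW M W₄ → W₃ ≠ W₄ →
      Module.finrank F ↥(W₃ ⊓ W₄) ≤ Module.finrank F ↥(S.line u ⊓ W₂))
    {y₀ : ι → F} (hy₀ : y₀ ∈ W₂) (hy₀u : S.B y₀ u ≠ 0) :
    ∀ y ∈ W₂, S.B y u = 0 → y ∈ S.line u :=
  Cfsg.Agent.Lib.Helper43.OKC1A.max_perp_of_rho S h2 hd
    (fun hu' hz' => Cfsg.Agent.Lib.Helper55.OKA1.exists_rho S h2 hQ hr hd hu' hz') M hNM hu huu hW₂ hne hD hmax hy₀ hy₀u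

theorem max_perp_inv {ι : Type} [Fintype ι] [DecidableEq ι] {F : Type*} [Field F] [Finite F]
    {Q : QuadraticForm F (ι → F)} {L : Type*} [Field L] [Algebra F L] [FiniteDimensional F L]
    (S : KO (QuadraticMap.polar ⇑Q) L) (h2 : (2 : F) ≠ 0)
    (hQ : (QuadraticMap.polarBilin Q).Nondegenerate)
    (hr : (Module.finrank F L).Prime) (hd : 4 * Module.finrank F L ≤ Fintype.card ι) (M : Subgroup (GL ι F)) (hNM : S.NO Q ≤ M) (hMΩ : M ≤ Cfsg.Geo.omegaGL ⇑Q) {Wa Wb : Submodule F (ι → F)} (ha : S.InW M Wa)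
    (hb : S.InW M Wb) (hne : Wa ≠ Wb) (hD : Wa ⊓ Wb ≠ ⊥)
    (hmax : ∀ W₃ W₄, S.InW M W₃ → S.InW M W₄ → W₃ ≠ W₄ →
      Module.finrank F ↥(W₃ ⊓ W₄) ≤ Module.finrank F ↥(Wa ⊓ Wb))
    (hno : ¬ Orth Q Wa Wb) :
    ∀ y ∈ Wb, (∀ x ∈ Wa, QuadraticMap.polar ⇑Q x y = 0) → y ∈ Wa :=
  Cfsg.Agent.Lib.Helper43.OKC1A.max_perp_inv_of_rho S h2 hd
    (fun hu' hz' => Cfsg.Agent.Lib.Helper55.OKA1.exists_rho S h2 hQ hr hd hu' hz') M hNM hMΩ ha hb hne hD hmax hno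

end Cfsg.Agent.Lib.Helper43.OKC1
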