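import Mathlib
import Cfsg.Prelude.Def_Local
import Cfsg.Agent.Lib.Helper40.PLenDefs
import Cfsg.Agent.S3783

/-!
# S3789 piece TOP (helper43): from the key claim `KCStmt p` to the `p`-length chain, by induction
on the order of the group (same structure as `Cfsg.Agent.S3783.main`).
-/

set_option autoImplicit false

universe u

namespace Cfsg.Agent.Lib.Helper43

open Cfsg Cfsg.Agent.Lib.Helper40.PLen

/-- If the `n`-th derived subgroup of `K` is killed by `f`, then the `n`-th derived subgroup of
the image of `K` under `f` is trivial. -/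
theorem plenTop_derived_map_bot {G G' : Type*} [Group G] [Group G'] (f : G →* G')
    (K : Subgroup G) (K' : Subgroup G') (hK : K' = K.map f) (n : ℕ)
    (h : (derivedSeries ↥K n).map K.subtype ≤ f.ker) : derivedSeries ↥K' n = ⊥ := by
  subst hK
  have hs : Function.Surjective (f.subgroupMap K) := f.subgroupMap_surjective K
  rw [← map_derivedSeries_eq hs n, eq_bot_iff]
  rintro _ ⟨x, hx, rfl⟩
  rw [Subgroup.mem_bot]
  apply Subtype.ext
  have h1 : (x : G) ∈ f.ker := h ⟨x, hx, rfl⟩
  exact h1

theorem chain_of_kc (p : ℕ) [Fact p.Prime] (h : KCStmt.{u} p) :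
    ∀ (N : ℕ) (G : Type u) [Group G] [Finite G], Nat.card G ≤ N → IsPSolvable p G →
    ∀ d : ℕ, (∀ P : Sylow p G, derivedSeries ↥(P : Subgroup G) d = ⊥) →
    Cfsg.Agent.S3790.Chain p (⊥ : Subgroup G) ⊤ d := by
  intro N
  induction N with
  | zero =>
    intro G _ _ hN
    have := Nat.card_pos (α := G)
    omega
  | succ N ih =>
    intro G _ _ hN hsep d hder
    have hp : p.Prime := Fact.out
    have hquot : ∀ (M : Subgroup G) [M.Normal], M ≠ ⊥ → Nat.card (G ⧸ M) ≤ N := by
      intro M _ hM
      have h1 := Subgroup.card_eq_card_quotient_mul_card_subgroup M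
      have h2 := (Subgroup.one_lt_card_iff_ne_bot M).2 hM
      have h3 : 0 < Nat.card (G ⧸ M) := Nat.card_pos
      nlinarith
    have hderq : ∀ (M : Subgroup G) [M.Normal] (n : ℕ),
        (∀ P : Sylow p G, (derivedSeries ↥(P : Subgroup G) n).map (P : Subgroup G).subtype ≤ M) →
        ∀ Pb : Sylow p (G ⧸ M), derivedSeries ↥(Pb : Subgroup (G ⧸ M)) n = ⊥ := by
      intro M _ n hM Pb
      obtain ⟨P, rfl⟩ := Sylow.mapSurjective_surjective (QuotientGroup.mk'_surjective M) p Pb
      exact plenTop_derived_map_bot (QuotientGroup.mk' M) (P : Subgroup G) _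
        (Sylow.coe_mapSurjective _ _) n (by rw [QuotientGroup.ker_mk']; exact hM P)
    by_cases hK : pPrimeCore p G = ⊥
    · have hPn : (pCore p G).Normal := Cfsg.Agent.Lib.Helper40.pCore_normal' p
      have hPp : IsPGroup p (pCore p G) := Cfsg.Agent.Lib.Helper40.pCore_isPGroup' p
      have hC := Cfsg.Agent.Lib.Helper40.centralizer_pCore_le hsep hK
      by_cases hP : pCore p G = ⊥
      · rw [hP] at hC
        have htriv : ∀ g : G, g = 1 := by
          intro g
          have h1 : g ∈ Subgroup.centralizer ((⊥ : Subgroup G) : Set G) := by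
            rw [Subgroup.mem_centralizer_iff]
            intro h hh
            rw [SetLike.mem_coe, Subgroup.mem_bot] at hh
            rw [hh]; simp
          exact Subgroup.mem_bot.1 (hC h1)
        have hbt : (⊥ : Subgroup G) = ⊤ := by
          ext g; simp [htriv g]
        rw [hbt]
        exact ⟨fun _ => ⊤, rfl, rfl, fun _ => inferInstance, fun _ => le_rfl,
          fun k => S3790.isStep_refl _ (S3790.stepSet_one p k) ⊤⟩
      · have hd1 : 1 ≤ d := by
          by_contra h0
          have hd0 : d = 0 := by omega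
          subst hd0
          apply hP
          rw [eq_bot_iff]
          intro g hg
          obtain ⟨P₀, hP₀⟩ := hPp.exists_le_sylow
          have h1 := hder P₀
          rw [derivedSeries_zero] at h1
          have h2 : (⟨g, hP₀ hg⟩ : (P₀ : Subgroup G)) ∈ (⊤ : Subgroup (P₀ : Subgroup G)) :=
            Subgroup.mem_top _
          rw [h1, Subgroup.mem_bot] at h2
          rw [Subgroup.mem_bot]
          exact congrArg Subtype.val h2
        have hcard : Nat.card (G ⧸ pCore p G) ≤ N := hquot _ hP
        have hHsep := Cfsg.Agent.Lib.Helper75.Fratt.isPSolvable_quotient (pCore p G) hsep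
        have hch := ih (G ⧸ pCore p G) hcard hHsep (d - 1)
          (hderq (pCore p G) (d - 1) (fun P => h G hsep hK P (d - 1) (by
            have e : d - 1 + 1 = d := by omega
            rw [e]; exact hder P)))
        have h1 := Cfsg.Agent.S3783.chain_comap p (pCore p G) (d - 1) hch
        have h2 : S3790.Chain p (⊥ : Subgroup G) (pCore p G) 1 :=
          S3790.chain_of_pstep p ⊥ (pCore p G) inferInstance hPn bot_le (by
            intro x hx
            obtain ⟨k, hk⟩ := hPp ⟨x, hx⟩
            exact ⟨p ^ k, ⟨k, rfl⟩, by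
              rw [Subgroup.mem_bot]; simpa using congrArg Subtype.val hk⟩)
        have h3 := S3790.chain_concat p ⊥ (pCore p G) ⊤ 1 (d - 1) h2 h1
        have e : 1 + (d - 1) = d := by omega
        rw [e] at h3
        exact h3
    · have hKn : (pPrimeCore p G).Normal := Cfsg.Agent.Lib.Helper81.pPrimeCore_normal p
      have hKc : (Nat.card (pPrimeCore p G)).Coprime p :=
        Cfsg.Agent.Lib.Helper81.pPrimeCore_coprime p
      have hcard := hquot _ hK
      have hch := ih (G ⧸ pPrimeCore p G) hcard
        (Cfsg.Agent.Lib.Helper75.Fratt.isPSolvable_quotient (pPrimeCore p G) hsep) d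
        (hderq (pPrimeCore p G) d (fun P => by rw [hder P, Subgroup.map_bot]; exact bot_le))
      have h1 := Cfsg.Agent.S3783.chain_comap p (pPrimeCore p G) d hch
      have h2 : S3790.Chain p (⊥ : Subgroup G) (pPrimeCore p G) 0 :=
        Cfsg.Agent.S3783.chain_pprime p ⊥ _ inferInstance hKn bot_le (by
          intro x hx
          refine ⟨Nat.card (pPrimeCore p G), hKc, ?_⟩
          rw [Subgroup.mem_bot]
          have h4 := pow_card_eq_one' (G := pPrimeCore p G) (x := ⟨x, hx⟩)
          have h5 : x ^ Nat.card (pPrimeCore p G)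
              = ((⟨x, hx⟩ : pPrimeCore p G) ^ Nat.card (pPrimeCore p G) : pPrimeCore p G) := rfl
          rw [h5, h4]; rfl)
      have h3 := S3790.chain_concat p ⊥ _ ⊤ 0 d h2 h1
      rw [zero_add] at h3
      exact h3

end Cfsg.Agent.Lib.Helper43
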