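import Cfsg.Agent.Lib.Helper22.PTDefs
import Cfsg.Agent.Lib.Helper83.Linear

set_option autoImplicit false

namespace Cfsg.Agent.Lib.Helper43.PT

open Cfsg Cfsg.Agent.Lib.Helper22.BFD Cfsg.Agent.Lib.Helper22.PT
open scoped ComplexConjugate

universe u

variable {G : Type u} [Group G] [Fintype G]

/-- PIECE PERFZ -/
theorem perfz (ζ : G → ℂ) (hirr : IsIrrCharacter G ζ) (hf : ∀ g : G, ζ g = ζ 1 → g = 1)
    (hperf : commutator G = ⊤) (χ₁ : IrrCharacter G) (h1 : χ₁.1 1 = 1)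
    (hzc : ZC (cz ζ) χ₁.1) : Subgroup.center G = ⊥ := by
  have hall : ∀ g : G, χ₁.1 g = 1 := fun g =>
    Cfsg.Agent.Lib.Helper83.irr_linear_commutator χ₁.2 h1
      (by rw [hperf]; exact Subgroup.mem_top g)
  rw [Subgroup.eq_bot_iff_forall]
  intro c hc
  apply hf
  have h2 := hzc c hc 1
  rw [hall, hall, mul_one] at h2
  have h3 : ζ c / ζ 1 = 1 := h2.symm
  have h4 : ζ 1 ≠ 0 := by
    intro h0
    rw [h0, div_zero] at h3
    exact zero_ne_one h3
  exact (div_eq_one_iff_eq h4).mp h3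

end Cfsg.Agent.Lib.Helper43.PT
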