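import Cfsg.Agent.Lib.Helper96.PiDefs
import Cfsg.Agent.Lib.Helper96.PiGlueB
import Cfsg.Agent.Lib.Helper96.PiOmega
import Cfsg.Agent.Lib.Helper9.HeUNIPPOW

/-!
Project PI (S5989, helper96), piece X2PLANE0 (helper43): the plane `span {v, x v}` for an
isometry `x` with `x * x = -1` and a nonsingular vector `v`.
-/

set_option autoImplicit false
set_option linter.unusedSectionVars false
set_option linter.unusedVariables false

namespace Cfsg.Agent.Lib.Helper43.Pi

open Module Cfsg.Agent.Lib.Helper96.Sp Cfsg.Agent.Lib.Helper96.BG Cfsg.Agent.Lib.Helper96.Hy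
  Cfsg.Agent.Lib.Helper96.Pi Cfsg.Agent.Lib.Helper47

universe u

variable {F : Type u} [Field F] [Fintype F] {V : Type u} [AddCommGroup V] [Module F V]
  [FiniteDimensional F V] {B : LinearMap.BilinForm F V}

-- PIECE X2PLANE0
theorem plane_basic (hS : B.IsSymm) (h2 : (2 : F) ≠ 0) (x : Module.End F V) (hx : Isom B x)
    (hx2 : x * x = -1) (v : V) (hv : B v v ≠ 0) :
    ND B (Submodule.span F {v, x v}) ∧ finrank F (Submodule.span F {v, x v}) = 2 ∧
    (Submodule.span F {v, x v}).map x ≤ Submodule.span F {v, x v} ∧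
    B v (x v) = 0 ∧ B (x v) (x v) = B v v := by
  have hxx : x (x v) = -v := by
    have h1 := congrArg (fun T : Module.End F V => T v) hx2
    simpa using h1
  have hyy : B (x v) (x v) = B v v := hx v v
  have hvy : B v (x v) = 0 := by
    have h1 := hx v (x v)
    rw [hxx, map_neg, hS.eq (x v) v] at h1
    have h3 : 2 * B v (x v) = 0 := by linear_combination -h1
    rcases mul_eq_zero.mp h3 with h4 | h4
    · exact absurd h4 h2
    · exact h4
  have hyv : B (x v) v = 0 := by rw [hS.eq (x v) v]; exact hvy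
  have hcoef : ∀ s t : F, (∀ w ∈ Submodule.span F {v, x v}, B (s • v + t • x v) w = 0) →
      s = 0 ∧ t = 0 := by
    intro s t h
    have h1 := h v (Submodule.subset_span (Set.mem_insert _ _))
    have h3 := h (x v) (Submodule.subset_span (Set.mem_insert_of_mem _ (Set.mem_singleton _)))
    rw [map_add, map_smul, map_smul, LinearMap.add_apply, LinearMap.smul_apply,
      LinearMap.smul_apply, hyv, smul_eq_mul, smul_eq_mul, mul_zero, add_zero] at h1
    rw [map_add, map_smul, map_smul, LinearMap.add_apply, LinearMap.smul_apply,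
      LinearMap.smul_apply, hvy, hyy, smul_eq_mul, smul_eq_mul, mul_zero, zero_add] at h3
    exact ⟨(mul_eq_zero.mp h1).resolve_right hv, (mul_eq_zero.mp h3).resolve_right hv⟩
  have hli : LinearIndependent F ![v, x v] := by
    rw [LinearIndependent.pair_iff]
    intro s t hst
    apply hcoef s t
    intro w _
    rw [hst, map_zero, LinearMap.zero_apply]
  refine ⟨?_, ?_, ?_, hvy, hyy⟩
  · intro u hu h
    obtain ⟨s, t, rfl⟩ := Submodule.mem_span_pair.mp hu
    obtain ⟨hs, ht⟩ := hcoef s t h
    rw [hs, ht, zero_smul, zero_smul, add_zero]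
  · have h1 := finrank_span_eq_card hli
    rw [Matrix.range_cons_cons_empty] at h1
    simpa using h1
  · rintro _ ⟨u, hu, rfl⟩
    obtain ⟨s, t, rfl⟩ := Submodule.mem_span_pair.mp hu
    rw [map_add, map_smul, map_smul, hxx]
    apply Submodule.mem_span_pair.mpr
    refine ⟨-t, s, ?_⟩
    rw [neg_smul, smul_neg]
    abel

end Cfsg.Agent.Lib.Helper43.Pi
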