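import Cfsg.Agent.Lib.Helper96.PmGlue
import Cfsg.Agent.Lib.Helper42.PiEXA
import Cfsg.Agent.Lib.Helper64.PiCONA
import Cfsg.Agent.Lib.Helper87.PiUNIC
import Cfsg.Agent.Lib.Helper53.PiU3
import Cfsg.Agent.Lib.Lead.PiU1
import Cfsg.Agent.Lib.Lead.PiU2
import Cfsg.Agent.Lib.Lead.PiU4

/-!
Project PM (S5991, helper96), piece MCOND (helper43): a unipotent isometry of
`quadFormMinus e F a b` (`e` odd) fixing the anisotropic vector `(0, 0, (s, t))`, with
`N ^ 3 = 0`, `ker N ≤ range N ⊔ span {u₁}` and `rank N² ≤ 1` (`N = x - 1`).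

Model: index set `I = Fin 1 ⊕ (Fin k ⊕ Fin k)` (`e = 1 + (k + k)`), coordinates `x, y : I → F`
and `z : Fin 2 → F`; with `w = (p, q)`, `β(z) = 2 z₀ p + a (z₀ q + z₁ p) + 2 b z₁ q` and
`c = p² + a p q + b q²` the map is
`x₀ ↦ x₀ - β(z) - c y₀`, `x_a ↦ x_a + y_b`, `x_b ↦ x_b - y_a`, `y ↦ y`, `z ↦ z + y₀ w`.
-/

set_option autoImplicit false
set_option linter.unusedSectionVars false
set_option linter.unusedVariables false
set_option linter.unusedSimpArgs false
set_option linter.unreachableTactic false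
set_option linter.unusedTactic false

namespace Cfsg.Agent.Lib.Helper43.Pm

open Module Cfsg.Agent.Lib.Helper96.Sp Cfsg.Agent.Lib.Helper96.BG Cfsg.Agent.Lib.Helper96.Hy
  Cfsg.Agent.Lib.Helper96.Pi Cfsg.Agent.Lib.Helper47

universe u

section Concrete

open Matrix
open scoped MatrixGroups

variable {F : Type u} [Field F] [Fintype F]

/-- transport of a model endomorphism along a bijection of the index sets -/
theorem mcond_transport {I : Type} [Fintype I] [DecidableEq I] (e : ℕ) (ε : I ≃ Fin e)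
    (a b s t : F) (f' g' : Module.End F ((I ⊕ I) ⊕ Fin 2 → F))
    (hfg : f' * g' = 1) (hgf : g' * f' = 1)
    (h1 : ∀ w : (I ⊕ I) ⊕ Fin 2 → F,
      (∑ i : I, f' w (.inl (.inl i)) * f' w (.inl (.inr i)))
        + (f' w (.inr 0) ^ 2 + a * f' w (.inr 0) * f' w (.inr 1) + b * f' w (.inr 1) ^ 2)
      = (∑ i : I, w (.inl (.inl i)) * w (.inl (.inr i)))
        + (w (.inr 0) ^ 2 + a * w (.inr 0) * w (.inr 1) + b * w (.inr 1) ^ 2))
    (h2 : ∀ z : F, ∃ w : (I ⊕ I) ⊕ Fin 2 → F, f' w ≠ z • w)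
    (h3 : (f' - 1) ^ 3 = 0)
    (h4 : (f' - 1) (Sum.elim (fun _ => 0) ![s, t]) = 0)
    (h5 : LinearMap.ker (f' - 1) ≤ LinearMap.range (f' - 1)
      ⊔ Submodule.span F {(Sum.elim (fun _ => 0) ![s, t] : (I ⊕ I) ⊕ Fin 2 → F)})
    (h6 : finrank F (LinearMap.range ((f' - 1) * (f' - 1))) ≤ 1) :
    ∃ x : GL ((Fin e ⊕ Fin e) ⊕ Fin 2) F,
      (∀ v, Cfsg.quadFormMinus e F a b
          ((x : Matrix ((Fin e ⊕ Fin e) ⊕ Fin 2) ((Fin e ⊕ Fin e) ⊕ Fin 2) F) *ᵥ v)
        = Cfsg.quadFormMinus e F a b v) ∧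
      (∀ z : F, (x : Matrix ((Fin e ⊕ Fin e) ⊕ Fin 2) ((Fin e ⊕ Fin e) ⊕ Fin 2) F)
        ≠ z • (1 : Matrix ((Fin e ⊕ Fin e) ⊕ Fin 2) ((Fin e ⊕ Fin e) ⊕ Fin 2) F)) ∧
      (Matrix.toLin' (x : Matrix ((Fin e ⊕ Fin e) ⊕ Fin 2) ((Fin e ⊕ Fin e) ⊕ Fin 2) F) - 1) ^ 3
        = 0 ∧
      (Matrix.toLin' (x : Matrix ((Fin e ⊕ Fin e) ⊕ Fin 2) ((Fin e ⊕ Fin e) ⊕ Fin 2) F) - 1)
        (Sum.elim (fun _ => 0) ![s, t]) = 0 ∧
      LinearMap.ker
          (Matrix.toLin' (x : Matrix ((Fin e ⊕ Fin e) ⊕ Fin 2) ((Fin e ⊕ Fin e) ⊕ Fin 2) F) - 1)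
        ≤ LinearMap.range
          (Matrix.toLin' (x : Matrix ((Fin e ⊕ Fin e) ⊕ Fin 2) ((Fin e ⊕ Fin e) ⊕ Fin 2) F) - 1)
          ⊔ Submodule.span F {(Sum.elim (fun _ => 0) ![s, t] : (Fin e ⊕ Fin e) ⊕ Fin 2 → F)} ∧
      finrank F (LinearMap.range
        ((Matrix.toLin' (x : Matrix ((Fin e ⊕ Fin e) ⊕ Fin 2) ((Fin e ⊕ Fin e) ⊕ Fin 2) F) - 1)
          * (Matrix.toLin' (x : Matrix ((Fin e ⊕ Fin e) ⊕ Fin 2) ((Fin e ⊕ Fin e) ⊕ Fin 2) F)
            - 1))) ≤ 1 := by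
  classical
  let Ψ : ((I ⊕ I) ⊕ Fin 2 → F) ≃ₗ[F] ((Fin e ⊕ Fin e) ⊕ Fin 2 → F) :=
    LinearEquiv.funCongrLeft F F
      (Equiv.sumCongr (Equiv.sumCongr ε ε) (Equiv.refl (Fin 2))).symm
  let C : Module.End F ((I ⊕ I) ⊕ Fin 2 → F) ≃+* Module.End F ((Fin e ⊕ Fin e) ⊕ Fin 2 → F) :=
    Ψ.conjRingEquiv
  have hΨl : ∀ (w : (I ⊕ I) ⊕ Fin 2 → F) (i : Fin e),
      Ψ w (.inl (.inl i)) = w (.inl (.inl (ε.symm i))) := fun w i => rfl
  have hΨr : ∀ (w : (I ⊕ I) ⊕ Fin 2 → F) (i : Fin e),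
      Ψ w (.inl (.inr i)) = w (.inl (.inr (ε.symm i))) := fun w i => rfl
  have hΨz : ∀ (w : (I ⊕ I) ⊕ Fin 2 → F) (j : Fin 2), Ψ w (.inr j) = w (.inr j) :=
    fun w j => rfl
  have hΨsl : ∀ (v : (Fin e ⊕ Fin e) ⊕ Fin 2 → F) (k : I),
      Ψ.symm v (.inl (.inl k)) = v (.inl (.inl (ε k))) := fun v k => rfl
  have hΨsr : ∀ (v : (Fin e ⊕ Fin e) ⊕ Fin 2 → F) (k : I),
      Ψ.symm v (.inl (.inr k)) = v (.inl (.inr (ε k))) := fun v k => rfl
  have hΨsz : ∀ (v : (Fin e ⊕ Fin e) ⊕ Fin 2 → F) (j : Fin 2),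
      Ψ.symm v (.inr j) = v (.inr j) := fun v j => rfl
  have hΨu : Ψ (Sum.elim (fun _ => 0) ![s, t]) = Sum.elim (fun _ => 0) ![s, t] := by
    funext j
    rcases j with ((i | i) | j) <;> rfl
  have hΨsu : Ψ.symm (Sum.elim (fun _ => 0) ![s, t]) = Sum.elim (fun _ => 0) ![s, t] := by
    apply Ψ.injective
    rw [LinearEquiv.apply_symm_apply, hΨu]
  have hCap : ∀ (φ : Module.End F ((I ⊕ I) ⊕ Fin 2 → F)) (v : (Fin e ⊕ Fin e) ⊕ Fin 2 → F),
      C φ v = Ψ (φ (Ψ.symm v)) := fun φ v => rfl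
  have hmul1 : C f' * C g' = 1 := by rw [← map_mul, hfg, map_one]
  have hmul2 : C g' * C f' = 1 := by rw [← map_mul, hgf, map_one]
  let x : GL ((Fin e ⊕ Fin e) ⊕ Fin 2) F :=
    ⟨LinearMap.toMatrix' (C f'), LinearMap.toMatrix' (C g'),
      by rw [← LinearMap.toMatrix'_mul, hmul1, LinearMap.toMatrix'_one],
      by rw [← LinearMap.toMatrix'_mul, hmul2, LinearMap.toMatrix'_one]⟩
  have hx : Matrix.toLin' (x : Matrix ((Fin e ⊕ Fin e) ⊕ Fin 2) ((Fin e ⊕ Fin e) ⊕ Fin 2) F)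
      = C f' := Matrix.toLin'_toMatrix' _
  have hsub : C f' - 1 = C (f' - 1) := by rw [map_sub, map_one]
  refine ⟨x, ?_, ?_, ?_, ?_, ?_, ?_⟩
  · intro v
    have hxv : (x : Matrix ((Fin e ⊕ Fin e) ⊕ Fin 2) ((Fin e ⊕ Fin e) ⊕ Fin 2) F) *ᵥ v
        = C f' v := by
      rw [← Matrix.toLin'_apply, hx]
    rw [hxv]
    unfold Cfsg.quadFormMinus
    simp only [hCap, hΨl, hΨr, hΨz]
    rw [Equiv.sum_comp ε.symm
      (fun k => f' (Ψ.symm v) (.inl (.inl k)) * f' (Ψ.symm v) (.inl (.inr k))), h1]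
    simp only [hΨsl, hΨsr, hΨsz]
    rw [Equiv.sum_comp ε (fun i => v (.inl (.inl i)) * v (.inl (.inr i)))]
  · intro z hz
    obtain ⟨w, hw⟩ := h2 z
    apply hw
    have h6' : C f' = z • (1 : Module.End F ((Fin e ⊕ Fin e) ⊕ Fin 2 → F)) := by
      rw [← hx, hz, map_smul, Matrix.toLin'_one]
      rfl
    have h7 := LinearMap.congr_fun h6' (Ψ w)
    rw [hCap, LinearEquiv.symm_apply_apply] at h7
    apply Ψ.injective
    rw [h7, map_smul]
    rfl
  · rw [hx, hsub, ← map_pow, h3, map_zero]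
  · rw [hx, hsub, hCap, hΨsu, h4, map_zero]
  · rw [hx, hsub]
    intro v hv
    rw [LinearMap.mem_ker, hCap] at hv
    have h8 : Ψ.symm v ∈ LinearMap.ker (f' - 1) := by
      rw [LinearMap.mem_ker]
      apply Ψ.injective
      rw [hv, map_zero]
    obtain ⟨r, ⟨p, rfl⟩, u, hu, hsum⟩ := Submodule.mem_sup.mp (h5 h8)
    obtain ⟨lam, rfl⟩ := Submodule.mem_span_singleton.mp hu
    rw [Submodule.mem_sup]
    refine ⟨C (f' - 1) (Ψ p), ⟨Ψ p, rfl⟩, lam • Sum.elim (fun _ => 0) ![s, t],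
      Submodule.smul_mem _ _ (Submodule.mem_span_singleton_self _), ?_⟩
    rw [hCap, LinearEquiv.symm_apply_apply]
    have h9 : Ψ ((f' - 1) p + lam • Sum.elim (fun _ => 0) ![s, t]) = v := by
      rw [hsum, LinearEquiv.apply_symm_apply]
    rw [← h9, map_add, map_smul, hΨu]
  · rw [hx, hsub, ← map_mul]
    have h9 : LinearMap.range (C ((f' - 1) * (f' - 1)))
        ≤ (LinearMap.range ((f' - 1) * (f' - 1))).map Ψ.toLinearMap := by
      rintro _ ⟨v, rfl⟩
      exact ⟨_, ⟨Ψ.symm v, rfl⟩, rfl⟩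
    exact (Submodule.finrank_mono h9).trans ((Submodule.finrank_map_le _ _).trans h6)

/-- the index set of one half of the model -/
abbrev MDI (k : ℕ) : Type := Fin 1 ⊕ (Fin k ⊕ Fin k)

/-- the index set of the model -/
abbrev MDJ (k : ℕ) : Type := (MDI k ⊕ MDI k) ⊕ Fin 2

/-- the model map -/
def mcondF (k : ℕ) (a b p q : F) (v : MDJ k → F) : MDJ k → F
  | .inl (.inl (.inl _)) => v (.inl (.inl (.inl 0)))
      - (2 * v (.inr 0) * p + a * (v (.inr 0) * q + v (.inr 1) * p) + 2 * b * v (.inr 1) * q)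
      - (p ^ 2 + a * p * q + b * q ^ 2) * v (.inl (.inr (.inl 0)))
  | .inl (.inl (.inr (.inl i))) => v (.inl (.inl (.inr (.inl i)))) + v (.inl (.inr (.inr (.inr i))))
  | .inl (.inl (.inr (.inr i))) => v (.inl (.inl (.inr (.inr i)))) - v (.inl (.inr (.inr (.inl i))))
  | .inl (.inr j) => v (.inl (.inr j))
  | .inr i => ![v (.inr 0) + v (.inl (.inr (.inl 0))) * p,
      v (.inr 1) + v (.inl (.inr (.inl 0))) * q] i

/-- the inverse of the model map -/
def mcondG (k : ℕ) (a b p q : F) (v : MDJ k → F) : MDJ k → F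
  | .inl (.inl (.inl _)) => v (.inl (.inl (.inl 0)))
      + (2 * v (.inr 0) * p + a * (v (.inr 0) * q + v (.inr 1) * p) + 2 * b * v (.inr 1) * q)
      - (p ^ 2 + a * p * q + b * q ^ 2) * v (.inl (.inr (.inl 0)))
  | .inl (.inl (.inr (.inl i))) => v (.inl (.inl (.inr (.inl i)))) - v (.inl (.inr (.inr (.inr i))))
  | .inl (.inl (.inr (.inr i))) => v (.inl (.inl (.inr (.inr i)))) + v (.inl (.inr (.inr (.inl i))))
  | .inl (.inr j) => v (.inl (.inr j))
  | .inr i => ![v (.inr 0) - v (.inl (.inr (.inl 0))) * p,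
      v (.inr 1) - v (.inl (.inr (.inl 0))) * q] i

/-- the model map minus the identity -/
def mcondN (k : ℕ) (a b p q : F) (v : MDJ k → F) : MDJ k → F
  | .inl (.inl (.inl _)) =>
      - (2 * v (.inr 0) * p + a * (v (.inr 0) * q + v (.inr 1) * p) + 2 * b * v (.inr 1) * q)
      - (p ^ 2 + a * p * q + b * q ^ 2) * v (.inl (.inr (.inl 0)))
  | .inl (.inl (.inr (.inl i))) => v (.inl (.inr (.inr (.inr i))))
  | .inl (.inl (.inr (.inr i))) => - v (.inl (.inr (.inr (.inl i))))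
  | .inl (.inr _) => 0
  | .inr i => ![v (.inl (.inr (.inl 0))) * p, v (.inl (.inr (.inl 0))) * q] i

/-- a preimage under `mcondN` of the `x`-part of a vector -/
def mcondP (k : ℕ) (m p q : F) (v : MDJ k → F) : MDJ k → F
  | .inl (.inl _) => 0
  | .inl (.inr (.inl _)) => 0
  | .inl (.inr (.inr (.inl i))) => - v (.inl (.inl (.inr (.inr i))))
  | .inl (.inr (.inr (.inr i))) => v (.inl (.inl (.inr (.inl i))))
  | .inr i => ![- v (.inl (.inl (.inl 0))) * m * p, - v (.inl (.inl (.inl 0))) * m * q] i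

/-- the model map as an endomorphism -/
def mcondFL (k : ℕ) (a b p q : F) : Module.End F (MDJ k → F) where
  toFun := mcondF k a b p q
  map_add' w w' := by
    funext j
    rcases j with (((i | i | i) | (i | i | i)) | i) <;>
      first
        | (fin_cases i <;> simp [mcondF] <;> ring)
        | (simp [mcondF] <;> ring)
  map_smul' z w := by
    funext j
    rcases j with (((i | i | i) | (i | i | i)) | i) <;>
      first
        | (fin_cases i <;> simp [mcondF] <;> ring)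
        | (simp [mcondF] <;> ring)

/-- the inverse of the model map as an endomorphism -/
def mcondGL (k : ℕ) (a b p q : F) : Module.End F (MDJ k → F) where
  toFun := mcondG k a b p q
  map_add' w w' := by
    funext j
    rcases j with (((i | i | i) | (i | i | i)) | i) <;>
      first
        | (fin_cases i <;> simp [mcondG] <;> ring)
        | (simp [mcondG] <;> ring)
  map_smul' z w := by
    funext j
    rcases j with (((i | i | i) | (i | i | i)) | i) <;>
      first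
        | (fin_cases i <;> simp [mcondG] <;> ring)
        | (simp [mcondG] <;> ring)

theorem mcondFL_apply (k : ℕ) (a b p q : F) (w : MDJ k → F) :
    (mcondFL k a b p q : Module.End F _) w = mcondF k a b p q w := rfl

theorem mcondGL_apply (k : ℕ) (a b p q : F) (w : MDJ k → F) :
    (mcondGL k a b p q : Module.End F _) w = mcondG k a b p q w := rfl

theorem mcondFG (k : ℕ) (a b p q : F) :
    (mcondFL k a b p q : Module.End F (MDJ k → F)) * mcondGL k a b p q = 1 := by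
  apply LinearMap.ext
  intro w
  rw [Module.End.mul_apply, mcondFL_apply, mcondGL_apply, Module.End.one_apply]
  funext j
  rcases j with (((i | i | i) | (i | i | i)) | i) <;>
    first
      | (fin_cases i <;> simp [mcondF, mcondG] <;> ring)
      | (simp [mcondF, mcondG] <;> ring)

theorem mcondGF (k : ℕ) (a b p q : F) :
    (mcondGL k a b p q : Module.End F (MDJ k → F)) * mcondFL k a b p q = 1 := by
  apply LinearMap.ext
  intro w
  rw [Module.End.mul_apply, mcondFL_apply, mcondGL_apply, Module.End.one_apply]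
  funext j
  rcases j with (((i | i | i) | (i | i | i)) | i) <;>
    first
      | (fin_cases i <;> simp [mcondF, mcondG] <;> ring)
      | (simp [mcondF, mcondG] <;> ring)

theorem mcondN_eq (k : ℕ) (a b p q : F) (w : MDJ k → F) :
    ((mcondFL k a b p q : Module.End F (MDJ k → F)) - 1) w = mcondN k a b p q w := by
  rw [LinearMap.sub_apply, mcondFL_apply, Module.End.one_apply]
  funext j
  rcases j with (((i | i | i) | (i | i | i)) | i) <;>
    first
      | (fin_cases i <;> simp [mcondF, mcondN] <;> ring)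
      | (simp [mcondF, mcondN] <;> ring)

theorem mcond_isom (k : ℕ) (a b p q : F) (w : MDJ k → F) :
    (∑ i : MDI k, (mcondFL k a b p q : Module.End F _) w (.inl (.inl i))
        * (mcondFL k a b p q : Module.End F _) w (.inl (.inr i)))
      + ((mcondFL k a b p q : Module.End F _) w (.inr 0) ^ 2
        + a * (mcondFL k a b p q : Module.End F _) w (.inr 0)
          * (mcondFL k a b p q : Module.End F _) w (.inr 1)
        + b * (mcondFL k a b p q : Module.End F _) w (.inr 1) ^ 2)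
    = (∑ i : MDI k, w (.inl (.inl i)) * w (.inl (.inr i)))
      + (w (.inr 0) ^ 2 + a * w (.inr 0) * w (.inr 1) + b * w (.inr 1) ^ 2) := by
  have hii : ∑ i : Fin k, mcondF k a b p q w (.inl (.inl (.inr (.inl i))))
          * mcondF k a b p q w (.inl (.inr (.inr (.inl i))))
        + ∑ i : Fin k, mcondF k a b p q w (.inl (.inl (.inr (.inr i))))
          * mcondF k a b p q w (.inl (.inr (.inr (.inr i))))
      = ∑ i : Fin k, w (.inl (.inl (.inr (.inl i)))) * w (.inl (.inr (.inr (.inl i))))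
        + ∑ i : Fin k, w (.inl (.inl (.inr (.inr i)))) * w (.inl (.inr (.inr (.inr i)))) := by
    rw [← Finset.sum_add_distrib, ← Finset.sum_add_distrib]
    apply Finset.sum_congr rfl
    intro i _
    simp [mcondF]
    ring
  simp only [mcondFL_apply, Fintype.sum_sum_type, Fin.sum_univ_one]
  rw [add_assoc (mcondF k a b p q w (.inl (.inl (.inl 0))) * _), hii]
  simp [mcondF]
  ring

theorem mcond_nonscalar (k : ℕ) (a b p q : F) (hc : p ^ 2 + a * p * q + b * q ^ 2 ≠ 0) (z : F) :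
    ∃ w : MDJ k → F, (mcondFL k a b p q : Module.End F _) w ≠ z • w := by
  classical
  refine ⟨Pi.single (.inl (.inr (.inl 0))) 1, ?_⟩
  intro h
  have h1 := congrFun h (.inl (.inl (.inl 0)))
  simp [mcondFL_apply, mcondF] at h1
  apply hc
  linear_combination -h1

theorem mcond_cube (k : ℕ) (a b p q : F) :
    ((mcondFL k a b p q : Module.End F (MDJ k → F)) - 1) ^ 3 = 0 := by
  apply LinearMap.ext
  intro w
  have h1 : ((((mcondFL k a b p q : Module.End F (MDJ k → F)) - 1) ^ 3 :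
      Module.End F (MDJ k → F))) w
      = ((mcondFL k a b p q : Module.End F (MDJ k → F)) - 1)
        (((mcondFL k a b p q : Module.End F (MDJ k → F)) - 1)
          (((mcondFL k a b p q : Module.End F (MDJ k → F)) - 1) w)) := by
    rw [Module.End.pow_apply]
    rfl
  rw [h1, mcondN_eq, mcondN_eq, mcondN_eq, LinearMap.zero_apply]
  funext j
  rcases j with (((i | i | i) | (i | i | i)) | i) <;>
    first
      | (fin_cases i <;> simp [mcondN] <;> ring)
      | (simp [mcondN] <;> ring)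

theorem mcond_fix (k : ℕ) (a b p q s t : F)
    (hβ : 2 * s * p + a * (s * q + t * p) + 2 * b * t * q = 0) :
    ((mcondFL k a b p q : Module.End F (MDJ k → F)) - 1) (Sum.elim (fun _ => 0) ![s, t]) = 0 := by
  rw [mcondN_eq]
  funext j
  rcases j with (((i | i | i) | (i | i | i)) | i) <;>
    first
      | (fin_cases i <;> simp [mcondN] <;> linear_combination -hβ)
      | (fin_cases i <;> simp [mcondN])
      | (simp [mcondN] <;> linear_combination -hβ)
      | (simp [mcondN])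

theorem mcond_rank (k : ℕ) (a b p q : F) :
    finrank F (LinearMap.range (((mcondFL k a b p q : Module.End F (MDJ k → F)) - 1)
      * ((mcondFL k a b p q : Module.End F (MDJ k → F)) - 1))) ≤ 1 := by
  classical
  have h1 : LinearMap.range (((mcondFL k a b p q : Module.End F (MDJ k → F)) - 1)
      * ((mcondFL k a b p q : Module.End F (MDJ k → F)) - 1))
      ≤ Submodule.span F
        ((({(Pi.single (.inl (.inl (.inl 0))) 1 : MDJ k → F)} : Finset (MDJ k → F))) :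
          Set (MDJ k → F)) := by
    rintro _ ⟨w, rfl⟩
    rw [Finset.coe_singleton, Submodule.mem_span_singleton]
    refine ⟨- (2 * (p ^ 2 + a * p * q + b * q ^ 2)) * w (.inl (.inr (.inl 0))), ?_⟩
    rw [Module.End.mul_apply, mcondN_eq, mcondN_eq]
    funext j
    rcases j with (((i | i | i) | (i | i | i)) | i) <;>
      first
        | (fin_cases i <;> simp [mcondN, Pi.single_apply] <;> ring)
        | (simp [mcondN, Pi.single_apply] <;> ring)
  exact (Submodule.finrank_mono h1).trans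
    ((finrank_span_finset_le_card _).trans (le_of_eq (Finset.card_singleton _)))

theorem mcond_ker (k : ℕ) (a b p q s t : F) (h2 : (2 : F) ≠ 0)
    (hc : p ^ 2 + a * p * q + b * q ^ 2 ≠ 0)
    (hlin : ∀ z₀ z₁ : F, 2 * z₀ * p + a * (z₀ * q + z₁ * p) + 2 * b * z₁ * q = 0 →
      ∃ lam : F, z₀ = lam * s ∧ z₁ = lam * t) :
    LinearMap.ker ((mcondFL k a b p q : Module.End F (MDJ k → F)) - 1)
      ≤ LinearMap.range ((mcondFL k a b p q : Module.End F (MDJ k → F)) - 1)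
        ⊔ Submodule.span F {(Sum.elim (fun _ => 0) ![s, t] : MDJ k → F)} := by
  intro w hw
  rw [LinearMap.mem_ker, mcondN_eq] at hw
  have hpq : p ≠ 0 ∨ q ≠ 0 := by
    by_contra h
    push Not at h
    apply hc
    rw [h.1, h.2]
    ring
  have k1 : w (.inl (.inr (.inl 0))) * p = 0 := by
    have := congrFun hw (.inr 0); simpa [mcondN] using this
  have k2 : w (.inl (.inr (.inl 0))) * q = 0 := by
    have := congrFun hw (.inr 1); simpa [mcondN] using this
  have k3 : w (.inl (.inr (.inl 0))) = 0 := by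
    rcases hpq with hp | hq
    · exact (mul_eq_zero.mp k1).resolve_right hp
    · exact (mul_eq_zero.mp k2).resolve_right hq
  have k4 : ∀ i : Fin k, w (.inl (.inr (.inr (.inr i)))) = 0 := by
    intro i
    have := congrFun hw (.inl (.inl (.inr (.inl i)))); simpa [mcondN] using this
  have k5 : ∀ i : Fin k, w (.inl (.inr (.inr (.inl i)))) = 0 := by
    intro i
    have := congrFun hw (.inl (.inl (.inr (.inr i)))); simpa [mcondN] using this
  have k6 : 2 * w (.inr 0) * p + a * (w (.inr 0) * q + w (.inr 1) * p)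
      + 2 * b * w (.inr 1) * q = 0 := by
    have h := congrFun hw (.inl (.inl (.inl 0)))
    simp [mcondN, k3] at h
    linear_combination -h
  obtain ⟨lam, hl0, hl1⟩ := hlin _ _ k6
  have h2c : 2 * (p ^ 2 + a * p * q + b * q ^ 2) ≠ 0 := mul_ne_zero h2 hc
  obtain ⟨m, hm⟩ : ∃ m : F, m * (2 * (p ^ 2 + a * p * q + b * q ^ 2)) = 1 :=
    ⟨(2 * (p ^ 2 + a * p * q + b * q ^ 2))⁻¹, inv_mul_cancel₀ h2c⟩
  rw [Submodule.mem_sup]
  refine ⟨((mcondFL k a b p q : Module.End F (MDJ k → F)) - 1) (mcondP k m p q w),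
    ⟨_, rfl⟩, lam • Sum.elim (fun _ => 0) ![s, t],
    Submodule.smul_mem _ _ (Submodule.mem_span_singleton_self _), ?_⟩
  rw [mcondN_eq]
  funext j
  rcases j with (((i | i | i) | (i | i | i)) | i)
  · have hi : i = 0 := Subsingleton.elim _ _
    subst hi
    simp [mcondN, mcondP]
    linear_combination (w (.inl (.inl (.inl 0)))) * hm
  · simp [mcondN, mcondP]
  · simp [mcondN, mcondP]
  · have hi : i = 0 := Subsingleton.elim _ _
    subst hi
    simp [mcondN, mcondP, k3]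
  · simp [mcondN, mcondP, k5]
  · simp [mcondN, mcondP, k4]
  · fin_cases i
    · simp [mcondN, mcondP, hl0]
    · simp [mcondN, mcondP, hl1]

-- PIECE MCOND
theorem exists_unip_minus_D (h2 : (2 : F) ≠ 0) (e : ℕ) (he : Odd e) (a b : F)
    (hab : ∀ z₁ z₂ : F, z₁ ^ 2 + a * z₁ * z₂ + b * z₂ ^ 2 = 0 → z₁ = 0 ∧ z₂ = 0)
    (s t : F) (hst : s ≠ 0 ∨ t ≠ 0) :
    ∃ x : GL ((Fin e ⊕ Fin e) ⊕ Fin 2) F,
      (∀ v, Cfsg.quadFormMinus e F a b
          ((x : Matrix ((Fin e ⊕ Fin e) ⊕ Fin 2) ((Fin e ⊕ Fin e) ⊕ Fin 2) F) *ᵥ v)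
        = Cfsg.quadFormMinus e F a b v) ∧
      (∀ z : F, (x : Matrix ((Fin e ⊕ Fin e) ⊕ Fin 2) ((Fin e ⊕ Fin e) ⊕ Fin 2) F)
        ≠ z • (1 : Matrix ((Fin e ⊕ Fin e) ⊕ Fin 2) ((Fin e ⊕ Fin e) ⊕ Fin 2) F)) ∧
      (Matrix.toLin' (x : Matrix ((Fin e ⊕ Fin e) ⊕ Fin 2) ((Fin e ⊕ Fin e) ⊕ Fin 2) F) - 1) ^ 3
        = 0 ∧
      (Matrix.toLin' (x : Matrix ((Fin e ⊕ Fin e) ⊕ Fin 2) ((Fin e ⊕ Fin e) ⊕ Fin 2) F) - 1)
        (Sum.elim (fun _ => 0) ![s, t]) = 0 ∧
      LinearMap.ker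
          (Matrix.toLin' (x : Matrix ((Fin e ⊕ Fin e) ⊕ Fin 2) ((Fin e ⊕ Fin e) ⊕ Fin 2) F) - 1)
        ≤ LinearMap.range
          (Matrix.toLin' (x : Matrix ((Fin e ⊕ Fin e) ⊕ Fin 2) ((Fin e ⊕ Fin e) ⊕ Fin 2) F) - 1)
          ⊔ Submodule.span F {(Sum.elim (fun _ => 0) ![s, t] : (Fin e ⊕ Fin e) ⊕ Fin 2 → F)} ∧
      finrank F (LinearMap.range
        ((Matrix.toLin' (x : Matrix ((Fin e ⊕ Fin e) ⊕ Fin 2) ((Fin e ⊕ Fin e) ⊕ Fin 2) F) - 1)
          * (Matrix.toLin' (x : Matrix ((Fin e ⊕ Fin e) ⊕ Fin 2) ((Fin e ⊕ Fin e) ⊕ Fin 2) F)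
            - 1))) ≤ 1 := by
  obtain ⟨k, rfl⟩ : ∃ k, e = 1 + (k + k) := by
    obtain ⟨k, hk⟩ := he
    exact ⟨k, by omega⟩
  -- the discriminant and the norm of `(s, t)` are non-zero
  have hD : a ^ 2 - 4 * b ≠ 0 := by
    intro h
    have h1 := hab (-a) 2 (by linear_combination -h)
    exact h2 h1.2
  have hu : s ^ 2 + a * s * t + b * t ^ 2 ≠ 0 := by
    intro h
    have h1 := hab s t h
    rcases hst with h3 | h3
    · exact h3 h1.1
    · exact h3 h1.2
  have hc : (-(a * s + 2 * b * t)) ^ 2 + a * (-(a * s + 2 * b * t)) * (2 * s + a * t)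
      + b * (2 * s + a * t) ^ 2 ≠ 0 := by
    have h1 : (-(a * s + 2 * b * t)) ^ 2 + a * (-(a * s + 2 * b * t)) * (2 * s + a * t)
        + b * (2 * s + a * t) ^ 2 = -((a ^ 2 - 4 * b) * (s ^ 2 + a * s * t + b * t ^ 2)) := by
      ring
    rw [h1]
    exact neg_ne_zero.mpr (mul_ne_zero hD hu)
  have hβ : 2 * s * (-(a * s + 2 * b * t)) + a * (s * (2 * s + a * t)
      + t * (-(a * s + 2 * b * t))) + 2 * b * t * (2 * s + a * t) = 0 := by
    ring
  have hlin : ∀ z₀ z₁ : F, 2 * z₀ * (-(a * s + 2 * b * t)) + a * (z₀ * (2 * s + a * t)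
      + z₁ * (-(a * s + 2 * b * t))) + 2 * b * z₁ * (2 * s + a * t) = 0 →
      ∃ lam : F, z₀ = lam * s ∧ z₁ = lam * t := by
    intro z₀ z₁ h
    have h1 : (a ^ 2 - 4 * b) * (z₀ * t - z₁ * s) = 0 := by linear_combination h
    have h3 : z₀ * t = z₁ * s := by
      rcases mul_eq_zero.mp h1 with h4 | h4
      · exact absurd h4 hD
      · exact sub_eq_zero.mp h4
    rcases hst with hs | ht
    · refine ⟨z₀ / s, ?_, ?_⟩
      · field_simp
      · field_simp
        exact h3.symm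
    · refine ⟨z₁ / t, ?_, ?_⟩
      · field_simp
        exact h3
      · field_simp
  exact mcond_transport (1 + (k + k))
    ((Equiv.sumCongr (Equiv.refl (Fin 1)) finSumFinEquiv).trans finSumFinEquiv) a b s t
    (mcondFL k a b (-(a * s + 2 * b * t)) (2 * s + a * t))
    (mcondGL k a b (-(a * s + 2 * b * t)) (2 * s + a * t))
    (mcondFG k a b _ _) (mcondGF k a b _ _) (mcond_isom k a b _ _)
    (mcond_nonscalar k a b _ _ hc) (mcond_cube k a b _ _) (mcond_fix k a b _ _ s t hβ)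
    (mcond_ker k a b _ _ s t h2 hc hlin) (mcond_rank k a b _ _)

end Concrete

end Cfsg.Agent.Lib.Helper43.Pm
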