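import Mathlib
import Cfsg.Prelude.Def_GeometricClasses
import Cfsg.Prelude.Def_LieClassical
import Cfsg.Agent.Lib.Helper71.Asch0
import Cfsg.Agent.Lib.Helper29.SPPTens

/-!
# Project SP12 (helper71), piece T2Sa (helper43)

For `q` odd a group of isometries inside `Sp_d ⊗ O_2`, the symmetric form on `F^2` isotropic,
stabilises a pair of complementary totally singular `d`-spaces: the images of `F^d ⊗ u_j` for
the two isotropic lines `F u_1`, `F u_2` of the hyperbolic plane.
-/

set_option autoImplicit false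

namespace Cfsg.Agent.Lib.Helper43.SP12T2Sa

open Matrix Cfsg.Geo Cfsg.Agent.Lib.Helper71.Asch
open Cfsg.Agent.Lib.Helper29.SPPTens
open scoped Kronecker

variable {n : ℕ} {F : Type*} [Field F] [Fintype F]

/-- `2 ≠ 0` in a finite field of odd order -/
theorem t2sa_two_ne (hq : Odd (Fintype.card F)) : (2 : F) ≠ 0 := by
  intro h
  have h1 : ringChar F = 2 := CharP.ringChar_of_prime_eq_zero Nat.prime_two h
  have h2 := FiniteField.even_card_iff_char_two.mp h1
  rcases hq with ⟨k, hk⟩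
  omega

/-- the other index of `Fin 2` -/
def oth (s : Fin 2) : Fin 2 := if s = 0 then 1 else 0

theorem oth_ne : ∀ s : Fin 2, oth s ≠ s := by decide

theorem eq_oth_of_ne : ∀ s t : Fin 2, t ≠ s → t = oth s := by decide

theorem oth_oth : ∀ s : Fin 2, oth (oth s) = s := by decide

omit [Fintype F] in
/-- a hyperbolic pair in an isotropic non-degenerate symmetric plane -/
theorem t2sa_hyp_pair (h2F : (2 : F) ≠ 0) (f₂ : (Fin 2 → F) → (Fin 2 → F) → F)
    (h2 : IsSymmetricForm f₂) (hiso : ∃ v, v ≠ 0 ∧ f₂ v v = 0) :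
    ∃ u : Fin 2 → (Fin 2 → F), (∀ s t, f₂ (u s) (u t) = if s = t then 0 else 1) := by
  obtain ⟨v, hv0, hvv⟩ := hiso
  have hb2 := h2.bilinear
  obtain ⟨w, hw⟩ := (h2.nondegenerate v hv0).2
  obtain ⟨w', hw'⟩ : ∃ w' : Fin 2 → F, f₂ v w' = 1 := by
    refine ⟨(f₂ v w)⁻¹ • w, ?_⟩
    rw [hb2.smul_right, inv_mul_cancel₀ hw]
  have hw'v : f₂ w' v = 1 := by rw [h2.symm, hw']
  have hneg : ∀ (c : F) (x : Fin 2 → F), w' - c • x = w' + (-c) • x := by
    intro c x
    rw [neg_smul, sub_eq_add_neg]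
  have e12 : f₂ v (w' - (f₂ w' w' / 2) • v) = 1 := by
    rw [hneg, hb2.add_right, hb2.smul_right, hvv, hw']
    ring
  have e21 : f₂ (w' - (f₂ w' w' / 2) • v) v = 1 := by rw [h2.symm, e12]
  have e22 : f₂ (w' - (f₂ w' w' / 2) • v) (w' - (f₂ w' w' / 2) • v) = 0 := by
    rw [hneg, hb2.add_left, hb2.add_right, hb2.add_right, hb2.smul_left, hb2.smul_left,
      hb2.smul_right, hb2.smul_right, hvv, hw', hw'v]
    field_simp
    ring
  refine ⟨fun s => if s = 0 then v else w' - (f₂ w' w' / 2) • v, ?_⟩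
  intro s t
  fin_cases s <;> fin_cases t <;> simp [hvv, e12, e21, e22]

/-- T2Sa: for `q` odd a group of isometries inside `Sp_d ⊗ O_2`, the symmetric form on `F^2`
isotropic, stabilises a pair of complementary totally singular `d`-spaces. -/
theorem T2Sa (hq : Odd (Fintype.card F)) (f : (Fin n → F) → (Fin n → F) → F)
    (hf : IsSymplecticForm f) (H : Subgroup (GL (Fin n) F)) (hfix : FixesForm (matrixSet H) f)
    {d : ℕ} (hd : 1 ≤ d) (e : Fin n ≃ Fin d × Fin 2) (P : GL (Fin n) F)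
    (f₁ : (Fin d → F) → (Fin d → F) → F) (f₂ : (Fin 2 → F) → (Fin 2 → F) → F)
    (h1 : IsSymplecticForm f₁) (h2 : IsSymmetricForm f₂)
    (ht : IsTensorFormStructure id f f₁ f₂ e P) (hH : H ≤ tensorProductSubgroup d 2 e P)
    (hiso : ∃ v, v ≠ 0 ∧ f₂ v v = 0) :
    ∃ D : Fin 2 → Submodule F (Fin n → F), IsMDecomposition d D ∧
      (∀ i, IsTotallySingularFor f (D i)) ∧ H ≤ decompositionStabilizer D := by
  classical
  have h2F : (2 : F) ≠ 0 := t2sa_two_ne hq
  have hb1 := h1.bilinear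
  have hb2 := h2.bilinear
  have hsymm := h2.symm
  have hbf := hf.bilinear
  obtain ⟨u, hU1⟩ := t2sa_hyp_pair h2F f₂ h2 hiso
  have hUss : ∀ s, f₂ (u s) (u s) = 0 := fun s => by rw [hU1, if_pos rfl]
  have hUst : ∀ s t, s ≠ t → f₂ (u s) (u t) = 1 := fun s t hst => by rw [hU1, if_neg hst]
  have hf20l : ∀ x, f₂ 0 x = 0 := by
    intro x
    have h3 := hb2.smul_left 0 0 x
    rw [zero_smul, zero_mul] at h3
    exact h3
  -- the coordinate map
  let M : (Fin 2 → F) →ₗ[F] (Fin 2 → F) :=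
    { toFun := fun c => c 0 • u 0 + c 1 • u 1
      map_add' := fun c c' => by
        simp only [Pi.add_apply, add_smul]
        abel
      map_smul' := fun t c => by
        simp only [Pi.smul_apply, smul_eq_mul, RingHom.id_apply, smul_add, smul_smul] }
  have hM : ∀ c, M c = c 0 • u 0 + c 1 • u 1 := fun c => rfl
  have hMf : ∀ c s, f₂ (M c) (u s) = c (oth s) := by
    intro c s
    rw [hM, hb2.add_left, hb2.smul_left, hb2.smul_left, hU1, hU1]
    fin_cases s <;> simp [oth]
  have hMinj : Function.Injective M := by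
    rw [injective_iff_map_eq_zero]
    intro c hc
    funext s
    have h3 := hMf c (oth s)
    rw [hc, hf20l] at h3
    rw [oth_oth s] at h3
    rw [← h3]
    rfl
  have hMsurj : Function.Surjective M := LinearMap.injective_iff_surjective.mp hMinj
  have hE : ∀ v : Fin 2 → F, v = ∑ s, (f₂ v (u (oth s))) • u s := by
    intro v
    obtain ⟨c, rfl⟩ := hMsurj v
    rw [Fin.sum_univ_two, hMf, hMf, hM]
    have h40 : oth (oth (0 : Fin 2)) = 0 := by decide
    have h41 : oth (oth (1 : Fin 2)) = 1 := by decide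
    rw [h40, h41]
  have hU2 : ∀ v : Fin 2 → F, v ≠ 0 → f₂ v v = 0 → ∃ (s : Fin 2) (δ : F), δ ≠ 0 ∧ v = δ • u s := by
    intro v hv0 hvv
    obtain ⟨c, rfl⟩ := hMsurj v
    have h3 : f₂ (M c) (M c) = 2 * (c 0 * c 1) := by
      have h5 : f₂ (M c) (M c) = f₂ (M c) (c 0 • u 0 + c 1 • u 1) := by rw [← hM]
      rw [h5, hb2.add_right, hb2.smul_right, hb2.smul_right, hMf, hMf]
      have h40 : oth (0 : Fin 2) = 1 := by decide
      have h41 : oth (1 : Fin 2) = 0 := by decide
      rw [h40, h41]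
      ring
    rw [h3] at hvv
    rcases mul_eq_zero.mp hvv with h4 | h4
    · exact absurd h4 h2F
    rcases mul_eq_zero.mp h4 with h4 | h4
    · refine ⟨1, c 1, ?_, ?_⟩
      · intro h5
        apply hv0
        rw [hM, h4, h5, zero_smul, zero_smul, add_zero]
      · rw [hM, h4, zero_smul, zero_add]
    · refine ⟨0, c 0, ?_, ?_⟩
      · intro h5
        apply hv0
        rw [hM, h4, h5, zero_smul, zero_smul, add_zero]
      · rw [hM, h4, zero_smul, add_zero]
  -- the two subspaces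
  obtain ⟨c₀, hc₀, hform⟩ := ht
  have hf0l : ∀ x, f 0 x = 0 := by
    intro x
    have h3 := hbf.smul_left 0 0 x
    rw [zero_smul, zero_mul] at h3
    exact h3
  have hf0r : ∀ x, f x 0 = 0 := by
    intro x
    have h3 := hbf.smul_right 0 x 0
    rw [zero_smul, zero_mul] at h3
    exact h3
  let ι : Fin 2 → (Fin d → F) →ₗ[F] (Fin n → F) := fun s =>
    { toFun := fun w => tT e P (ptens w (u s))
      map_add' := fun w w' => by
        rw [← map_add]
        congr 1
        funext p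
        simp [ptens, add_mul]
      map_smul' := fun t w => by
        rw [RingHom.id_apply, ← map_smul]
        congr 1
        funext p
        simp [ptens, mul_assoc] }
  have hι : ∀ s w, ι s w = P.1 *ᵥ (ptens w (u s) ∘ e) := fun s w => rfl
  have hD1 : ∀ s t w w', f (ι s w) (ι t w') = c₀ * (f₁ w w' * (if s = t then 0 else 1)) := by
    intro s t w w'
    rw [hι, hι, hform, formOfGram_ptens f₁ f₂ hb1 hb2, hU1]
  have hιinj : ∀ s, Function.Injective (ι s) := by
    intro s
    rw [injective_iff_map_eq_zero]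
    intro w hw
    by_contra hw0
    obtain ⟨w', hw'⟩ := (h1.nondegenerate w hw0).2
    have h3 := hD1 s (oth s) w w'
    rw [hw, if_neg (fun h => oth_ne s h.symm), hf0l, mul_one] at h3
    exact mul_ne_zero hc₀ hw' h3.symm
  obtain ⟨D, hDdef⟩ : ∃ D : Fin 2 → Submodule F (Fin n → F), ∀ s, D s = LinearMap.range (ι s) :=
    ⟨fun s => LinearMap.range (ι s), fun _ => rfl⟩
  have hmemD : ∀ s x, x ∈ D s ↔ ∃ w, ι s w = x := by
    intro s x
    rw [hDdef, LinearMap.mem_range]
  have hts : ∀ s, IsTotallySingularFor f (D s) := by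
    intro s x hx y hy
    obtain ⟨w, rfl⟩ := (hmemD s x).1 hx
    obtain ⟨w', rfl⟩ := (hmemD s y).1 hy
    rw [hD1, if_pos rfl]
    ring
  have hindep : iSupIndep D := by
    intro s
    rw [Submodule.disjoint_def]
    intro x hx hx'
    obtain ⟨w, rfl⟩ := (hmemD s x).1 hx
    by_contra hx0
    have hw0 : w ≠ 0 := by
      rintro rfl
      exact hx0 (map_zero _)
    obtain ⟨w', hw'⟩ := (h1.nondegenerate w hw0).1
    let K : Submodule F (Fin n → F) :=
      { carrier := {x | ∀ y ∈ D (oth s), f y x = 0}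
        add_mem' := fun {x x'} hx hx' y hy => by
          rw [hbf.add_right, hx y hy, hx' y hy, add_zero]
        zero_mem' := fun y _ => hf0r y
        smul_mem' := fun c x hx y hy => by
          rw [hbf.smul_right, hx y hy, mul_zero] }
    have hle : (⨆ (j) (_ : j ≠ s), D j) ≤ K := by
      apply iSup₂_le
      intro t hts' z hz y hy
      rw [eq_oth_of_ne s t hts'] at hz
      exact hts (oth s) y hy z hz
    have h3 := hle hx' (ι (oth s) w') ((hmemD _ _).2 ⟨w', rfl⟩)
    rw [hD1, if_neg (oth_ne s), mul_one] at h3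
    exact mul_ne_zero hc₀ hw' h3
  have htop : iSup D = ⊤ := by
    rw [eq_top_iff]
    intro v _
    obtain ⟨x, rfl⟩ := tT_surjective e P v
    have hx : x = ∑ s, ptens (fun i => f₂ (fun j => x (i, j)) (u (oth s))) (u s) := by
      funext p
      obtain ⟨i, j⟩ := p
      have h3 := congrFun (hE (fun j => x (i, j))) j
      rw [Finset.sum_apply] at h3 ⊢
      simpa [ptens] using h3
    rw [hx, map_sum]
    apply Submodule.sum_mem
    intro s _
    exact Submodule.mem_iSup_of_mem s ((hmemD s _).2 ⟨_, rfl⟩)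
  have hfr : ∀ s, Module.finrank F (D s) = d := by
    intro s
    rw [hDdef, LinearMap.finrank_range_of_inj (hιinj s), Module.finrank_fin_fun]
  refine ⟨D, ⟨le_refl 2, hd, hfr, hindep, htop⟩, hts, ?_⟩
  -- the stabiliser
  intro h hh
  obtain ⟨a', b, lam, hab, hlam, hb⟩ := tens_factor f H hfix hd (by norm_num) e P
    f₁ f₂ h1.bilinear h1.nondegenerate h2.bilinear h2.nondegenerate ⟨c₀, hc₀, hform⟩ hH h hh
  have hbinj : ∀ v : Fin 2 → F, b.1 *ᵥ v = 0 → v = 0 := by
    intro v hv
    have h3 : (b⁻¹ : GL (Fin 2) F).1 *ᵥ (b.1 *ᵥ v) = v := by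
      rw [Matrix.mulVec_mulVec, ← Units.val_mul, inv_mul_cancel, Units.val_one,
        Matrix.one_mulVec]
    rw [← h3, hv, Matrix.mulVec_zero]
  have hu0 : ∀ s, u s ≠ 0 := by
    intro s h0
    have h3 := hUst s (oth s) (fun h => oth_ne s h.symm)
    rw [h0, hf20l] at h3
    exact zero_ne_one h3
  have hex : ∀ s, ∃ (t : Fin 2) (δ : F), δ ≠ 0 ∧ b.1 *ᵥ u s = δ • u t := by
    intro s
    exact hU2 (b.1 *ᵥ u s) (fun h0 => hu0 s (hbinj _ h0)) (by rw [hb, hUss, mul_zero])
  choose σ δ hδ0 hδ using hex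
  have hσinj : Function.Injective σ := by
    intro s s' hss
    by_contra hne
    have h3 := hb (u s) (u s')
    rw [hUst s s' hne, hδ s, hδ s', hb2.smul_left, hb2.smul_right, hss, hUss, mul_zero, mul_zero,
      mul_one] at h3
    exact hlam h3.symm
  have hact : ∀ s w, h.1 *ᵥ ι s w = ι (σ s) (δ s • (a'.1 *ᵥ w)) := by
    intro s w
    rw [hι, hι, hab, tmat_mulVec, kron_mulVec_ptens, hδ s]
    congr 2
    funext p
    simp [ptens]
    ring
  refine ⟨Equiv.ofBijective σ (Finite.injective_iff_bijective.mp hσinj), fun s => ?_⟩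
  rw [Equiv.ofBijective_apply]
  apply le_antisymm
  · rintro _ ⟨x, hx, rfl⟩
    obtain ⟨w, rfl⟩ := (hmemD s x).1 hx
    rw [Matrix.toLin'_apply, hact]
    exact (hmemD _ _).2 ⟨_, rfl⟩
  · intro y hy
    obtain ⟨w', rfl⟩ := (hmemD _ y).1 hy
    refine ⟨ι s ((a'⁻¹ : GL (Fin d) F).1 *ᵥ ((δ s)⁻¹ • w')), (hmemD s _).2 ⟨_, rfl⟩, ?_⟩
    rw [Matrix.toLin'_apply, hact, Matrix.mulVec_mulVec, ← Units.val_mul, mul_inv_cancel,
      Units.val_one, Matrix.one_mulVec, smul_smul, mul_inv_cancel₀ (hδ0 s), one_smul]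

end Cfsg.Agent.Lib.Helper43.SP12T2Sa
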