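import Cfsg.Agent.Lib.Helper96.SpTI
import Cfsg.Agent.Lib.Helper96.SpElem
import Cfsg.Agent.Lib.Helper4.SpHalf

set_option autoImplicit false
set_option linter.unusedVariables false

namespace Cfsg.Agent.Lib.Helper43.SpPLIN

open Module Polynomial Cfsg.Agent.Lib.Helper96.Sp Cfsg.Agent.Lib.Helper96.BG

universe u v

section Rho

variable {F : Type u} [Field F] {V : Type v} [AddCommGroup V] [Module F V]

/-- The action of `F[X]/(f)` on the kernel of `f(T)`. -/
theorem exists_rho (T : Module.End F V) (f : F[X]) :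
    ∃ ρ : AdjoinRoot f →ₐ[F] Module.End F (LinearMap.ker (aeval T f)),
      ∀ (g : F[X]) (x : LinearMap.ker (aeval T f)),
        ((ρ (AdjoinRoot.mk f g)) x : V) = (aeval T g) (x : V) := by
  have hc : aeval T f * T = T * aeval T f := by
    have h1 : aeval T (f * X) = aeval T (X * f) := by rw [mul_comm]
    rw [map_mul, map_mul, aeval_X] at h1
    exact h1
  have hK : ∀ x ∈ LinearMap.ker (aeval T f), T x ∈ LinearMap.ker (aeval T f) := by
    intro x hx
    rw [LinearMap.mem_ker] at hx ⊢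
    rw [← Module.End.mul_apply, hc, Module.End.mul_apply, hx, map_zero]
  have h0 : aeval (T.restrict hK) f = 0 := by
    ext x
    rw [Cfsg.Agent.Lib.Helper4.SpHalf.aeval_restrict_apply T _ hK f x]
    have := x.2
    rw [LinearMap.mem_ker] at this
    rw [this]
    rfl
  refine ⟨Ideal.Quotient.liftₐ (Ideal.span {f}) (aeval (T.restrict hK)) ?_, ?_⟩
  · intro a ha
    obtain ⟨b, rfl⟩ := Ideal.mem_span_singleton.1 ha
    rw [map_mul, h0, zero_mul]
  · intro g x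
    exact Cfsg.Agent.Lib.Helper4.SpHalf.aeval_restrict_apply T _ hK g x

end Rho

/-- P-LIN. -/
theorem exists_ti_of_same_type {F : Type u} [Field F] [Fintype F] {V : Type v} [AddCommGroup V]
    [Module F V] [FiniteDimensional F V] {B : LinearMap.BilinForm F V} (hA : B.IsAlt)
    (hN : ND B ⊤) (T : Module.End F V) (hT : Isom B T) (r : ℕ) [Fact r.Prime] (hr2 : r ≠ 2)
    (hrq : ¬ r ∣ Fintype.card F) (hr0 : (r : F) ≠ 0) (hTr : T ^ r = 1)
    (P₁ P₂ : Submodule F V)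
    (h₁ : ND B P₁ ∧ P₁.map T ≤ P₁ ∧ P₁ ≤ LinearMap.range (T - 1))
    (h₁i : finrank F P₁ = orderOf ((Fintype.card F : ℕ) : ZMod r))
    (h₂ : ND B P₂ ∧ P₂.map T ≤ P₂ ∧ P₂ ≤ LinearMap.range (T - 1))
    (h₂i : finrank F P₂ = orderOf ((Fintype.card F : ℕ) : ZMod r))
    (horth : Orth B P₁ P₂) (f : Polynomial F) (hf : Irreducible f)
    (hk₁ : Kills T f P₁) (hk₂ : Kills T f P₂)
    (hnorm : ∀ (E : Type u) [Field E] [Finite E] (σ : E ≃+* E), (∀ x, σ (σ x) = x) →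
      (∃ x, σ x ≠ x) → ∀ a : E, σ a = a → ∃ c : E, c * σ c = a) :
    ∃ U : Submodule F V, U ≤ P₁ ⊔ P₂ ∧ U.map T ≤ U ∧ Orth B U U ∧
      finrank F U = orderOf ((Fintype.card F : ℕ) : ZMod r) := by
  have hfact : Fact (Irreducible f) := ⟨hf⟩
  obtain ⟨h₁nd, h₁inv, h₁R⟩ := h₁
  obtain ⟨h₂nd, h₂inv, h₂R⟩ := h₂
  obtain ⟨hi, -, -, hdisj, -, -, -, -, -⟩ := pow_one_setup T r hrq hr0 hTr
  obtain ⟨ρ, hρ⟩ := exists_rho T f
  have hr : r.Prime := Fact.out
  have hrge : 2 ≤ r := hr.two_le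
  have hTS : T * T ^ (r - 1) = 1 := by
    rw [← pow_succ', Nat.sub_add_cancel (by omega), hTr]
  have hcomm : Commute T (T ^ (r - 1)) := (Commute.refl T).pow_right _
  -- nonzero vectors
  have hex : ∀ P : Submodule F V, finrank F P = orderOf ((Fintype.card F : ℕ) : ZMod r) →
      ∃ u ∈ P, u ≠ 0 := by
    intro P hP
    by_contra hcon
    push Not at hcon
    have hb : P = ⊥ := by
      rw [eq_bot_iff]
      intro u hu
      exact (Submodule.mem_bot F).2 (hcon u hu)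
    rw [hb, finrank_bot] at hP
    omega
  obtain ⟨u₁, hu₁, hu₁0⟩ := hex P₁ h₁i
  obtain ⟨u₂, hu₂, hu₂0⟩ := hex P₂ h₂i
  have hP₁K : P₁ ≤ LinearMap.ker (aeval T f) := fun u hu => LinearMap.mem_ker.2 (hk₁ u hu)
  have hP₂K : P₂ ≤ LinearMap.ker (aeval T f) := fun u hu => LinearMap.mem_ker.2 (hk₂ u hu)
  obtain ⟨x₁, hx₁⟩ : ∃ x : LinearMap.ker (aeval T f), (x : V) = u₁ := ⟨⟨u₁, hP₁K hu₁⟩, rfl⟩
  obtain ⟨x₂, hx₂⟩ : ∃ x : LinearMap.ker (aeval T f), (x : V) = u₂ := ⟨⟨u₂, hP₂K hu₂⟩, rfl⟩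
  have hx₁0 : x₁ ≠ 0 := by
    intro h
    apply hu₁0
    rw [← hx₁, h]
    rfl
  have hx₂0 : x₂ ≠ 0 := by
    intro h
    apply hu₂0
    rw [← hx₂, h]
    rfl
  have hx₁P : (x₁ : V) ∈ P₁ := by rw [hx₁]; exact hu₁
  have hx₂P : (x₂ : V) ∈ P₂ := by rw [hx₂]; exact hu₂
  have hmk : ∀ e : AdjoinRoot f, ∃ g, e = AdjoinRoot.mk f g := by
    intro e
    induction e using AdjoinRoot.induction_on with
    | ih p => exact ⟨p, rfl⟩
  have hρP₁ : ∀ (e : AdjoinRoot f) (x : LinearMap.ker (aeval T f)), (x : V) ∈ P₁ →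
      ((ρ e x : LinearMap.ker (aeval T f)) : V) ∈ P₁ := by
    intro e x hx
    obtain ⟨g, rfl⟩ := hmk e
    rw [hρ]
    exact Cfsg.Agent.Lib.Helper4.SpHalf.aeval_mem_of_map_le T P₁ h₁inv g _ hx
  have hρP₂ : ∀ (e : AdjoinRoot f) (x : LinearMap.ker (aeval T f)), (x : V) ∈ P₂ →
      ((ρ e x : LinearMap.ker (aeval T f)) : V) ∈ P₂ := by
    intro e x hx
    obtain ⟨g, rfl⟩ := hmk e
    rw [hρ]
    exact Cfsg.Agent.Lib.Helper4.SpHalf.aeval_mem_of_map_le T P₂ h₂inv g _ hx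
  have hinj : ∀ (e : AdjoinRoot f) (x : LinearMap.ker (aeval T f)), x ≠ 0 → ρ e x = 0 →
      e = 0 := by
    intro e x hx he
    by_contra he0
    apply hx
    have h1 : ρ (e⁻¹ * e) x = x := by
      rw [inv_mul_cancel₀ he0, map_one, Module.End.one_apply]
    rw [← h1, map_mul, Module.End.mul_apply, he, map_zero]
  have hadj0 : ∀ (g : F[X]) (x y : V),
      B (aeval T g x) y = B x (aeval T (g.comp (X ^ (r - 1))) y) := by
    intro g x y
    rw [Cfsg.Agent.Lib.Helper4.SpHalf.adjoint_aeval T (T ^ (r - 1)) hT hTS hcomm g x y,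
      aeval_comp, map_pow, aeval_X]
  have hmkcomp : ∀ g : F[X], AdjoinRoot.mk f (g.comp (X ^ (r - 1)))
      = aeval (AdjoinRoot.root f ^ (r - 1)) g := by
    intro g
    rw [← AdjoinRoot.aeval_eq, aeval_comp, map_pow, aeval_X]
  have hroot : aeval (AdjoinRoot.root f ^ (r - 1)) f = 0 := by
    rw [← hmkcomp]
    apply hinj _ x₁ hx₁0
    apply Subtype.ext
    rw [hρ]
    apply h₁nd _ (Cfsg.Agent.Lib.Helper4.SpHalf.aeval_mem_of_map_le T P₁ h₁inv _ _ hx₁P)
    intro v hv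
    rw [alt_swap hA, ← hadj0, hk₁ v hv, map_zero, LinearMap.zero_apply, neg_zero]
  -- the involution
  have hroot' : f.eval₂ ((Algebra.ofId F (AdjoinRoot f) : F →ₐ[F] AdjoinRoot f) : F →+* AdjoinRoot f)
      (AdjoinRoot.root f ^ (r - 1)) = 0 := by
    rw [← hroot, aeval_def]
    rfl
  obtain ⟨bar, hbar⟩ : ∃ bar : AdjoinRoot f →ₐ[F] AdjoinRoot f,
      ∀ g : F[X], bar (AdjoinRoot.mk f g) = AdjoinRoot.mk f (g.comp (X ^ (r - 1))) := by
    refine ⟨AdjoinRoot.liftAlgHom f (Algebra.ofId F (AdjoinRoot f)) (AdjoinRoot.root f ^ (r - 1))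
      hroot', fun g => ?_⟩
    rw [AdjoinRoot.liftAlgHom_mk, hmkcomp, aeval_def]
    rfl
  have hadj : ∀ (e : AdjoinRoot f) (x y : LinearMap.ker (aeval T f)),
      B ((ρ e x : LinearMap.ker (aeval T f)) : V) (y : V)
        = B (x : V) ((ρ (bar e) y : LinearMap.ker (aeval T f)) : V) := by
    intro e x y
    obtain ⟨g, rfl⟩ := hmk e
    rw [hbar, hρ, hρ, hadj0]
  have hrr : AdjoinRoot.root f ^ r = 1 := by
    have h1 : AdjoinRoot.mk f (X ^ r - 1) = 0 := by
      apply hinj _ x₁ hx₁0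
      apply Subtype.ext
      rw [hρ, map_sub, map_pow, aeval_X, map_one, hTr, sub_self, LinearMap.zero_apply]
      rfl
    rw [map_sub, map_pow, AdjoinRoot.mk_X, map_one, sub_eq_zero] at h1
    exact h1
  have hpow : (AdjoinRoot.root f ^ (r - 1)) ^ (r - 1) = AdjoinRoot.root f := by
    obtain ⟨k, rfl⟩ : ∃ k, r = k + 2 := ⟨r - 2, by omega⟩
    have h1 : (k + 2 - 1) * (k + 2 - 1) = (k + 2) * k + 1 := by
      have : k + 2 - 1 = k + 1 := by omega
      rw [this]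
      ring
    rw [← pow_mul, h1, pow_succ, pow_mul, hrr, one_pow, one_mul]
  have hbb : ∀ e : AdjoinRoot f, bar (bar e) = e := by
    intro e
    obtain ⟨g, rfl⟩ := hmk e
    rw [hbar, hbar, ← AdjoinRoot.aeval_eq, aeval_comp, aeval_comp, map_pow, aeval_X, map_pow,
      aeval_X, hpow, AdjoinRoot.aeval_eq]
  have hbroot : bar (AdjoinRoot.root f) = AdjoinRoot.root f ^ (r - 1) := by
    have h1 := hbar X
    rw [X_comp, AdjoinRoot.mk_X, map_pow, AdjoinRoot.mk_X] at h1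
    exact h1
  have hbne : ∃ x, bar x ≠ x := by
    refine ⟨AdjoinRoot.root f, fun h => ?_⟩
    rw [hbroot] at h
    have h2 : AdjoinRoot.root f ^ 2 = 1 := by
      have e1 : AdjoinRoot.root f ^ r = AdjoinRoot.root f ^ (r - 1) * AdjoinRoot.root f := by
        rw [← pow_succ, Nat.sub_add_cancel (by omega)]
      rw [h, hrr] at e1
      rw [sq]
      exact e1.symm
    obtain ⟨k, hk⟩ := hr.odd_of_ne_two hr2
    have h3 : AdjoinRoot.root f = 1 := by
      have h4 := hrr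
      rw [hk, pow_succ, pow_mul, h2, one_pow, one_mul] at h4
      exact h4
    have h5 : AdjoinRoot.mk f (X - 1) = 0 := by
      rw [map_sub, AdjoinRoot.mk_X, map_one, h3, sub_self]
    have h6 : ((ρ (AdjoinRoot.mk f (X - 1)) x₁ : LinearMap.ker (aeval T f)) : V) = 0 := by
      rw [h5, map_zero, LinearMap.zero_apply]
      rfl
    rw [hρ, map_sub, aeval_X, map_one, hx₁] at h6
    have h7 : u₁ ∈ LinearMap.ker (T - 1) ⊓ LinearMap.range (T - 1) :=
      ⟨LinearMap.mem_ker.2 h6, h₁R hu₁⟩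
    rw [hdisj, Submodule.mem_bot] at h7
    exact hu₁0 h7
  -- finiteness of the field
  have hfinM : Module.Finite F (AdjoinRoot f) := (AdjoinRoot.powerBasis hf.ne_zero).finite
  have hfinE : Finite (AdjoinRoot f) := Module.finite_of_finite F
  -- orbit maps
  obtain ⟨orb, horb⟩ : ∃ orb : LinearMap.ker (aeval T f) → (AdjoinRoot f →ₗ[F] V),
      ∀ x e, orb x e = ((ρ e x : LinearMap.ker (aeval T f)) : V) :=
    ⟨fun x => (Submodule.subtype _).comp ((LinearMap.applyₗ x).comp ρ.toLinearMap),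
      fun x e => rfl⟩
  have hTorb : ∀ x e, orb x (AdjoinRoot.root f * e) = T (orb x e) := by
    intro x e
    obtain ⟨g, rfl⟩ := hmk e
    rw [← AdjoinRoot.mk_X, ← map_mul, horb, horb, hρ, hρ, map_mul, aeval_X, Module.End.mul_apply]
  have horbinj : ∀ x : LinearMap.ker (aeval T f), x ≠ 0 → Function.Injective (orb x) := by
    intro x hx
    rw [injective_iff_map_eq_zero]
    intro e he
    rw [horb] at he
    exact hinj e x hx (Subtype.ext he)
  have hrange₂ : LinearMap.range (orb x₂) = P₂ := by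
    have h1 : LinearMap.range (orb x₂) ≤ P₂ := by
      rintro _ ⟨e, rfl⟩
      rw [horb]
      exact hρP₂ e x₂ hx₂P
    have h2 : (LinearMap.range (orb x₂)).map T ≤ LinearMap.range (orb x₂) := by
      rintro _ ⟨_, ⟨e, rfl⟩, rfl⟩
      exact ⟨AdjoinRoot.root f * e, hTorb x₂ e⟩
    rcases inv_eq_bot_or T r hrq hr0 hTr P₂ h₂R h₂i _ h1 h2 with h | h
    · exfalso
      have h3 : orb x₂ 1 ∈ LinearMap.range (orb x₂) := ⟨1, rfl⟩
      rw [h, Submodule.mem_bot, horb, map_one, Module.End.one_apply, hx₂] at h3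
      exact hu₂0 h3
    · exact h
  have hdimE : finrank F (AdjoinRoot f) = orderOf ((Fintype.card F : ℕ) : ZMod r) := by
    rw [← h₂i, ← hrange₂, LinearMap.finrank_range_of_inj (horbinj x₂ hx₂0)]
  -- the functionals
  have hlam : ∀ (x : LinearMap.ker (aeval T f)) (e : AdjoinRoot f),
      B (x : V) (orb x (bar e)) = -B (x : V) (orb x e) := by
    intro x e
    rw [horb, horb, ← hadj, alt_swap hA]
  obtain ⟨e₀, he₀⟩ : ∃ e₀, B (x₂ : V) (orb x₂ e₀) ≠ 0 := by
    by_contra hcon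
    push Not at hcon
    apply hu₂0
    apply h₂nd u₂ hu₂
    intro v hv
    rw [← hrange₂] at hv
    obtain ⟨e, rfl⟩ := hv
    rw [← hx₂]
    exact hcon e
  obtain ⟨Φ, hΦ⟩ : ∃ Φ : AdjoinRoot f →ₗ[F] Module.Dual F (AdjoinRoot f),
      ∀ a e, Φ a e = B (x₂ : V) (orb x₂ (a * e)) :=
    ⟨(LinearMap.mul F (AdjoinRoot f)).compr₂ ((B (x₂ : V)).comp (orb x₂)), fun a e => rfl⟩
  have hΦinj : Function.Injective Φ := by
    rw [injective_iff_map_eq_zero]
    intro a ha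
    by_contra ha0
    apply he₀
    have h1 := hΦ a (a⁻¹ * e₀)
    rw [ha, LinearMap.zero_apply, ← mul_assoc, mul_inv_cancel₀ ha0, one_mul] at h1
    exact h1.symm
  have hΦsurj : Function.Surjective Φ :=
    (LinearMap.injective_iff_surjective_of_finrank_eq_finrank
      (Subspace.dual_finrank_eq (K := F) (V := AdjoinRoot f)).symm).1 hΦinj
  obtain ⟨a, ha⟩ := hΦsurj ((B (x₁ : V)).comp (orb x₁))
  have ha' : ∀ e, B (x₂ : V) (orb x₂ (a * e)) = B (x₁ : V) (orb x₁ e) := by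
    intro e
    rw [← hΦ, ha]
    rfl
  have hbara : bar a = a := by
    apply hΦinj
    apply LinearMap.ext
    intro e
    rw [hΦ, hΦ, ha']
    have h1 : bar a * e = bar (a * bar e) := by rw [map_mul, hbb]
    rw [h1, hlam, ha', hlam, neg_neg]
  -- the norm equation
  obtain ⟨σ, hσ⟩ : ∃ σ : AdjoinRoot f ≃+* AdjoinRoot f, ∀ e, σ e = bar e :=
    ⟨{ toFun := bar, invFun := bar, left_inv := hbb, right_inv := hbb,
       map_mul' := map_mul bar, map_add' := map_add bar }, fun e => rfl⟩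
  obtain ⟨c, hc⟩ := hnorm (AdjoinRoot f) σ (fun x => by rw [hσ, hσ, hbb])
    (by obtain ⟨x, hx⟩ := hbne; exact ⟨x, by rw [hσ]; exact hx⟩) (-a)
    (by rw [hσ, map_neg, hbara])
  rw [hσ] at hc
  -- the new vector
  obtain ⟨w, hw⟩ : ∃ w : LinearMap.ker (aeval T f), w = x₁ + ρ c x₂ := ⟨_, rfl⟩
  have hw0 : w ≠ 0 := by
    intro h0
    apply hu₁0
    apply h₁nd u₁ hu₁
    intro v hv
    have h1 : u₁ ∈ P₂ := by
      have h2 : x₁ = -(ρ c x₂) := by
        rw [h0] at hw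
        exact eq_neg_of_add_eq_zero_left hw.symm
      rw [← hx₁, h2, Submodule.coe_neg]
      exact P₂.neg_mem (hρP₂ c x₂ hx₂P)
    rw [alt_swap hA, horth v hv u₁ h1, neg_zero]
  have hworb : ∀ e, orb w e = orb x₁ e + orb x₂ (e * c) := by
    intro e
    rw [horb, horb, horb, hw, map_add, Submodule.coe_add, map_mul, Module.End.mul_apply]
  have hkey : ∀ e, B (w : V) (orb w e) = 0 := by
    intro e
    rw [hworb, hw, Submodule.coe_add, map_add, map_add, LinearMap.add_apply, LinearMap.add_apply]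
    have t2 : B (x₁ : V) (orb x₂ (e * c)) = 0 := by
      rw [horb]
      exact horth _ hx₁P _ (hρP₂ _ x₂ hx₂P)
    have t3 : B ((ρ c x₂ : LinearMap.ker (aeval T f)) : V) (orb x₁ e) = 0 := by
      rw [horb, alt_swap hA, horth _ (hρP₁ e x₁ hx₁P) _ (hρP₂ c x₂ hx₂P), neg_zero]
    have t4 : B ((ρ c x₂ : LinearMap.ker (aeval T f)) : V) (orb x₂ (e * c))
        = -B (x₁ : V) (orb x₁ e) := by
      rw [horb, hadj, ← Module.End.mul_apply, ← map_mul, ← horb, ← ha', ← map_neg, ← map_neg]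
      congr 2
      rw [← neg_mul, ← hc]
      ring
    rw [t2, t3, t4]
    ring
  refine ⟨LinearMap.range (orb w), ?_, ?_, ?_, ?_⟩
  · rintro _ ⟨e, rfl⟩
    rw [hworb]
    refine Submodule.add_mem_sup ?_ ?_
    · rw [horb]
      exact hρP₁ e x₁ hx₁P
    · rw [horb]
      exact hρP₂ _ x₂ hx₂P
  · rintro _ ⟨_, ⟨e, rfl⟩, rfl⟩
    exact ⟨AdjoinRoot.root f * e, hTorb w e⟩
  · rintro _ ⟨e, rfl⟩ _ ⟨e', rfl⟩
    rw [horb, horb, hadj, ← Module.End.mul_apply, ← map_mul, ← horb]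
    exact hkey _
  · rw [LinearMap.finrank_range_of_inj (horbinj w hw0), hdimE]

end Cfsg.Agent.Lib.Helper43.SpPLIN
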