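import Cfsg.Agent.Lib.Helper98.T73Defs
import Cfsg.Agent.Lib.Helper96.SpFix

/-!
# Project T73 (S5973), piece FIXCNT (helper43)

The fixed-point congruence for the action of an isometry of prime order `r` on the totally
singular `m`-spaces, `m < ord_r(q)`: the fixed spaces are those inside `ker (g - 1)`.
-/

set_option autoImplicit false

namespace Cfsg.Agent.Lib.Helper98.T73

open Cfsg.Agent.Lib.Helper47 Module Polynomial

universe u

variable {F : Type u} [Field F] [Fintype F] {V : Type u} [AddCommGroup V] [Module F V]
  [FiniteDimensional F V] {Q : V → F} {B : V → V → F}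

/-- FIXCNT -/
theorem card_ts_modEq_fixed (p : ℕ) [Fact p.Prime] [CharP F p] (r : ℕ) (hr : r.Prime)
    (hrp : r ≠ p) (g : Module.End F V) (hgQ : QI Q g) (hg : g ^ r = 1) (m : ℕ)
    (hmi : m < orderOf ((Fintype.card F : ℕ) : ZMod r)) :
    Nat.card {W : Submodule F V // finrank F W = m ∧ TS Q W} ≡
      Nat.card {W : Submodule F ↥(LinearMap.ker (g - 1)) //
        finrank F W = m ∧ TS (fun w : ↥(LinearMap.ker (g - 1)) => Q (w : V)) W} [MOD r] := by
  classical
  haveI : Fact r.Prime := ⟨hr⟩
  have hp : p.Prime := Fact.out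
  have hr0 : (r : F) ≠ 0 := by
    intro h0
    have h1 := (CharP.cast_eq_zero_iff F p r).mp h0
    exact hrp ((Nat.prime_dvd_prime_iff_eq hp hr).mp h1).symm
  have hrq : ¬ r ∣ Fintype.card F := by
    intro h
    obtain ⟨n, -, hn⟩ := FiniteField.card F p
    rw [hn] at h
    have h1 := hr.dvd_of_dvd_pow h
    exact hrp ((Nat.prime_dvd_prime_iff_eq hr hp).mp h1)
  have hfinV : Finite V := Module.finite_of_finite F
  have hfinS : Finite (Submodule F V) :=
    Finite.of_injective (fun W : Submodule F V => (W : Set V)) SetLike.coe_injective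
  have hTinj : Function.Injective g := by
    have h1 : g ^ (r - 1) * g = 1 := by
      rw [← pow_succ, Nat.sub_add_cancel hr.one_le, hg]
    intro x y hxy
    have h2 := congrArg (g ^ (r - 1)) hxy
    rw [← Module.End.mul_apply, ← Module.End.mul_apply, h1] at h2
    simpa using h2
  have hTK : ∀ x ∈ LinearMap.ker (g - 1), g x = x := by
    intro x hx
    rw [LinearMap.mem_ker, LinearMap.sub_apply, sub_eq_zero] at hx
    exact hx
  have hfinΩ : Fintype {W : Submodule F V // finrank F W = m ∧ TS Q W} := Fintype.ofFinite _
  let f : Function.End {W : Submodule F V // finrank F W = m ∧ TS Q W} := fun W =>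
    ⟨W.1.map g,
      ((Submodule.equivMapOfInjective g hTinj W.1).finrank_eq.symm).trans W.2.1, by
      rintro _ ⟨u, hu, rfl⟩
      rw [hgQ u]
      exact W.2.2 u hu⟩
  have hk : ∀ (k : ℕ) (W : {W : Submodule F V // finrank F W = m ∧ TS Q W}),
      ((f ^ k) W).1 = W.1.map (g ^ k) := by
    intro k
    induction k with
    | zero =>
      intro W
      rw [pow_zero, pow_zero]
      exact (Submodule.map_id W.1).symm
    | succ k ih =>
      intro W
      rw [pow_succ', pow_succ']
      change ((f ^ k) W).1.map g = W.1.map (g * g ^ k)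
      rw [ih, Module.End.mul_eq_comp, Submodule.map_comp]
  have hfr : f ^ r ^ 1 = 1 := by
    rw [pow_one]
    funext W
    apply Subtype.ext
    rw [hk, hg]
    exact Submodule.map_id W.1
  have key := Equiv.Perm.card_fixedPoints_modEq (p := r) (n := 1) hfr
  -- the commutator space is invariant
  have hRinv : ∀ x ∈ LinearMap.range (g - 1), g x ∈ LinearMap.range (g - 1) := by
    rintro _ ⟨y, rfl⟩
    refine ⟨g y, ?_⟩
    simp [LinearMap.sub_apply, map_sub]
  -- fixed points are the subspaces of the kernel
  have hfixle : ∀ W : {W : Submodule F V // finrank F W = m ∧ TS Q W},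
      f W = W → W.1 ≤ LinearMap.ker (g - 1) := by
    intro W hW
    have h1 : W.1.map g = W.1 := congrArg Subtype.val hW
    have hsplit := Cfsg.Agent.Lib.Helper96.Sp.inv_split g r hr0 hg W.1 (le_of_eq h1)
    have hZ : W.1 ⊓ LinearMap.range (g - 1) = ⊥ := by
      by_contra hne
      have hZinv : (W.1 ⊓ LinearMap.range (g - 1)).map g ≤ W.1 ⊓ LinearMap.range (g - 1) := by
        rintro _ ⟨x, hx, rfl⟩
        exact ⟨(le_of_eq h1) ⟨x, hx.1, rfl⟩, hRinv x hx.2⟩
      obtain ⟨U, hUZ, -, hUi⟩ :=
        Cfsg.Agent.Lib.Helper96.Sp.exists_inv_dim g r hrq hr0 hg _ hZinv inf_le_right hne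
      have h2 := Submodule.finrank_mono (hUZ.trans inf_le_left)
      rw [hUi, W.2.1] at h2
      omega
    rw [hZ, sup_bot_eq] at hsplit
    rw [← hsplit]
    exact inf_le_right
  have hlefix : ∀ W : {W : Submodule F V // finrank F W = m ∧ TS Q W},
      W.1 ≤ LinearMap.ker (g - 1) → f W = W := by
    intro W hW
    apply Subtype.ext
    change W.1.map g = W.1
    ext x
    constructor
    · rintro ⟨y, hy, rfl⟩
      rw [hTK y (hW hy)]
      exact hy
    · intro hx
      exact ⟨x, hx, hTK x (hW hx)⟩
  let e : Function.fixedPoints f ≃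
      {W : Submodule F ↥(LinearMap.ker (g - 1)) // finrank F W = m ∧
        TS (fun w : ↥(LinearMap.ker (g - 1)) => Q (w : V)) W} :=
    { toFun := fun W => ⟨W.1.1.comap (LinearMap.ker (g - 1)).subtype, by
        have hle := hfixle W.1 W.2
        have h1 : (W.1.1.comap (LinearMap.ker (g - 1)).subtype).map
            (LinearMap.ker (g - 1)).subtype = W.1.1 := by
          rw [Submodule.map_comap_subtype]
          exact inf_eq_right.mpr hle
        constructor
        · rw [← Submodule.finrank_map_subtype_eq, h1]
          exact W.1.2.1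
        · intro w hw
          exact W.1.2.2 (w : V) hw⟩
      invFun := fun W' => ⟨⟨W'.1.map (LinearMap.ker (g - 1)).subtype, by
          rw [Submodule.finrank_map_subtype_eq]; exact W'.2.1, by
          rintro _ ⟨w, hw, rfl⟩
          exact W'.2.2 w hw⟩, by
        apply hlefix
        rintro _ ⟨x, _, rfl⟩
        exact x.2⟩
      left_inv := fun W => by
        apply Subtype.ext
        apply Subtype.ext
        have hle := hfixle W.1 W.2
        change (W.1.1.comap (LinearMap.ker (g - 1)).subtype).map
            (LinearMap.ker (g - 1)).subtype = W.1.1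
        rw [Submodule.map_comap_subtype]
        exact inf_eq_right.mpr hle
      right_inv := fun W' => by
        apply Subtype.ext
        change (W'.1.map (LinearMap.ker (g - 1)).subtype).comap
            (LinearMap.ker (g - 1)).subtype = W'.1
        exact Submodule.comap_map_eq_of_injective (Submodule.injective_subtype _) W'.1 }
  rw [← Nat.card_congr e, Nat.card_eq_fintype_card, Nat.card_eq_fintype_card]
  convert key

end Cfsg.Agent.Lib.Helper98.T73
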