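import Mathlib
import Cfsg.Prelude.Def_SporadicB
import Cfsg.Agent.Lib.Helper61.TT5Defs

/-!
# S5365, piece P1 (for helper61)

The elementwise local structure `TS D` from the hypotheses of the statement.
-/

set_option autoImplicit false

namespace Cfsg.Agent.Lib.Helper43.TT5

open Cfsg.Agent.Lib.Helper61.TT5

variable {G : Type*} [Group G] {D : Set G}

/-- involutions of `S₃`: any involution is one of `X`, `Y`, `X * Y * X` for non-commuting
involutions `X`, `Y` -/
theorem perm3_invol : ∀ X Y Z : Equiv.Perm (Fin 3), X * X = 1 → Y * Y = 1 → Z * Z = 1 → Z ≠ 1 →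
    X * Y ≠ Y * X → Z = X ∨ Z = Y ∨ Z = X * Y * X := by
  decide

theorem perm3_not_comm : ¬ ∀ X Y : Equiv.Perm (Fin 3), X * Y = Y * X := by
  decide

theorem ts_of_hyp (hD : Cfsg.IsThreeTranspositionSet D) (hconj : ∀ g : G, ∀ d ∈ D, g * d * g⁻¹ ∈ D) (hloc : ∀ d ∈ D, Nonempty (↥(Subgroup.closure {y : G | y ∈ D ∧ y ≠ d ∧ Commute d y}) ≃* Equiv.Perm (Fin 3))) : TS D := by
  have hsq : ∀ d ∈ D, d * d = 1 := by
    intro d hd
    have h1 := pow_orderOf_eq_one d
    rw [hD.1 d hd, pow_two] at h1
    exact h1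
  have hne1 : ∀ d ∈ D, d ≠ 1 := by
    intro d hd h1
    have h2 := hD.1 d hd
    rw [h1, orderOf_one] at h2
    omega
  have hinv : ∀ d ∈ D, d⁻¹ = d := fun d hd => inv_eq_of_mul_eq_one_left (hsq d hd)
  refine ⟨hsq, hne1, hconj, ?_, ?_, ?_⟩
  · -- pair
    intro d hd e he
    rcases hD.2 d hd e he with h | h
    · left
      rw [pow_two] at h
      have h1 : d * e = (d * e)⁻¹ := eq_inv_of_mul_eq_one_left h
      rw [mul_inv_rev, hinv d hd, hinv e he] at h1
      exact h1
    · right
      have h0 : (d * e) ^ 3 = (d * e * d) * (e * d * e) := by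
        rw [pow_succ, pow_two]; group
      rw [h0] at h
      have h1 : d * e * d = (e * d * e)⁻¹ := eq_inv_of_mul_eq_one_left h
      rw [mul_inv_rev, mul_inv_rev, hinv d hd, hinv e he, ← mul_assoc] at h1
      exact h1
  · -- line
    intro d hd
    obtain ⟨φ⟩ := hloc d hd
    have hN : ∀ y, Nb D d y → y ∈ Subgroup.closure {y : G | y ∈ D ∧ y ≠ d ∧ Commute d y} :=
      fun y hy => Subgroup.subset_closure hy
    -- two non-commuting neighbours
    have hex : ∃ a b, Nb D d a ∧ Nb D d b ∧ a * b ≠ b * a := by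
      by_contra hcon
      push Not at hcon
      apply perm3_not_comm
      intro X Y
      have hcomm : ∀ x ∈ {y : G | y ∈ D ∧ y ≠ d ∧ Commute d y},
          ∀ y ∈ {y : G | y ∈ D ∧ y ≠ d ∧ Commute d y}, x * y = y * x :=
        fun x hx y hy => hcon x y hx hy
      have h1 : ∀ u v : ↥(Subgroup.closure {y : G | y ∈ D ∧ y ≠ d ∧ Commute d y}),
          u * v = v * u := by
        intro u v
        exact (Subgroup.isMulCommutative_closure hcomm).is_comm.comm u v
      have h2 := h1 (φ.symm X) (φ.symm Y)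
      have h3 := congrArg φ h2
      rw [map_mul, map_mul, MulEquiv.apply_symm_apply, MulEquiv.apply_symm_apply] at h3
      exact h3
    obtain ⟨a, b, ha, hb, hab⟩ := hex
    refine ⟨a, b, ha, hb, hab, ?_⟩
    intro y hy
    have key : ∀ z (hz : Nb D d z),
        φ ⟨z, hN z hz⟩ * φ ⟨z, hN z hz⟩ = 1 ∧ φ ⟨z, hN z hz⟩ ≠ 1 := by
      intro z hz
      constructor
      · rw [← map_mul]
        have h1 : (⟨z, hN z hz⟩ : ↥(Subgroup.closure {y : G | y ∈ D ∧ y ≠ d ∧ Commute d y}))
            * ⟨z, hN z hz⟩ = 1 := Subtype.ext (hsq z hz.1)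
        rw [h1, map_one]
      · intro h1
        have h2 := φ.injective (h1.trans (map_one φ).symm)
        exact hne1 z hz.1 (congrArg Subtype.val h2)
    have hXY : φ ⟨a, hN a ha⟩ * φ ⟨b, hN b hb⟩ ≠ φ ⟨b, hN b hb⟩ * φ ⟨a, hN a ha⟩ := by
      intro h1
      rw [← map_mul, ← map_mul] at h1
      exact hab (congrArg Subtype.val (φ.injective h1))
    rcases perm3_invol _ _ _ (key a ha).1 (key b hb).1 (key y hy).1 (key y hy).2 hXY with
      h | h | h
    · left
      exact congrArg Subtype.val (φ.injective h)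
    · right; left
      exact congrArg Subtype.val (φ.injective h)
    · right; right
      rw [← map_mul, ← map_mul] at h
      exact congrArg Subtype.val (φ.injective h)
  · -- s3
    intro d hd
    exact hloc d hd

end Cfsg.Agent.Lib.Helper43.TT5
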