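import Mathlib
import Cfsg.Agent.Lib.Helper98.U84Defs
import Cfsg.Agent.Lib.Helper7.GUOrder

/-!
S5984 piece U84-ORDID (helper43 for helper98): `|GU_2m(q)| = |GL_m(q^2)| * q^(m^2) * ∏ (q^(2l+1)+1)`.
-/

set_option autoImplicit false

namespace Cfsg.Agent.Lib.Helper98.U84

open Matrix Polynomial

theorem ordid_prod_even_odd (g : ℕ → ℕ) (m : ℕ) :
    ∏ i ∈ Finset.range (2 * m), g i = ∏ l ∈ Finset.range m, (g (2 * l) * g (2 * l + 1)) := by
  induction m with
  | zero => simp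
  | succ k ih =>
    rw [show 2 * (k + 1) = 2 * k + 1 + 1 by ring, Finset.prod_range_succ, Finset.prod_range_succ,
      ih, Finset.prod_range_succ, mul_assoc]

theorem ordid_gl_prod (Q m : ℕ) :
    ∏ i ∈ Finset.range m, (Q ^ m - Q ^ i) =
      Q ^ (m * (m - 1) / 2) * ∏ l ∈ Finset.range m, (Q ^ (l + 1) - 1) := by
  have h1 : ∀ i ∈ Finset.range m, Q ^ m - Q ^ i = Q ^ i * (Q ^ (m - 1 - i + 1) - 1) := by
    intro i hi
    rw [Finset.mem_range] at hi
    have h2 : m - 1 - i + 1 = m - i := by omega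
    rw [h2, Nat.mul_sub, mul_one, ← pow_add]
    congr 2
    omega
  have h3 := Finset.prod_range_reflect (fun j => Q ^ (j + 1) - 1) m
  beta_reduce at h3
  rw [Finset.prod_congr rfl h1, Finset.prod_mul_distrib, Finset.prod_pow_eq_pow_sum,
    Finset.sum_range_id, h3]

theorem ordid_arith (q m : ℕ) :
    q ^ (2 * m * (2 * m - 1) / 2) *
        ∏ i ∈ Finset.range (2 * m), (if Even i then q ^ (i + 1) + 1 else q ^ (i + 1) - 1) =
      (∏ i ∈ Finset.range m, ((q ^ 2) ^ m - (q ^ 2) ^ i)) *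
        (q ^ (m ^ 2) * ∏ l ∈ Finset.range m, (q ^ (2 * l + 1) + 1)) := by
  rw [ordid_gl_prod, ordid_prod_even_odd]
  have hexp : 2 * m * (2 * m - 1) / 2 = m * (m - 1) + m ^ 2 := by
    rcases m with _ | k
    · rfl
    · have h : 2 * (k + 1) * (2 * (k + 1) - 1) = 2 * ((k + 1) * (k + 1 - 1) + (k + 1) ^ 2) := by
        have h' : 2 * (k + 1) - 1 = 2 * k + 1 := by omega
        rw [h', Nat.add_sub_cancel]
        ring
      rw [h, Nat.mul_div_cancel_left _ (by norm_num)]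
  have hexp2 : (q ^ 2) ^ (m * (m - 1) / 2) = q ^ (m * (m - 1)) := by
    rw [← pow_mul, Nat.mul_div_cancel' (Nat.even_mul_pred_self m).two_dvd]
  have hterm : ∀ l ∈ Finset.range m,
      (if Even (2 * l) then q ^ (2 * l + 1) + 1 else q ^ (2 * l + 1) - 1) *
        (if Even (2 * l + 1) then q ^ (2 * l + 1 + 1) + 1 else q ^ (2 * l + 1 + 1) - 1) =
      (q ^ (2 * l + 1) + 1) * ((q ^ 2) ^ (l + 1) - 1) := by
    intro l _
    have hne : ¬ Even (2 * l + 1) := by
      rw [Nat.not_even_iff_odd]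
      exact odd_two_mul_add_one l
    rw [if_pos (even_two_mul l), if_neg hne, ← pow_mul]
    have h2 : 2 * l + 1 + 1 = 2 * (l + 1) := by ring
    rw [h2]
  rw [Finset.prod_congr rfl hterm, Finset.prod_mul_distrib, hexp, hexp2, pow_add]
  ring

/-! ### U84-ORDID -/
theorem card_GU_eq_card_GL_mul {F : Type*} [Field F] [Fintype F] {q : ℕ}
    (hF : Fintype.card F = q ^ 2) (m : ℕ) :
    Nat.card (Cfsg.GU (2 * m) F q) =
      Nat.card (GL (Fin m) F) * (q ^ (m ^ 2) * ∏ l ∈ Finset.range m, (q ^ (2 * l + 1) + 1)) := by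
  rw [Cfsg.Agent.Lib.Helper7.card_GU hF (2 * m), Matrix.card_GL_field, hF,
    Fin.prod_univ_eq_prod_range (fun i => (q ^ 2) ^ m - (q ^ 2) ^ i) m]
  exact ordid_arith q m

end Cfsg.Agent.Lib.Helper98.U84
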