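import Cfsg.Agent.Lib.Helper47.UniDefs

set_option autoImplicit false

namespace Cfsg.Agent.Lib.Helper43.Uni

open Cfsg.Agent.Lib.Helper47 Module

universe u

variable {F : Type u} [Field F]

section Model

variable {ι : Type} (d : ι → ℕ) (G : ι → ι → F)

lemma sig_eq_iff (r s : (i : ι) × Fin (d i)) :
    r = s ↔ r.1 = s.1 ∧ (r.2 : ℕ) = (s.2 : ℕ) := by
  constructor
  · rintro rfl; exact ⟨rfl, rfl⟩
  · rintro ⟨h1, h2⟩
    obtain ⟨i, a⟩ := r
    obtain ⟨j, b⟩ := s
    dsimp only at h1 h2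
    subst h1
    rw [Fin.ext h2]

/-- The anti-diagonal Gram function of the model. -/
def mGram (s t : (i : ι) × Fin (d i)) : F :=
  if d s.1 = d t.1 ∧ (s.2 : ℕ) + (t.2 : ℕ) + 1 = d s.1 then (-1) ^ (s.2 : ℕ) * G s.1 t.1 else 0

open Classical in
/-- The standard basis vector. -/
noncomputable def mE (s : (i : ι) × Fin (d i)) : ((i : ι) × Fin (d i)) → F :=
  fun t => if t = s then 1 else 0

open Classical in
/-- The shift matrix. -/
noncomputable def mS : Matrix ((i : ι) × Fin (d i)) ((i : ι) × Fin (d i)) F :=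
  fun r s => if r.1 = s.1 ∧ (r.2 : ℕ) = (s.2 : ℕ) + 1 then 1 else 0

lemma mGram_antisymm (hsymm : ∀ i k, d i = d k → G k i = (-1) ^ d i * G i k)
    (s t : (i : ι) × Fin (d i)) : mGram d G t s = -mGram d G s t := by
  unfold mGram
  by_cases hc : d s.1 = d t.1 ∧ (s.2 : ℕ) + (t.2 : ℕ) + 1 = d s.1
  · have hpw : (-1 : F) ^ d s.1 = (-1) ^ ((s.2 : ℕ) + (t.2 : ℕ) + 1) := congrArg _ hc.2.symm
    rw [if_pos hc, if_pos ⟨hc.1.symm, by omega⟩, hsymm s.1 t.1 hc.1, hpw]
    rw [pow_succ, pow_add]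
    have h2 : ((-1 : F) ^ (t.2 : ℕ)) * ((-1 : F) ^ (t.2 : ℕ)) = 1 := by
      rw [← mul_pow]; simp
    linear_combination ((-1 : F) ^ (s.2 : ℕ) * G s.1 t.1 * (-1)) * h2
  · rw [if_neg hc, if_neg (by intro h; exact hc ⟨h.1.symm, by omega⟩), neg_zero]

variable [Fintype ι]

lemma sum_mS (f : ((i : ι) × Fin (d i)) → F) (s : (i : ι) × Fin (d i)) :
    ∑ r, mS (F := F) d r s * f r
      = if h : (s.2 : ℕ) + 1 < d s.1 then f ⟨s.1, ⟨(s.2 : ℕ) + 1, h⟩⟩ else 0 := by
  by_cases h : (s.2 : ℕ) + 1 < d s.1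
  · rw [dif_pos h, Finset.sum_eq_single ⟨s.1, ⟨(s.2 : ℕ) + 1, h⟩⟩]
    · simp [mS]
    · intro r _ hr
      have : ¬ (r.1 = s.1 ∧ (r.2 : ℕ) = (s.2 : ℕ) + 1) :=
        fun hc => hr ((sig_eq_iff d _ _).2 ⟨hc.1, hc.2⟩)
      simp [mS, this]
    · intro hh; exact absurd (Finset.mem_univ _) hh
  · rw [dif_neg h]
    apply Finset.sum_eq_zero
    intro r _
    have : ¬ (r.1 = s.1 ∧ (r.2 : ℕ) = (s.2 : ℕ) + 1) := by
      rintro ⟨h1, h2⟩
      have h3 : d r.1 = d s.1 := by rw [h1]
      have := r.2.2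
      omega
    simp [mS, this]

lemma gForm_eq_dot {κ : Type*} [Fintype κ] (Γ : κ → κ → F) (v w : κ → F) :
    gForm Γ v w = v ⬝ᵥ (Matrix.of Γ).mulVec w := by
  simp only [gForm, dotProduct, Matrix.mulVec, Matrix.of_apply, Finset.mul_sum, mul_assoc]

lemma model_skew : IsSkewAdj (gForm (mGram d G)) (Matrix.mulVecLin (mS (F := F) d)) := by
  intro v w
  rw [gForm_eq_dot, gForm_eq_dot, Matrix.mulVecLin_apply, Matrix.mulVecLin_apply,
    ← Matrix.vecMul_transpose, ← Matrix.dotProduct_mulVec, Matrix.mulVec_mulVec,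
    Matrix.mulVec_mulVec]
  have hM : Matrix.transpose (mS (F := F) d) * Matrix.of (mGram d G) = -(Matrix.of (mGram d G) * mS d) := by
    ext s t
    rw [Matrix.neg_apply, Matrix.mul_apply, Matrix.mul_apply]
    simp only [Matrix.transpose_apply, Matrix.of_apply]
    rw [sum_mS d (fun r => mGram d G r t) s]
    have : ∑ r, mGram d G s r * mS d r t = ∑ r, mS d r t * mGram d G s r :=
      Finset.sum_congr rfl (fun _ _ => mul_comm _ _)
    rw [this, sum_mS d (fun r => mGram d G s r) t]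
    have hs := s.2.2
    have ht := t.2.2
    by_cases h1 : (s.2 : ℕ) + 1 < d s.1
    · by_cases h2 : (t.2 : ℕ) + 1 < d t.1
      · rw [dif_pos h1, dif_pos h2]
        unfold mGram
        dsimp only
        by_cases hc : d s.1 = d t.1 ∧ (s.2 : ℕ) + 1 + (t.2 : ℕ) + 1 = d s.1
        · rw [if_pos hc, if_pos ⟨hc.1, by omega⟩, pow_succ]
          ring
        · rw [if_neg hc, if_neg (by intro h; exact hc ⟨h.1, by omega⟩), neg_zero]
      · rw [dif_pos h1, dif_neg h2, neg_zero]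
        unfold mGram
        dsimp only
        rw [if_neg (by intro h; omega)]
    · rw [dif_neg h1]
      by_cases h2 : (t.2 : ℕ) + 1 < d t.1
      · rw [dif_pos h2]
        unfold mGram
        dsimp only
        rw [if_neg (by intro h; omega), neg_zero]
      · rw [dif_neg h2, neg_zero]
  rw [hM, Matrix.neg_mulVec, dotProduct_neg]

lemma model_sform (hsymm : ∀ i k, d i = d k → G k i = (-1) ^ d i * G i k) :
    IsSForm (RingHom.id F) (-1) (gForm (mGram d G)) := by
  refine ⟨fun x y z => ?_, fun c x y => ?_, fun x y => ?_⟩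
  · simp only [gForm, Pi.add_apply, add_mul, Finset.sum_add_distrib]
  · simp only [gForm, Pi.smul_apply, smul_eq_mul, Finset.mul_sum, mul_assoc]
  · simp only [gForm, RingHom.id_apply, Finset.mul_sum]
    rw [Finset.sum_comm]
    refine Finset.sum_congr rfl (fun a _ => Finset.sum_congr rfl (fun b _ => ?_))
    rw [mGram_antisymm d G hsymm b a]
    ring

lemma gForm_mE_right (Γ : ((i : ι) × Fin (d i)) → ((i : ι) × Fin (d i)) → F)
    (v : ((i : ι) × Fin (d i)) → F) (t : (i : ι) × Fin (d i)) :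
    gForm Γ v (mE d t) = ∑ s, v s * Γ s t := by
  unfold gForm
  refine Finset.sum_congr rfl (fun s _ => ?_)
  rw [Finset.sum_eq_single t]
  · simp [mE]
  · intro b _ hb
    simp [mE, hb]
  · intro hh; exact absurd (Finset.mem_univ _) hh

lemma gForm_mE_mE (Γ : ((i : ι) × Fin (d i)) → ((i : ι) × Fin (d i)) → F)
    (s t : (i : ι) × Fin (d i)) :
    gForm Γ (mE (F := F) d s) (mE d t) = Γ s t := by
  rw [gForm_mE_right, Finset.sum_eq_single s]
  · simp [mE]
  · intro b _ hb
    simp [mE, hb]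
  · intro hh; exact absurd (Finset.mem_univ _) hh

lemma mS_mE (s : (i : ι) × Fin (d i)) :
    Matrix.mulVecLin (mS (F := F) d) (mE d s)
      = if h : (s.2 : ℕ) + 1 < d s.1 then mE d ⟨s.1, ⟨(s.2 : ℕ) + 1, h⟩⟩ else 0 := by
  funext r
  rw [Matrix.mulVecLin_apply]
  have h0 : (mS (F := F) d).mulVec (mE d s) r = mS d r s := by
    unfold Matrix.mulVec dotProduct
    rw [Finset.sum_eq_single s]
    · simp [mE]
    · intro b _ hb
      simp [mE, hb]
    · intro hh; exact absurd (Finset.mem_univ _) hh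
  rw [h0]
  by_cases h : (s.2 : ℕ) + 1 < d s.1
  · rw [dif_pos h]
    unfold mS mE
    by_cases hc : r.1 = s.1 ∧ (r.2 : ℕ) = (s.2 : ℕ) + 1
    · rw [if_pos hc, if_pos ((sig_eq_iff d r ⟨s.1, ⟨(s.2 : ℕ) + 1, h⟩⟩).2 ⟨hc.1, hc.2⟩)]
    · rw [if_neg hc, if_neg]
      intro hr
      exact hc ((sig_eq_iff d r ⟨s.1, ⟨(s.2 : ℕ) + 1, h⟩⟩).1 hr)
  · rw [dif_neg h]
    unfold mS
    rw [if_neg]
    · rfl
    · rintro ⟨h1, h2⟩
      have h3 : d r.1 = d s.1 := by rw [h1]
      have := r.2.2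
      omega

lemma mS_pow (i : ι) (hi : 0 < d i) (a : ℕ) :
    ((Matrix.mulVecLin (mS (F := F) d)) ^ a) (mE d ⟨i, ⟨0, hi⟩⟩)
      = if h : a < d i then mE d ⟨i, ⟨a, h⟩⟩ else 0 := by
  induction a with
  | zero => rw [pow_zero, Module.End.one_apply, dif_pos hi]
  | succ a ih =>
    rw [pow_succ', Module.End.mul_apply, ih]
    by_cases h : a < d i
    · rw [dif_pos h, mS_mE]
    · rw [dif_neg h, map_zero, dif_neg (by omega)]

lemma model_nondeg (hnd : ∀ j, Nondeg (layerForm d G j)) : Nondeg (gForm (mGram d G)) := by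
  intro v hv
  funext s0
  obtain ⟨i0, a0⟩ := s0
  have ha0 := a0.2
  -- the layer vector
  set u : {i : ι // d i = d i0} → F := fun a => v ⟨a.1, ⟨(a0 : ℕ), by have := a.2; omega⟩⟩ with hu
  have hu0 : u = 0 := by
    apply hnd (d i0)
    intro w
    have key : ∀ b : {i : ι // d i = d i0}, ∑ a, u a * G a b = 0 := by
      intro b
      have hb := b.2
      have h1 := hv (mE d ⟨b.1, ⟨d i0 - 1 - (a0 : ℕ), by omega⟩⟩)
      rw [gForm_mE_right] at h1
      have h2 : ∑ a : {i : ι // d i = d i0}, u a * ((-1) ^ (a0 : ℕ) * G a b)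
          = ∑ s, v s * mGram d G s ⟨b.1, ⟨d i0 - 1 - (a0 : ℕ), by omega⟩⟩ := by
        apply Fintype.sum_of_injective
          (fun a : {i : ι // d i = d i0} =>
            (⟨a.1, ⟨(a0 : ℕ), by have := a.2; omega⟩⟩ : (i : ι) × Fin (d i)))
        · intro a a' haa
          have := ((sig_eq_iff d _ _).1 haa).1
          exact Subtype.ext this
        · intro s hs
          unfold mGram
          rw [if_neg, mul_zero]
          rintro ⟨hc1, hc2⟩
          apply hs
          dsimp only at hc1 hc2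
          refine ⟨⟨s.1, by omega⟩, ?_⟩
          apply (sig_eq_iff d _ _).2
          refine ⟨rfl, ?_⟩
          dsimp only
          omega
        · intro a
          have ha := a.2
          unfold mGram
          dsimp only
          rw [if_pos ⟨by omega, by omega⟩]
      rw [← h2] at h1
      have h3 : ∑ a : {i : ι // d i = d i0}, u a * ((-1) ^ (a0 : ℕ) * G a b)
          = (-1) ^ (a0 : ℕ) * ∑ a : {i : ι // d i = d i0}, u a * G a b := by
        rw [Finset.mul_sum]
        refine Finset.sum_congr rfl (fun a _ => ?_)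
        ring
      rw [h3] at h1
      rcases mul_eq_zero.1 h1 with h | h
      · exact absurd h (pow_ne_zero _ (neg_ne_zero.2 one_ne_zero))
      · exact h
    unfold layerForm gForm
    rw [Finset.sum_comm]
    apply Finset.sum_eq_zero
    intro b _
    rw [← Finset.sum_mul, key b, zero_mul]
  have := congrFun hu0 ⟨i0, rfl⟩
  simpa [hu] using this

end Model

theorem exists_model {ι : Type} [Fintype ι] (d : ι → ℕ) (G : ι → ι → F) (hpos : ∀ i, 0 < d i)
    (hsymm : ∀ i k, d i = d k → G k i = (-1) ^ d i * G i k)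
    (hnd : ∀ j, Nondeg (layerForm d G j)) :
    ∃ (B : (((i : ι) × Fin (d i)) → F) → (((i : ι) × Fin (d i)) → F) → F)
      (N : (((i : ι) × Fin (d i)) → F) →ₗ[F] (((i : ι) × Fin (d i)) → F))
      (x : ι → (((i : ι) × Fin (d i)) → F)),
      IsSForm (RingHom.id F) (-1) B ∧ Nondeg B ∧ IsSkewAdj B N ∧ IsFrame B N d G x := by
  refine ⟨gForm (mGram d G), Matrix.mulVecLin (mS d), fun i => mE d ⟨i, ⟨0, hpos i⟩⟩,
    model_sform d G hsymm, model_nondeg d G hnd, model_skew d G, ?_⟩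
  have hz1 : ∀ w : ((i : ι) × Fin (d i)) → F, gForm (mGram d G) 0 w = 0 := by
    intro w; simp [gForm]
  have hz2 : ∀ w : ((i : ι) × Fin (d i)) → F, gForm (mGram d G) w 0 = 0 := by
    intro w; simp [gForm]
  refine ⟨hpos, fun i => ?_, fun i k a b => ?_, hnd, ?_⟩
  · rw [mS_pow, dif_neg (lt_irrefl _)]
  · rw [mS_pow, mS_pow]
    by_cases ha : a < d i
    · by_cases hb : b < d k
      · rw [dif_pos ha, dif_pos hb, gForm_mE_mE]
        rfl
      · rw [dif_neg hb, hz2, if_neg (by intro h; omega)]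
    · rw [dif_neg ha, hz1, if_neg (by intro h; omega)]
  · rw [Module.finrank_fintype_fun_eq_card, Fintype.card_sigma]
    simp

end Cfsg.Agent.Lib.Helper43.Uni
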